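import Cfsg.Agent.Lib.Helper24.BrauerTrans

set_option autoImplicit false
set_option linter.style.haveILetI false
open Cfsg
open scoped ComplexConjugate

namespace Cfsg.Agent.Lib.Helper24

open Cfsg.Agent.Lib.Helper7

universe u
variable {G : Type u} [Group G] {M : Ideal AlgInt} {p : ℕ} [Fintype G]

theorem isBrauerPairOf_of_normalSubpair (hM : IsPModular p M) {Q P : Subgroup G}
    {f : Set (IrrCharacter (Subgroup.centralizer (Q : Set G)))}
    {e : Set (IrrCharacter (Subgroup.centralizer (P : Set G)))}
    (h : IsNormalSubpair p M Q f P e) {B : Set (IrrCharacter G)}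
    (hB : IsBrauerPairOf p M B Q f) : IsBrauerPairOf p M B P e := by
  haveI := hM.2.1.isPrime
  refine ⟨h.2.1, hB.2.1, fun ξ hξ => ?_⟩
  exact brauerOmega_trans hM h.2.1.1 h.2.2.1 h.2.2.2.1 (osima hB.2.1)
    (invUnder_of_isClassFunction (isClassFunction_blockCoeff B) _)
    (invUnder_of_isClassFunction (isClassFunction_blockCoeff B) _) (conv_blockCoeff B)
    h.1.2 h.2.2.2.2.1 hB.2.2 ξ (h.2.2.2.2.2 ξ hξ)

theorem isBrauerPairOf_normalSubpair_iff (hM : IsPModular p M) {Q P : Subgroup G}
    {f : Set (IrrCharacter (Subgroup.centralizer (Q : Set G)))}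
    {e : Set (IrrCharacter (Subgroup.centralizer (P : Set G)))}
    (h : IsNormalSubpair p M Q f P e) (B : Set (IrrCharacter G)) :
    IsBrauerPairOf p M B P e ↔ IsBrauerPairOf p M B Q f := by
  constructor
  · intro hB
    obtain ⟨B', hB', -⟩ := existsUnique_block_of_pair hM h.1
    have h1 := isBrauerPairOf_of_normalSubpair hM h hB'
    have h2 := (existsUnique_block_of_pair hM h.2.1).unique h1 hB
    rwa [← h2]
  · exact isBrauerPairOf_of_normalSubpair hM h

theorem isBrauerPairOf_subpairLE_iff (hM : IsPModular p M) {Q P : Subgroup G}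
    {f : Set (IrrCharacter (Subgroup.centralizer (Q : Set G)))}
    {e : Set (IrrCharacter (Subgroup.centralizer (P : Set G)))}
    (h : SubpairLE p M Q f P e) (B : Set (IrrCharacter G)) :
    IsBrauerPairOf p M B P e ↔ IsBrauerPairOf p M B Q f := by
  have key : ∀ b : BrauerPairIdx G,
      Relation.ReflTransGen (NormalSubpairRel p M) ⟨Q, f⟩ b →
        (IsBrauerPairOf p M B b.1 b.2 ↔ IsBrauerPairOf p M B Q f) := by
    intro b hb
    induction hb with
    | refl => exact Iff.rfl
    | tail _ h2 ih => exact (isBrauerPairOf_normalSubpair_iff hM h2 B).trans ih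
  exact key _ h

end Cfsg.Agent.Lib.Helper24
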