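import Cfsg.Agent.Lib.Helper24.BlockTransport
import Cfsg.Agent.Lib.Helper9.PGrp

set_option autoImplicit false
set_option linter.style.haveILetI false
open Cfsg
open scoped ComplexConjugate

namespace Cfsg.Agent.Lib.Helper24

open Cfsg.Agent.Lib.Helper7

universe u
variable {G : Type u} [Group G] {M : Ideal AlgInt} {p : ℕ}

/-- conjugation by a normalizing element -/
noncomputable def nConj (K : Subgroup G) (y : G) (hy : y ∈ Subgroup.normalizer (K : Set G)) :
    K ≃* K := K.normalizerMonoidHom ⟨y, hy⟩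

theorem nConj_coe (K : Subgroup G) (y : G) (hy : y ∈ Subgroup.normalizer (K : Set G)) (k : K) :
    ((nConj K y hy k : K) : G) = y * k * y⁻¹ := rfl

theorem isConjCharOf_iff (K : Subgroup G) (y : G) (hy : y ∈ Subgroup.normalizer (K : Set G))
    (χ χ' : IrrCharacter K) :
    IsConjCharOf K y (χ : K → ℂ) (χ' : K → ℂ) ↔ mapIrr (nConj K y hy) χ' = χ := by
  constructor
  · intro h
    apply Subtype.ext
    funext k
    exact h k (nConj K y hy k) (nConj_coe K y hy k)
  · rintro rfl k k' hk
    rw [mapIrr_apply]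
    have e : k' = nConj K y hy k := Subtype.ext hk
    rw [e]

theorem normalizer_le_normalizer_centralizer (Q : Subgroup G) :
    Subgroup.normalizer (Q : Set G)
      ≤ Subgroup.normalizer ((Subgroup.centralizer (Q : Set G) : Subgroup G) : Set G) := by
  have key : ∀ y ∈ Subgroup.normalizer (Q : Set G), ∀ k ∈ Subgroup.centralizer (Q : Set G),
      y * k * y⁻¹ ∈ Subgroup.centralizer (Q : Set G) := by
    intro y hy k hk
    rw [Subgroup.mem_centralizer_iff] at hk ⊢
    intro q hq
    have hq' : y⁻¹ * q * y ∈ Q := by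
      have := (Subgroup.mem_normalizer_iff.1 (Subgroup.inv_mem _ hy) q).1 hq
      simpa using this
    have := hk _ hq'
    calc q * (y * k * y⁻¹) = y * ((y⁻¹ * q * y) * k) * y⁻¹ := by group
      _ = y * (k * (y⁻¹ * q * y)) * y⁻¹ := by rw [this]
      _ = y * k * y⁻¹ * q := by group
  intro y hy
  rw [Subgroup.mem_normalizer_iff]
  intro k
  constructor
  · exact key y hy k
  · intro h
    have := key y⁻¹ (Subgroup.inv_mem _ hy) _ h
    have e : y⁻¹ * (y * k * y⁻¹) * y⁻¹⁻¹ = k := by group
    rwa [e] at this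

theorem stabilizesBlock_principal (K : Subgroup G) (y : G)
    (hy : y ∈ Subgroup.normalizer (K : Set G)) :
    StabilizesBlock K (principalBlock M K) y := by
  refine ⟨hy, fun χ hχ => ⟨mapIrr (nConj K y hy).symm χ, ?_, ?_⟩⟩
  · rwa [mapIrr_mem_principalBlock_iff]
  · rw [isConjCharOf_iff K y hy, mapIrr_mapIrr_symm]

/-- conjugation isomorphism between centralizers -/
noncomputable def cConj (Q : Subgroup G) (x : G) :
    Subgroup.centralizer (Q : Set G) ≃*
      Subgroup.centralizer ((Q.map (MulAut.conj x).toMonoidHom : Subgroup G) : Set G) where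
  toFun c := ⟨x * c * x⁻¹, by
    rw [Subgroup.mem_centralizer_iff]
    rintro _ ⟨q, hq, rfl⟩
    have := Subgroup.mem_centralizer_iff.1 c.2 q hq
    show x * q * x⁻¹ * (x * c * x⁻¹) = x * c * x⁻¹ * (x * q * x⁻¹)
    calc x * q * x⁻¹ * (x * c * x⁻¹) = x * (q * c) * x⁻¹ := by group
      _ = x * (c * q) * x⁻¹ := by rw [this]
      _ = _ := by group⟩
  invFun c := ⟨x⁻¹ * c * x, by
    rw [Subgroup.mem_centralizer_iff]
    intro q hq
    have := Subgroup.mem_centralizer_iff.1 c.2 (x * q * x⁻¹) ⟨q, hq, rfl⟩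
    calc q * (x⁻¹ * c * x) = x⁻¹ * ((x * q * x⁻¹) * c) * x := by group
      _ = x⁻¹ * (c * (x * q * x⁻¹)) * x := by rw [this]
      _ = _ := by group⟩
  left_inv c := by
    apply Subtype.ext
    show x⁻¹ * (x * c * x⁻¹) * x = c
    group
  right_inv c := by
    apply Subtype.ext
    show x * (x⁻¹ * c * x) * x⁻¹ = c
    group
  map_mul' a b := by
    apply Subtype.ext
    show x * (a * b) * x⁻¹ = (x * a * x⁻¹) * (x * b * x⁻¹)
    group

theorem cConj_coe (Q : Subgroup G) (x : G) (c : Subgroup.centralizer (Q : Set G)) :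
    ((cConj Q x c : _) : G) = x * c * x⁻¹ := rfl

theorem conjBlock_eq (Q : Subgroup G) (x : G)
    (f : Set (IrrCharacter (Subgroup.centralizer (Q : Set G)))) :
    conjBlock Q x f = mapIrr (cConj Q x) ⁻¹' f := by
  ext ξ'
  constructor
  · rintro ⟨ξ, hξ, h⟩
    have : mapIrr (cConj Q x) ξ' = ξ := by
      apply Subtype.ext
      funext c
      exact h c (cConj Q x c) (cConj_coe Q x c)
    show mapIrr (cConj Q x) ξ' ∈ f
    rwa [this]
  · intro h
    refine ⟨_, h, fun c c' hc => ?_⟩
    rw [mapIrr_apply]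
    have e : c' = cConj Q x c := Subtype.ext hc
    rw [e]

theorem conjBlock_principal (Q : Subgroup G) (x : G) :
    conjBlock Q x (principalBlock M (Subgroup.centralizer (Q : Set G)))
      = principalBlock M
        (Subgroup.centralizer ((Q.map (MulAut.conj x).toMonoidHom : Subgroup G) : Set G)) := by
  rw [conjBlock_eq, preimage_principalBlock]

theorem subgroupBlockCoeff_of_mem (K : Subgroup G) (e : Set (IrrCharacter K)) {g : G}
    (hg : g ∈ K) : subgroupBlockCoeff K e g = blockCoeff e ⟨g, hg⟩ := by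
  simp [subgroupBlockCoeff, hg]

theorem subgroupBlockCoeff_coe (K : Subgroup G) (e : Set (IrrCharacter K)) (k : K) :
    subgroupBlockCoeff K e k = blockCoeff e k := by
  simp [subgroupBlockCoeff]

theorem subgroupBlockCoeff_of_not_mem (K : Subgroup G) (e : Set (IrrCharacter K)) {g : G}
    (hg : g ∉ K) : subgroupBlockCoeff K e g = 0 := by
  simp [subgroupBlockCoeff, hg]

theorem memLocalRing_subgroupBlockCoeff [Finite G] [M.IsPrime] (K : Subgroup G)
    {e : Set (IrrCharacter K)} (he : IsPBlock M e) (g : G) :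
    MemLocalRing M (subgroupBlockCoeff K e g) := by
  haveI := Fintype.ofFinite K
  by_cases hg : g ∈ K
  · rw [subgroupBlockCoeff_of_mem K e hg]
    exact osima he _
  · rw [subgroupBlockCoeff_of_not_mem K e hg]
    exact memLocalRing_zero

/-- invariance of the idempotent of a set under a normalizing element fixing the set -/
theorem subgroupBlockCoeff_conj [Finite G] (K : Subgroup G) (e : Set (IrrCharacter K)) (y : G)
    (hy : y ∈ Subgroup.normalizer (K : Set G)) (he : mapIrr (nConj K y hy) ⁻¹' e = e) (g : G) :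
    subgroupBlockCoeff K e (y * g * y⁻¹) = subgroupBlockCoeff K e g := by
  by_cases hg : g ∈ K
  · have hg' : y * g * y⁻¹ ∈ K := (Subgroup.mem_normalizer_iff.1 hy g).1 hg
    rw [subgroupBlockCoeff_of_mem K e hg, subgroupBlockCoeff_of_mem K e hg']
    have := blockCoeff_preimage (nConj K y hy) e ⟨g, hg⟩
    rw [he] at this
    exact this
  · have hg' : y * g * y⁻¹ ∉ K := fun h => hg ((Subgroup.mem_normalizer_iff.1 hy g).2 h)
    rw [subgroupBlockCoeff_of_not_mem K e hg, subgroupBlockCoeff_of_not_mem K e hg']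

theorem sum_subgroup_eq [Fintype G] (K : Subgroup G) [Fintype K] (β : G → ℂ) :
    ∑ k : K, β k = ∑ g : G, (K : Set G).indicator β g := by
  classical
  rw [← Finset.sum_subtype (Finset.univ.filter (fun x : G => x ∈ K)) (by simp) β,
    Finset.sum_filter]
  apply Finset.sum_congr rfl
  intro x _
  by_cases hx : x ∈ K
  · rw [if_pos hx, Set.indicator_of_mem (by exact hx)]
  · rw [if_neg hx, Set.indicator_of_notMem (by exact hx)]

end Cfsg.Agent.Lib.Helper24
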