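import Cfsg.Agent.Lib.Helper24.BlockBrDecomp
import Cfsg.Agent.Lib.Helper24.BlockSection
import Cfsg.Agent.Lib.Helper7.BlockEFM
import Cfsg.Agent.Lib.Helper7.BlockFMT
import Cfsg.Agent.Lib.Helper7.BlockFactor

set_option autoImplicit false
set_option linter.style.haveILetI false
set_option linter.unusedSectionVars false
open Cfsg
open Cfsg.Agent.Lib.Helper7
open scoped ComplexConjugate

namespace Cfsg.Agent.Lib.Helper24

universe u
variable {G : Type u} [Group G] {M : Ideal AlgInt} {p : ℕ}

theorem defectGroup_of_normalizer_eq [Finite G] [Fact p.Prime]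
    (hM : IsPModular p M) {P H : Subgroup G} (hP : IsPGroup p P)
    (hH : H = Subgroup.normalizer (P : Set G)) {β : Set (IrrCharacter H)}
    {B : Set (IrrCharacter G)} (hind : IsInducedBlock M H β B)
    (h : IsDefectGroup p M B P) : IsDefectGroup p M β (P.subgroupOf H) := by
  subst hH
  exact (defectGroup_normalizer_iff hM hP hind).1 h

/-- two blocks with congruent idempotents are equal -/
theorem eq_of_blockCoeff_congr [Finite G] [M.IsPrime] {β₁ β₂ : Set (IrrCharacter G)}
    (h₁ : IsPBlock M β₁) (h₂ : IsPBlock M β₂)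
    (h : ∀ k, MemLocalIdeal M (blockCoeff β₁ k - blockCoeff β₂ k)) : β₁ = β₂ := by
  classical
  haveI := Fintype.ofFinite G
  obtain ⟨ξ, hξ⟩ := isPBlock_nonempty h₁
  have hc : IsClassFunction G (blockCoeff β₁ - blockCoeff β₂) :=
    isClassFunction_sub' (isClassFunction_blockCoeff β₁) (isClassFunction_blockCoeff β₂)
  have h1 := Om_memLocalIdeal (M := M) hc (fun g => h g) ξ
  rw [Om_sub', Pi.sub_apply, Om_blockCoeff, Om_blockCoeff, Set.indicator_of_mem hξ] at h1
  have hξ₂ : ξ ∈ β₂ := by
    by_contra hcon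
    rw [Set.indicator_of_notMem hcon, sub_zero] at h1
    exact not_memLocalIdeal_one h1
  rw [isPBlock_eq_blockOf h₁ hξ, isPBlock_eq_blockOf h₂ hξ₂]

variable [Fintype G] {P N : Subgroup G} [Fintype N]

theorem indSet_eq_of_defect [Fact p.Prime] (hM : IsPModular p M) (hP : IsPGroup p P)
    (hN : N = Subgroup.normalizer (P : Set G)) {B : Set (IrrCharacter G)}
    (hBP : IsDefectGroup p M B P) {β : Set (IrrCharacter N)} (hind : IsInducedBlock M N β B) :
    indSet M N B = β := by
  haveI := hM.2.1.isPrime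
  have hβ := defectGroup_of_normalizer_eq hM hP hN hind hBP
  ext ψ
  constructor
  · intro hψ
    have hψ' : IsInducedBlock M N (blockOf M (ψ : N → ℂ)) B := hψ
    have h1 := defectGroup_of_normalizer_eq hM hP hN hψ' hBP
    rw [eq_of_induced_normalizer hM hP hN hβ h1 hind hψ']
    exact self_mem_blockOf ψ
  · intro hψ
    show IsInducedBlock M N (blockOf M (ψ : N → ℂ)) B
    rw [← isPBlock_eq_blockOf hind.1 hψ]
    exact hind

theorem brH_congr_of_induced [Fact p.Prime] (hM : IsPModular p M) (hP : IsPGroup p P)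
    (hN : N = Subgroup.normalizer (P : Set G)) {B : Set (IrrCharacter G)}
    (hBP : IsDefectGroup p M B P) {β : Set (IrrCharacter N)} (hind : IsInducedBlock M N β B)
    (k : N) : MemLocalIdeal M (brH P N (blockCoeff B) k - blockCoeff β k) := by
  have h1 := brH_blockCoeff_sub hM hP (hN ▸ le_normalizer' P) (hN ▸ centralizer_le_normalizer' P)
    hN.le hind.2.1 k
  rwa [indSet_eq_of_defect hM hP hN hBP hind] at h1

theorem brauerCorr_down [Fact p.Prime] (hM : IsPModular p M)
    (hN : N = Subgroup.normalizer (P : Set G)) {B : Set (IrrCharacter G)} (hB : IsPBlock M B)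
    (hBP : IsDefectGroup p M B P) :
    ∃ β : Set (IrrCharacter N), IsInducedBlock M N β B ∧ IsDefectGroup p M β (P.subgroupOf N) ∧
      ∀ k : N, MemLocalIdeal M (brH P N (blockCoeff B) k - blockCoeff β k) := by
  have hP := isPGroup_of_defectGroup hM hB hBP
  obtain ⟨β, hind, hdef⟩ := exists_brauer_correspondent hM (hN ▸ le_normalizer' P)
    (hN ▸ centralizer_le_normalizer' P) hN.le hB hBP
  exact ⟨β, hind, hdef, brH_congr_of_induced hM hP hN hBP hind⟩

theorem brauerCorr_up [Fact p.Prime] (hM : IsPModular p M) (hP : IsPGroup p P)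
    (hN : N = Subgroup.normalizer (P : Set G)) {β : Set (IrrCharacter N)} (hβ : IsPBlock M β)
    (hβP : IsDefectGroup p M β (P.subgroupOf N)) :
    ∃ B : Set (IrrCharacter G), IsInducedBlock M N β B ∧ IsDefectGroup p M B P ∧
      ∀ k : N, MemLocalIdeal M (brH P N (blockCoeff B) k - blockCoeff β k) := by
  obtain ⟨B, hind⟩ := inducedBlockDefined_of_le hM hP (hN ▸ le_normalizer' P)
    (hN ▸ centralizer_le_normalizer' P) hN.le hβ
  have hBP := defectGroup_of_induced_normalizer hM hP hN hβP hind
  exact ⟨B, hind, hBP, brH_congr_of_induced hM hP hN hBP hind⟩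

end Cfsg.Agent.Lib.Helper24
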