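import Cfsg.Agent.Lib.Helper24.BrauerPrincipal
import Cfsg.Agent.Lib.Helper24.BlockBrSurj
import Cfsg.Agent.Lib.Helper7.BlockNilp

set_option autoImplicit false
set_option linter.style.haveILetI false
open Cfsg
open scoped ComplexConjugate

namespace Cfsg.Agent.Lib.Helper24

open Cfsg.Agent.Lib.Helper7

universe u
variable {G : Type u} [Group G] {M : Ideal AlgInt} {p : ℕ}

/-- invariance of a function under conjugation by the elements of a subgroup -/
def InvUnder (H : Subgroup G) (c : G → ℂ) : Prop := ∀ y ∈ H, ∀ g, c (y * g * y⁻¹) = c g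

theorem InvUnder.mono {H H' : Subgroup G} {c : G → ℂ} (h : InvUnder H c) (hle : H' ≤ H) :
    InvUnder H' c := fun y hy g => h y (hle hy) g

theorem InvUnder.sub {H : Subgroup G} {c d : G → ℂ} (hc : InvUnder H c) (hd : InvUnder H d) :
    InvUnder H (c - d) := fun y hy g => by
  simp only [Pi.sub_apply, hc y hy g, hd y hy g]

theorem InvUnder.isClassFunction_resH {H : Subgroup G} {c : G → ℂ} (h : InvUnder H c) :
    IsClassFunction H (resH H c) := fun g x => h x x.2 g

theorem InvUnder.conv [Fintype G] {H : Subgroup G} {c d : G → ℂ} (hc : InvUnder H c)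
    (hd : InvUnder H d) : InvUnder H (conv c d) := by
  intro y hy g
  rw [Cfsg.Agent.Lib.Helper7.conv, Cfsg.Agent.Lib.Helper7.conv]
  refine (Fintype.sum_equiv (MulAut.conj y).toEquiv _ _ (fun x => ?_)).symm
  show c x * d (x⁻¹ * g) = c (y * x * y⁻¹) * d ((y * x * y⁻¹)⁻¹ * (y * g * y⁻¹))
  rw [hc y hy x]
  have : (y * x * y⁻¹)⁻¹ * (y * g * y⁻¹) = y * (x⁻¹ * g) * y⁻¹ := by group
  rw [this, hd y hy]

variable [Fintype G]

/-- The Brauer map is multiplicative modulo the ideal on `P`-invariant functions. -/
theorem conv_fix (hM : IsPModular p M) (P : Subgroup G) (hP : IsPGroup p P)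
    {c d : G → ℂ} (hc : InvUnder P c) (hd : InvUnder P d)
    (hcS : ∀ g, MemLocalRing M (c g)) (hdS : ∀ g, MemLocalRing M (d g)) {k : G}
    (hk : k ∈ Subgroup.centralizer (P : Set G)) :
    MemLocalIdeal M (conv c d k -
      ∑ x, (Subgroup.centralizer (P : Set G) : Set G).indicator (fun x => c x * d (x⁻¹ * k)) x) := by
  classical
  haveI := hM.2.1.isPrime
  have key := orbit_sum hM hP (conjPerm P) (fun x => c x * d (x⁻¹ * k))
    (fun x => memLocalRing_mul (hcS x) (hdS _))
    (by
      intro q x
      simp only [conjPerm_apply]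
      rw [hc q q.2]
      congr 1
      have hqk : (q : G) * k = k * q := (Subgroup.mem_centralizer_iff.1 hk q q.2)
      have : ((q : G) * x * (q : G)⁻¹)⁻¹ * k = q * (x⁻¹ * k) * (q : G)⁻¹ := by
        have : k = q * k * (q : G)⁻¹ := by rw [hqk]; group
        conv_lhs => rw [this]
        group
      rw [this, hd q q.2])
  convert key using 1
  rw [Cfsg.Agent.Lib.Helper7.conv, ← Finset.sum_sub_distrib]
  apply Finset.sum_congr rfl
  intro x _
  by_cases hx : x ∈ Subgroup.centralizer (P : Set G)
  · rw [if_pos ((conjPerm_fixed_iff P x).2 hx), Set.indicator_of_mem (by exact hx), sub_self]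
  · rw [if_neg (fun h => hx ((conjPerm_fixed_iff P x).1 h)), Set.indicator_of_notMem (by exact hx),
      sub_zero]

theorem resH_conv_fix (hM : IsPModular p M) (P : Subgroup G)
    [Fintype (Subgroup.centralizer (P : Set G))] (hP : IsPGroup p P)
    {c d : G → ℂ} (hc : InvUnder P c) (hd : InvUnder P d)
    (hcS : ∀ g, MemLocalRing M (c g)) (hdS : ∀ g, MemLocalRing M (d g))
    (k : Subgroup.centralizer (P : Set G)) :
    MemLocalIdeal M (resH (Subgroup.centralizer (P : Set G)) (conv c d) k
      - conv (resH (Subgroup.centralizer (P : Set G)) c)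
          (resH (Subgroup.centralizer (P : Set G)) d) k) := by
  classical
  have key := conv_fix hM P hP hc hd hcS hdS k.2
  rw [← sum_subgroup_eq] at key
  exact key

theorem memLocalRing_brauerOmega [M.IsPrime] (P : Subgroup G) {c : G → ℂ}
    (hcC : InvUnder (Subgroup.centralizer (P : Set G)) c) (hcS : ∀ g, MemLocalRing M (c g))
    (ξ : IrrCharacter (Subgroup.centralizer (P : Set G))) :
    MemLocalRing M (brauerOmega P c (ξ : Subgroup.centralizer (P : Set G) → ℂ)) := by
  classical
  rw [brauerOmega_eq_Om]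
  exact centralSubring_apply_mem ⟨_, hcC.isClassFunction_resH, fun g => hcS _, rfl⟩ ξ

theorem brauerOmega_sameBlock [M.IsPrime] (P : Subgroup G) {c : G → ℂ}
    (hcC : InvUnder (Subgroup.centralizer (P : Set G)) c) (hcS : ∀ g, MemLocalRing M (c g))
    {ξ ξ' : IrrCharacter (Subgroup.centralizer (P : Set G))}
    (h : SameBlock M (ξ : Subgroup.centralizer (P : Set G) → ℂ)
      (ξ' : Subgroup.centralizer (P : Set G) → ℂ)) :
    MemLocalIdeal M (brauerOmega P c (ξ : Subgroup.centralizer (P : Set G) → ℂ)
      - brauerOmega P c (ξ' : Subgroup.centralizer (P : Set G) → ℂ)) := by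
  classical
  rw [brauerOmega_eq_Om, brauerOmega_eq_Om]
  exact centralSubring_congr (M := M) (v := Om (resH (Subgroup.centralizer (P : Set G)) c))
    ⟨_, hcC.isClassFunction_resH, fun g => hcS _, rfl⟩ h

theorem brauerOmega_sub (P : Subgroup G) (c d : G → ℂ)
    (ξ : IrrCharacter (Subgroup.centralizer (P : Set G))) :
    brauerOmega P (c - d) (ξ : Subgroup.centralizer (P : Set G) → ℂ)
      = brauerOmega P c (ξ : Subgroup.centralizer (P : Set G) → ℂ)
        - brauerOmega P d (ξ : Subgroup.centralizer (P : Set G) → ℂ) := by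
  classical
  rw [brauerOmega_eq_Om, brauerOmega_eq_Om, brauerOmega_eq_Om]
  simp only [Om, resH, Pi.sub_apply, sub_mul, Finset.sum_sub_distrib, sub_div]

/-- functions congruent on `C_G(P)` have congruent Brauer central character values -/
theorem brauerOmega_congr [M.IsPrime] (P : Subgroup G) {c d : G → ℂ}
    (hcC : InvUnder (Subgroup.centralizer (P : Set G)) c)
    (hdC : InvUnder (Subgroup.centralizer (P : Set G)) d)
    (h : ∀ x ∈ Subgroup.centralizer (P : Set G), MemLocalIdeal M (c x - d x))
    (ξ : IrrCharacter (Subgroup.centralizer (P : Set G))) :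
    MemLocalIdeal M (brauerOmega P c (ξ : Subgroup.centralizer (P : Set G) → ℂ)
      - brauerOmega P d (ξ : Subgroup.centralizer (P : Set G) → ℂ)) := by
  classical
  rw [← brauerOmega_sub, brauerOmega_eq_Om]
  exact Om_memLocalIdeal (hcC.sub hdC).isClassFunction_resH (fun g => h g g.2) ξ

/-- multiplicativity of the Brauer central characters on invariant functions -/
theorem brauerOmega_conv (hM : IsPModular p M) (P : Subgroup G) (hP : IsPGroup p P)
    {c d : G → ℂ} (hc : InvUnder P c) (hd : InvUnder P d)
    (hcC : InvUnder (Subgroup.centralizer (P : Set G)) c)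
    (hdC : InvUnder (Subgroup.centralizer (P : Set G)) d)
    (hcS : ∀ g, MemLocalRing M (c g)) (hdS : ∀ g, MemLocalRing M (d g))
    (ξ : IrrCharacter (Subgroup.centralizer (P : Set G))) :
    MemLocalIdeal M (brauerOmega P (conv c d) (ξ : Subgroup.centralizer (P : Set G) → ℂ)
      - brauerOmega P c (ξ : Subgroup.centralizer (P : Set G) → ℂ)
        * brauerOmega P d (ξ : Subgroup.centralizer (P : Set G) → ℂ)) := by
  classical
  haveI := hM.2.1.isPrime
  rw [brauerOmega_eq_Om, brauerOmega_eq_Om, brauerOmega_eq_Om]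
  have h1 : Om (resH (Subgroup.centralizer (P : Set G)) c) ξ
      * Om (resH (Subgroup.centralizer (P : Set G)) d) ξ
      = Om (conv (resH (Subgroup.centralizer (P : Set G)) c)
          (resH (Subgroup.centralizer (P : Set G)) d)) ξ := by
    rw [Om_conv hcC.isClassFunction_resH]; rfl
  rw [h1]
  have h2 : Om (resH (Subgroup.centralizer (P : Set G)) (conv c d)) ξ
      - Om (conv (resH (Subgroup.centralizer (P : Set G)) c)
          (resH (Subgroup.centralizer (P : Set G)) d)) ξ
      = Om (resH (Subgroup.centralizer (P : Set G)) (conv c d)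
        + -(conv (resH (Subgroup.centralizer (P : Set G)) c)
          (resH (Subgroup.centralizer (P : Set G)) d))) ξ := by
    rw [Om_add, Om_neg]; simp [sub_eq_add_neg]
  rw [h2]
  apply Om_memLocalIdeal
  · intro g x
    simp only [Pi.add_apply, Pi.neg_apply,
      (hcC.conv hdC).isClassFunction_resH g x,
      isClassFunction_conv hcC.isClassFunction_resH hdC.isClassFunction_resH g x]
  · intro k
    simp only [Pi.add_apply, Pi.neg_apply, ← sub_eq_add_neg]
    exact resH_conv_fix hM P hP hc hd hcS hdS k

end Cfsg.Agent.Lib.Helper24
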