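import Cfsg.Agent.Lib.Helper24.BrauerMul

set_option autoImplicit false
set_option linter.style.haveILetI false
open Cfsg
open scoped ComplexConjugate

namespace Cfsg.Agent.Lib.Helper24

open Cfsg.Agent.Lib.Helper7

universe u

section abs
variable {K : Type u} [Group K] {M : Ideal AlgInt} {p : ℕ}

theorem conv_blockCoeff_inter [Fintype K] (A A' : Set (IrrCharacter K)) :
    conv (blockCoeff A) (blockCoeff A') = blockCoeff (A ∩ A') := by
  apply Om_injective (isClassFunction_conv (isClassFunction_blockCoeff A)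
    (isClassFunction_blockCoeff A')) (isClassFunction_blockCoeff _)
  rw [Om_conv (isClassFunction_blockCoeff A), Om_blockCoeff, Om_blockCoeff, Om_blockCoeff]
  ext χ
  by_cases h1 : χ ∈ A <;> by_cases h2 : χ ∈ A' <;> simp [h1, h2]

theorem blockCoeff_empty (k : K) : blockCoeff (∅ : Set (IrrCharacter K)) k = 0 := by
  simp [blockCoeff]

theorem blockCoeff_univ [Fintype K] [DecidableEq K] :
    blockCoeff (Set.univ : Set (IrrCharacter K)) = fun k : K => if k = 1 then (1 : ℂ) else 0 := by
  apply Om_injective (isClassFunction_blockCoeff _) isClassFunction_delta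
  rw [Om_blockCoeff, Om_delta]
  ext χ
  simp

theorem inter_eq_empty_of_ne [M.IsPrime] {f f' : Set (IrrCharacter K)} (hf : IsPBlock M f)
    (hf' : IsPBlock M f') (hne : f ≠ f') : f ∩ f' = ∅ := by
  by_contra h
  obtain ⟨χ, h1, h2⟩ := Set.nonempty_iff_ne_empty.2 h
  apply hne
  rw [isPBlock_eq_blockOf hf h1, ← isPBlock_eq_blockOf hf' h2]

/-- the action of automorphisms on sets of irreducible characters -/
noncomputable def blockPerm (K : Type u) [Group K] :
    MulAut K →* Equiv.Perm (Set (IrrCharacter K)) where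
  toFun α :=
    { toFun := fun f => mapIrr α ⁻¹' f
      invFun := fun f => mapIrr (α.symm) ⁻¹' f
      left_inv := fun f => by
        ext χ
        show mapIrr α (mapIrr α.symm χ) ∈ f ↔ χ ∈ f
        rw [mapIrr_mapIrr_symm]
      right_inv := fun f => by
        ext χ
        show mapIrr α.symm (mapIrr α χ) ∈ f ↔ χ ∈ f
        rw [mapIrr_symm_mapIrr] }
  map_one' := by
    ext f χ
    show mapIrr (1 : MulAut K) χ ∈ f ↔ χ ∈ f
    have : mapIrr (1 : MulAut K) χ = χ := Subtype.ext rfl
    rw [this]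
  map_mul' α β := by
    ext f χ
    show mapIrr (α * β) χ ∈ f ↔ mapIrr β (mapIrr α χ) ∈ f
    have : mapIrr (α * β) χ = mapIrr β (mapIrr α χ) := Subtype.ext rfl
    rw [this]

theorem blockPerm_apply (α : MulAut K) (f : Set (IrrCharacter K)) :
    blockPerm K α f = mapIrr α ⁻¹' f := rfl

theorem isPBlock_preimage_iff (σ : K ≃* K) (f : Set (IrrCharacter K)) :
    IsPBlock M (mapIrr σ ⁻¹' f) ↔ IsPBlock M f := by
  constructor
  · intro h
    have := isPBlock_preimage σ.symm h
    have e : mapIrr σ.symm ⁻¹' (mapIrr σ ⁻¹' f) = f := by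
      ext χ
      show mapIrr σ (mapIrr σ.symm χ) ∈ f ↔ χ ∈ f
      rw [mapIrr_mapIrr_symm]
    rwa [e] at this
  · exact isPBlock_preimage σ

end abs

variable {G : Type u} [Group G] {M : Ideal AlgInt} {p : ℕ}

theorem subgroupBlockCoeff_eq_extH (K : Subgroup G) (e : Set (IrrCharacter K)) :
    subgroupBlockCoeff K e = extH K (blockCoeff e) := by
  funext g
  by_cases hg : g ∈ K
  · rw [subgroupBlockCoeff_of_mem K e hg, extH_of_mem K _ hg]
  · rw [subgroupBlockCoeff_of_not_mem K e hg, extH_of_not_mem K _ hg]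

theorem conv_subgroupBlockCoeff [Fintype G] (K : Subgroup G) (A A' : Set (IrrCharacter K)) :
    conv (subgroupBlockCoeff K A) (subgroupBlockCoeff K A') = subgroupBlockCoeff K (A ∩ A') := by
  classical
  rw [subgroupBlockCoeff_eq_extH, subgroupBlockCoeff_eq_extH, subgroupBlockCoeff_eq_extH,
    conv_extH, conv_blockCoeff_inter]

theorem invUnder_subgroupBlockCoeff_self (K : Subgroup G) (A : Set (IrrCharacter K)) :
    InvUnder K (subgroupBlockCoeff K A) := by
  intro y hy g
  by_cases hg : g ∈ K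
  · have hg' : y * g * y⁻¹ ∈ K := K.mul_mem (K.mul_mem hy hg) (K.inv_mem hy)
    rw [subgroupBlockCoeff_of_mem K A hg, subgroupBlockCoeff_of_mem K A hg']
    exact isClassFunction_blockCoeff A ⟨g, hg⟩ ⟨y, hy⟩
  · have hg' : y * g * y⁻¹ ∉ K := by
      intro h
      apply hg
      have := K.mul_mem (K.mul_mem (K.inv_mem hy) h) hy
      have e : y⁻¹ * (y * g * y⁻¹) * y = g := by group
      rwa [e] at this
    rw [subgroupBlockCoeff_of_not_mem K A hg, subgroupBlockCoeff_of_not_mem K A hg']

theorem preimage_eq_of_stabilizes' [Finite G] {K : Subgroup G} {f : Set (IrrCharacter K)} {y : G}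
    (hy : y ∈ Subgroup.normalizer (K : Set G)) (h : StabilizesBlock K f y) :
    mapIrr (nConj K y hy) ⁻¹' f = f := by
  have hinj : Function.Injective (mapIrr (nConj K y hy)) := (mapIrrEquiv _).injective
  have hsub : f ⊆ mapIrr (nConj K y hy) '' f := by
    intro χ hχ
    obtain ⟨χ', hχ', hc⟩ := h.2 χ hχ
    exact ⟨χ', hχ', (isConjCharOf_iff K y hy χ χ').1 hc⟩
  have heq : f = mapIrr (nConj K y hy) '' f :=
    Set.eq_of_subset_of_ncard_le hsub (by rw [Set.ncard_image_of_injective _ hinj])
      (Set.toFinite _)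
  have h2 := Set.preimage_image_eq f hinj
  rwa [← heq] at h2

theorem preimage_eq_of_stabilizes [Finite G] {K : Subgroup G} {f : Set (IrrCharacter K)} {y : G}
    (h : StabilizesBlock K f y) : mapIrr (nConj K y h.1) ⁻¹' f = f :=
  preimage_eq_of_stabilizes' h.1 h

theorem stabilizes_of_preimage_eq {K : Subgroup G} {f : Set (IrrCharacter K)} {y : G}
    (hy : y ∈ Subgroup.normalizer (K : Set G)) (h : mapIrr (nConj K y hy) ⁻¹' f = f) :
    StabilizesBlock K f y := by
  refine ⟨hy, fun χ hχ => ⟨mapIrr (nConj K y hy).symm χ, ?_, ?_⟩⟩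
  · rw [← h]
    show mapIrr (nConj K y hy) (mapIrr (nConj K y hy).symm χ) ∈ f
    rwa [mapIrr_mapIrr_symm]
  · rw [isConjCharOf_iff K y hy, mapIrr_mapIrr_symm]

theorem invUnder_of_stabilizes [Finite G] {K P : Subgroup G} {f : Set (IrrCharacter K)}
    (h : ∀ x ∈ P, StabilizesBlock K f x) : InvUnder P (subgroupBlockCoeff K f) :=
  fun y hy g => subgroupBlockCoeff_conj K f y (h y hy).1 (preimage_eq_of_stabilizes (h y hy)) g

end Cfsg.Agent.Lib.Helper24
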