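import Cfsg.Agent.Lib.Helper24.BrauerNormal
import Cfsg.Agent.Lib.Helper24.BlockSum

set_option autoImplicit false
set_option linter.style.haveILetI false
open Cfsg
open scoped ComplexConjugate

namespace Cfsg.Agent.Lib.Helper24

open Cfsg.Agent.Lib.Helper7

universe u
variable {G : Type u} [Group G] {M : Ideal AlgInt} {p : ℕ}

theorem invUnder_of_isClassFunction {c : G → ℂ} (hc : IsClassFunction G c) (H : Subgroup G) :
    InvUnder H c := fun y _ g => hc g y

variable [Fintype G]

theorem isBrauerPairOf_iff [M.IsPrime] {P : Subgroup G}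
    {e : Set (IrrCharacter (Subgroup.centralizer (P : Set G)))} (hPe : IsBrauerPair p M P e)
    {ξ₀ : IrrCharacter (Subgroup.centralizer (P : Set G))} (hξ₀ : ξ₀ ∈ e)
    {B : Set (IrrCharacter G)} (hB : IsPBlock M B) :
    IsBrauerPairOf p M B P e ↔ MemLocalIdeal M (brauerOmega P (blockCoeff B)
      (ξ₀ : Subgroup.centralizer (P : Set G) → ℂ) - 1) := by
  classical
  constructor
  · intro h
    exact h.2.2 ξ₀ hξ₀
  · intro h
    refine ⟨hPe, hB, fun ξ hξ => ?_⟩
    have h1 := brauerOmega_sameBlock (M := M) P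
      (invUnder_of_isClassFunction (isClassFunction_blockCoeff B) _) (osima hB)
      (sameBlock_of_mem hPe.2 hξ hξ₀)
    have := memLocalIdeal_add h1 h
    convert this using 1
    ring

/-- Every Brauer pair belongs to exactly one block. -/
theorem existsUnique_block_of_pair (hM : IsPModular p M) {P : Subgroup G}
    {e : Set (IrrCharacter (Subgroup.centralizer (P : Set G)))} (hPe : IsBrauerPair p M P e) :
    ∃! B : Set (IrrCharacter G), IsBrauerPairOf p M B P e := by
  classical
  haveI := hM.2.1.isPrime
  obtain ⟨ξ₀, hξ₀⟩ := isPBlock_nonempty hPe.2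
  obtain ⟨B, hB, h⟩ := exists_block_of_centralizer hM hPe.1 ξ₀
  obtain ⟨χ, hχ⟩ := isPBlock_nonempty hB
  have key : ∀ B' : Set (IrrCharacter G), IsPBlock M B' →
      MemLocalIdeal M (brauerOmega P (blockCoeff B')
        (ξ₀ : Subgroup.centralizer (P : Set G) → ℂ) - B'.indicator (fun _ => (1 : ℂ)) χ) := by
    intro B' hB'
    have := h χ hχ _ (isClassFunction_blockCoeff B') (osima hB')
    rwa [Om_blockCoeff] at this
  refine ⟨B, ?_, ?_⟩
  · show IsBrauerPairOf p M B P e
    rw [isBrauerPairOf_iff hPe hξ₀ hB]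
    have := key B hB
    rwa [Set.indicator_of_mem hχ] at this
  · intro B' hB'
    have h1 := key B' hB'.2.1
    have h2 := hB'.2.2 ξ₀ hξ₀
    have hχ' : χ ∈ B' := by
      by_contra hn
      rw [Set.indicator_of_notMem hn, sub_zero] at h1
      have h3 : MemLocalIdeal M (1 : ℂ) := by
        have := memLocalIdeal_sub h1 h2
        simpa using this
      exact not_memLocalIdeal_one h3
    rw [isPBlock_eq_blockOf hB'.2.1 hχ', ← isPBlock_eq_blockOf hB hχ]

omit [Fintype G] in
theorem brauerOmega_eq_sum (P : Subgroup G) [Fintype (Subgroup.centralizer (P : Set G))]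
    (β : G → ℂ) (ξ : Subgroup.centralizer (P : Set G) → ℂ) :
    brauerOmega P β ξ = ∑ x : Subgroup.centralizer (P : Set G), β x * ξ x / ξ 1 := by
  rw [brauerOmega, finsum_eq_sum_of_fintype]

omit [Fintype G] in
theorem subgroupBlockCoeff_eq_sum_singleton (K : Subgroup G) [Fintype (IrrCharacter K)]
    (A : Set (IrrCharacter K)) (g : G) :
    subgroupBlockCoeff K A g
      = ∑ χ : IrrCharacter K, A.indicator (fun χ => subgroupBlockCoeff K {χ} g) χ := by
  classical
  by_cases hg : g ∈ K
  · simp only [subgroupBlockCoeff_of_mem K _ hg]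
    rw [blockCoeff_eq_sum, Finset.mul_sum]
    apply Finset.sum_congr rfl
    intro χ _
    by_cases hχ : χ ∈ A
    · rw [Set.indicator_of_mem hχ, Set.indicator_of_mem hχ, blockCoeff, finsum_mem_singleton]
    · rw [Set.indicator_of_notMem hχ, Set.indicator_of_notMem hχ, mul_zero]
  · simp only [subgroupBlockCoeff_of_not_mem K _ hg]
    simp

theorem brauerOmega_eps_eq_sum (P K : Subgroup G) [Fintype (IrrCharacter K)]
    (A : Set (IrrCharacter K)) (ξ : Subgroup.centralizer (P : Set G) → ℂ) :
    brauerOmega P (subgroupBlockCoeff K A) ξ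
      = ∑ χ : IrrCharacter K, A.indicator
          (fun χ => brauerOmega P (subgroupBlockCoeff K {χ}) ξ) χ := by
  classical
  simp only [brauerOmega_eq_sum]
  have : ∀ x : Subgroup.centralizer (P : Set G), subgroupBlockCoeff K A x * ξ x / ξ 1
      = ∑ χ : IrrCharacter K, A.indicator
          (fun χ => subgroupBlockCoeff K {χ} x * ξ x / ξ 1) χ := by
    intro x
    rw [subgroupBlockCoeff_eq_sum_singleton, Finset.sum_mul, Finset.sum_div]
    apply Finset.sum_congr rfl
    intro χ _
    by_cases hχ : χ ∈ A
    · rw [Set.indicator_of_mem hχ, Set.indicator_of_mem hχ]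
    · rw [Set.indicator_of_notMem hχ, Set.indicator_of_notMem hχ, zero_mul, zero_div]
  simp only [this]
  rw [Finset.sum_comm]
  apply Finset.sum_congr rfl
  intro χ _
  by_cases hχ : χ ∈ A
  · simp only [Set.indicator_of_mem hχ]
  · simp only [Set.indicator_of_notMem hχ, Finset.sum_const_zero]

theorem sum_blocks_brauerOmega [M.IsPrime] (P K : Subgroup G)
    (ξ : IrrCharacter (Subgroup.centralizer (P : Set G)))
    [Fintype (Set (IrrCharacter K))]
    [DecidablePred (fun f : Set (IrrCharacter K) => IsPBlock M f)] :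
    ∑ f : Set (IrrCharacter K), (if IsPBlock M f then
      brauerOmega P (subgroupBlockCoeff K f) (ξ : Subgroup.centralizer (P : Set G) → ℂ) else 0)
      = 1 := by
  classical
  haveI := Fintype.ofFinite (IrrCharacter K)
  rw [← Finset.sum_filter]
  have hset : Finset.univ.filter (fun f : Set (IrrCharacter K) => IsPBlock M f)
      = Finset.univ.image (fun χ : IrrCharacter K => blockOf M (χ : K → ℂ)) := by
    ext f
    simp only [Finset.mem_filter, Finset.mem_univ, true_and, Finset.mem_image]
    constructor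
    · rintro ⟨χ, rfl⟩
      exact ⟨χ, rfl⟩
    · rintro ⟨χ, rfl⟩
      exact ⟨χ, rfl⟩
  rw [hset, Finset.sum_congr rfl (fun f _ => brauerOmega_eps_eq_sum P K f
    (ξ : Subgroup.centralizer (P : Set G) → ℂ)), ← sum_eq_sum_blocks (M := M)]
  have h1 := brauerOmega_eps_eq_sum P K Set.univ (ξ : Subgroup.centralizer (P : Set G) → ℂ)
  simp only [Set.indicator_univ] at h1
  rw [← h1, brauerOmega_eq_sum]
  have h2 : ∀ x : Subgroup.centralizer (P : Set G),
      subgroupBlockCoeff K Set.univ (x : G) = if x = 1 then (1 : ℂ) else 0 := by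
    intro x
    by_cases hx : (x : G) ∈ K
    · rw [subgroupBlockCoeff_of_mem K _ hx, blockCoeff_univ]
      have : ((⟨(x : G), hx⟩ : K) = 1) ↔ x = 1 := by
        constructor
        · intro h
          have h' : (x : G) = 1 := congrArg Subtype.val h
          exact Subtype.ext h'
        · intro h
          have h' : (x : G) = 1 := congrArg Subtype.val h
          exact Subtype.ext h'
      simp only [this]
    · rw [subgroupBlockCoeff_of_not_mem K _ hx, if_neg]
      rintro rfl
      exact hx K.one_mem
  simp only [h2]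
  rw [Finset.sum_eq_single 1]
  · simp [irr_apply_one_ne_zero ξ.2]
  · intro x _ hx
    simp [hx]
  · simp

end Cfsg.Agent.Lib.Helper24
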