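import Cfsg.Agent.Lib.Helper24.BrauerNormal2

set_option autoImplicit false
set_option linter.style.haveILetI false
open Cfsg
open scoped ComplexConjugate

namespace Cfsg.Agent.Lib.Helper24

open Cfsg.Agent.Lib.Helper7

universe u
variable {G : Type u} [Group G] {M : Ideal AlgInt} {p : ℕ}

theorem memLocalIdeal_mul_sub_one [M.IsPrime] {a b : ℂ} (ha : MemLocalIdeal M (a - 1))
    (hb : MemLocalIdeal M (b - 1)) : MemLocalIdeal M (a * b - 1) := by
  have haR : MemLocalRing M a := memLocalRing_of_sub ha memLocalRing_one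
  have := memLocalIdeal_add (memLocalIdeal_mul_left haR hb) ha
  convert this using 1
  ring

theorem sub_one_of_idem [M.IsPrime] {v : ℂ} (hv : MemLocalRing M v)
    (h1 : MemLocalIdeal M (v - v * v)) (h2 : ¬ MemLocalIdeal M v) : MemLocalIdeal M (v - 1) := by
  by_contra h
  have h3 := not_memLocalIdeal_mul hv h2 h
  apply h3
  have := memLocalIdeal_neg h1
  convert this using 1
  ring

theorem subgroupBlockCoeff_preimage [Finite G] (K : Subgroup G) (f : Set (IrrCharacter K)) (y : G)
    (hy : y ∈ Subgroup.normalizer (K : Set G)) (g : G) :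
    subgroupBlockCoeff K (mapIrr (nConj K y hy) ⁻¹' f) (y * g * y⁻¹)
      = subgroupBlockCoeff K f g := by
  by_cases hg : g ∈ K
  · have hg' : y * g * y⁻¹ ∈ K := (Subgroup.mem_normalizer_iff.1 hy g).1 hg
    rw [subgroupBlockCoeff_of_mem K f hg, subgroupBlockCoeff_of_mem K _ hg']
    exact blockCoeff_preimage (nConj K y hy) f ⟨g, hg⟩
  · have hg' : y * g * y⁻¹ ∉ K := fun h => hg ((Subgroup.mem_normalizer_iff.1 hy g).2 h)
    rw [subgroupBlockCoeff_of_not_mem K f hg, subgroupBlockCoeff_of_not_mem K _ hg']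

variable [Fintype G]

theorem brauerOmega_eps_mul (hM : IsPModular p M) {P K : Subgroup G} (hP : IsPGroup p P)
    (hCK : Subgroup.centralizer (P : Set G) ≤ K) {f f' : Set (IrrCharacter K)}
    (hf : IsPBlock M f) (hf' : IsPBlock M f')
    (hst : ∀ x ∈ P, StabilizesBlock K f x) (hst' : ∀ x ∈ P, StabilizesBlock K f' x)
    (ξ : IrrCharacter (Subgroup.centralizer (P : Set G))) :
    MemLocalIdeal M (brauerOmega P (subgroupBlockCoeff K (f ∩ f'))
        (ξ : Subgroup.centralizer (P : Set G) → ℂ)
      - brauerOmega P (subgroupBlockCoeff K f) (ξ : Subgroup.centralizer (P : Set G) → ℂ)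
        * brauerOmega P (subgroupBlockCoeff K f') (ξ : Subgroup.centralizer (P : Set G) → ℂ)) := by
  haveI := hM.2.1.isPrime
  rw [← conv_subgroupBlockCoeff]
  exact brauerOmega_conv hM P hP (invUnder_of_stabilizes hst) (invUnder_of_stabilizes hst')
    ((invUnder_subgroupBlockCoeff_self K f).mono hCK)
    ((invUnder_subgroupBlockCoeff_self K f').mono hCK)
    (memLocalRing_subgroupBlockCoeff K hf) (memLocalRing_subgroupBlockCoeff K hf') ξ

omit [Fintype G] in
theorem brauerOmega_zero (P : Subgroup G) (ξ : Subgroup.centralizer (P : Set G) → ℂ)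
    {β : G → ℂ} (hβ : ∀ g, β g = 0) : brauerOmega P β ξ = 0 := by
  simp [brauerOmega, hβ]

/-- uniqueness of the normal subpair -/
theorem normalSubpair_unique (hM : IsPModular p M) {P Q : Subgroup G}
    {e : Set (IrrCharacter (Subgroup.centralizer (P : Set G)))}
    {f f' : Set (IrrCharacter (Subgroup.centralizer (Q : Set G)))}
    (h : IsNormalSubpair p M Q f P e) (h' : IsNormalSubpair p M Q f' P e) : f = f' := by
  haveI := hM.2.1.isPrime
  by_contra hne
  obtain ⟨ξ, hξ⟩ := isPBlock_nonempty h.2.1.2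
  have h1 := brauerOmega_eps_mul hM h.2.1.1 (Subgroup.centralizer_le h.2.2.1) h.1.2 h'.1.2
    h.2.2.2.2.1 h'.2.2.2.2.1 ξ
  rw [inter_eq_empty_of_ne h.1.2 h'.1.2 hne, brauerOmega_zero, zero_sub] at h1
  · have h2 := memLocalIdeal_mul_sub_one (h.2.2.2.2.2 ξ hξ) (h'.2.2.2.2.2 ξ hξ)
    have h3 := memLocalIdeal_add h1 h2
    apply not_memLocalIdeal_one (M := M)
    have := memLocalIdeal_neg h3
    convert this using 1
    ring
  · intro g
    by_cases hg : g ∈ Subgroup.centralizer (Q : Set G)
    · rw [subgroupBlockCoeff_of_mem _ _ hg, blockCoeff_empty]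
    · rw [subgroupBlockCoeff_of_not_mem _ _ hg]

/-- existence of the normal subpair -/
theorem exists_normalSubpair (hM : IsPModular p M) {P Q : Subgroup G}
    {e : Set (IrrCharacter (Subgroup.centralizer (P : Set G)))} (hPe : IsBrauerPair p M P e)
    (hQP : Q ≤ P) (hPN : P ≤ Subgroup.normalizer (Q : Set G)) :
    ∃ f : Set (IrrCharacter (Subgroup.centralizer (Q : Set G))),
      IsNormalSubpair p M Q f P e := by
  classical
  haveI := hM.2.1.isPrime
  haveI := Fintype.ofFinite (Set (IrrCharacter (Subgroup.centralizer (Q : Set G))))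
  have hNK := normalizer_le_normalizer_centralizer Q
  have hCK : Subgroup.centralizer (P : Set G) ≤ Subgroup.centralizer (Q : Set G) :=
    Subgroup.centralizer_le hQP
  obtain ⟨ξ₀, hξ₀⟩ := isPBlock_nonempty hPe.2
  obtain ⟨v, hv⟩ : ∃ v : Set (IrrCharacter (Subgroup.centralizer (Q : Set G))) → ℂ,
      v = fun f => brauerOmega P (subgroupBlockCoeff (Subgroup.centralizer (Q : Set G)) f)
        (ξ₀ : Subgroup.centralizer (P : Set G) → ℂ) := ⟨_, rfl⟩
  obtain ⟨F, hF⟩ : ∃ F : Set (IrrCharacter (Subgroup.centralizer (Q : Set G))) → ℂ,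
      F = fun f => if IsPBlock M f then v f else 0 := ⟨_, rfl⟩
  obtain ⟨σ, hσ⟩ : ∃ σ : P →* Equiv.Perm (Set (IrrCharacter (Subgroup.centralizer (Q : Set G)))),
      σ = (blockPerm (Subgroup.centralizer (Q : Set G))).comp
        ((Subgroup.centralizer (Q : Set G)).normalizerMonoidHom.comp
          (Subgroup.inclusion (hPN.trans hNK))) := ⟨_, rfl⟩
  have hσa : ∀ (y : P) (f : Set (IrrCharacter (Subgroup.centralizer (Q : Set G)))),
      σ y f = mapIrr (nConj (Subgroup.centralizer (Q : Set G)) y (hNK (hPN y.2))) ⁻¹' f := by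
    intro y f
    rw [hσ]
    rfl
  have hvloc : ∀ f, IsPBlock M f → MemLocalRing M (v f) := by
    intro f hf
    rw [hv]
    exact memLocalRing_brauerOmega P ((invUnder_subgroupBlockCoeff_self _ f).mono hCK)
      (memLocalRing_subgroupBlockCoeff _ hf) ξ₀
  have hFloc : ∀ f, MemLocalRing M (F f) := by
    intro f
    rw [hF]
    by_cases hf : IsPBlock M f
    · simp only [if_pos hf]; exact hvloc f hf
    · simp only [if_neg hf]; exact memLocalRing_zero
  have hvinv : ∀ (y : P) f, v (σ y f) = v f := by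
    intro y f
    rw [hv, hσa]
    simp only [brauerOmega_eq_sum]
    apply Finset.sum_congr rfl
    intro x _
    congr 2
    have h1 := subgroupBlockCoeff_preimage (Subgroup.centralizer (Q : Set G)) f y
      (hNK (hPN y.2)) (x : G)
    have h2 : (y : G) * x * (y : G)⁻¹ = x := by
      have := Subgroup.mem_centralizer_iff.1 x.2 y y.2
      rw [this]; group
    rwa [h2] at h1
  have hFinv : ∀ (y : P) f, F (σ y f) = F f := by
    intro y f
    rw [hF]
    simp only [hvinv]
    rw [hσa]
    simp only [isPBlock_preimage_iff]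
  have h1 := orbit_sum hM hPe.1 σ F hFloc hFinv
  have h2 : ∑ f, F f = 1 := by
    rw [hF, hv]
    exact sum_blocks_brauerOmega P _ ξ₀
  obtain ⟨f, hfix, hfF⟩ : ∃ f, (∀ y, σ y f = f) ∧ ¬ MemLocalIdeal M (F f) := by
    by_contra hcon
    push Not at hcon
    apply not_memLocalIdeal_one (M := M)
    rw [← h2]
    have e1 : ∑ f, F f = ∑ f, (if (∀ y, σ y f = f) then 0 else F f)
        + ∑ f, (if (∀ y, σ y f = f) then F f else 0) := by
      rw [← Finset.sum_add_distrib]
      apply Finset.sum_congr rfl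
      intro f _
      by_cases hf : ∀ y, σ y f = f
      · rw [if_pos hf, if_pos hf, zero_add]
      · rw [if_neg hf, if_neg hf, add_zero]
    rw [e1]
    apply memLocalIdeal_add h1
    apply memLocalIdeal_sum
    intro f _
    by_cases hf : ∀ y, σ y f = f
    · rw [if_pos hf]; exact hcon f hf
    · rw [if_neg hf]; exact memLocalIdeal_zero
  have hfB : IsPBlock M f := by
    by_contra hn
    apply hfF
    rw [hF]
    simp only [if_neg hn]
    exact memLocalIdeal_zero
  have hFv : F f = v f := by rw [hF]; simp only [if_pos hfB]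
  rw [hFv] at hfF
  have hst : ∀ x ∈ P, StabilizesBlock (Subgroup.centralizer (Q : Set G)) f x := by
    intro x hx
    apply stabilizes_of_preimage_eq (hNK (hPN hx))
    have := hfix ⟨x, hx⟩
    rwa [hσa] at this
  have hsq := brauerOmega_eps_mul hM hPe.1 hCK hfB hfB hst hst ξ₀
  rw [Set.inter_self] at hsq
  have hv1 : MemLocalIdeal M (v f - 1) := by
    apply sub_one_of_idem (hvloc f hfB) _ hfF
    rw [hv]
    exact hsq
  refine ⟨f, ⟨hPe.1.to_le hQP, hfB⟩, hPe, hQP, hPN, hst, fun ξ hξ => ?_⟩
  have h3 := brauerOmega_sameBlock (M := M) P ((invUnder_subgroupBlockCoeff_self _ f).mono hCK)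
    (memLocalRing_subgroupBlockCoeff _ hfB) (sameBlock_of_mem hPe.2 hξ hξ₀)
  rw [hv] at hv1
  have := memLocalIdeal_add h3 hv1
  convert this using 1
  ring

end Cfsg.Agent.Lib.Helper24
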