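import Cfsg.Agent.Lib.Helper24.BrauerConj

set_option autoImplicit false
set_option linter.style.haveILetI false
open Cfsg
open scoped ComplexConjugate

namespace Cfsg.Agent.Lib.Helper24

open Cfsg.Agent.Lib.Helper7

universe u
variable {G : Type u} [Group G] {M : Ideal AlgInt} {p : ℕ}

theorem Om_oneIrr {K : Type u} [Group K] [Fintype K] (c : K → ℂ) :
    Om c (oneIrr K) = ∑ k, c k := by
  simp [Om, oneIrr]

variable [Fintype G]

/-- normal inclusion of the principal Brauer pairs -/
theorem isNormalSubpair_principal (hM : IsPModular p M) {Q P : Subgroup G} (hP : IsPGroup p P)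
    (hQP : Q ≤ P) (hPN : P ≤ Subgroup.normalizer (Q : Set G)) :
    IsNormalSubpair p M Q (principalBlock M (Subgroup.centralizer (Q : Set G))) P
      (principalBlock M (Subgroup.centralizer (P : Set G))) := by
  classical
  haveI := hM.2.1.isPrime
  have hNK := normalizer_le_normalizer_centralizer Q
  refine ⟨⟨hP.to_le hQP, isPBlock_principalBlock⟩, ⟨hP, isPBlock_principalBlock⟩, hQP, hPN,
    fun x hx => stabilizesBlock_principal _ x (hNK (hPN hx)), ?_⟩
  intro ξ hξ
  obtain ⟨β, hβ⟩ : ∃ β : G → ℂ, β = subgroupBlockCoeff (Subgroup.centralizer (Q : Set G))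
    (principalBlock M (Subgroup.centralizer (Q : Set G))) := ⟨_, rfl⟩
  rw [← hβ, brauerOmega_eq_Om]
  have hloc : ∀ g, MemLocalRing M (β g) := fun g => by
    rw [hβ]; exact memLocalRing_subgroupBlockCoeff _ isPBlock_principalBlock g
  have hinv : ∀ y ∈ Subgroup.normalizer
      ((Subgroup.centralizer (Q : Set G) : Subgroup G) : Set G), ∀ g, β (y * g * y⁻¹) = β g := by
    intro y hy g
    rw [hβ]
    exact subgroupBlockCoeff_conj _ _ y hy (preimage_principalBlock _) g
  have hCPK : Subgroup.centralizer (P : Set G) ≤ Subgroup.centralizer (Q : Set G) :=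
    Subgroup.centralizer_le hQP
  have hcls : IsClassFunction (Subgroup.centralizer (P : Set G))
      (resH (Subgroup.centralizer (P : Set G)) β) := by
    intro g x
    exact hinv x (Subgroup.le_normalizer (hCPK x.2)) g
  have h4 : MemLocalIdeal M (Om (resH (Subgroup.centralizer (P : Set G)) β) ξ
      - Om (resH (Subgroup.centralizer (P : Set G)) β) (oneIrr _)) :=
    centralSubring_congr (M := M) (v := Om (resH (Subgroup.centralizer (P : Set G)) β))
      ⟨_, hcls, fun g => hloc _, rfl⟩ (sameBlock_symm hξ)
  have h1 : ∑ g, β g = 1 := by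
    have e1 : ∑ g, β g = ∑ g, ((Subgroup.centralizer (Q : Set G) : Subgroup G) : Set G).indicator
        β g := by
      apply Finset.sum_congr rfl
      intro g _
      by_cases hg : g ∈ Subgroup.centralizer (Q : Set G)
      · rw [Set.indicator_of_mem (by exact hg)]
      · rw [Set.indicator_of_notMem (by exact hg), hβ, subgroupBlockCoeff_of_not_mem _ _ hg]
    rw [e1, ← sum_subgroup_eq]
    have e2 := congrFun (Om_blockCoeff (principalBlock M (Subgroup.centralizer (Q : Set G))))
      (oneIrr _)
    rw [Set.indicator_of_mem oneIrr_mem_principalBlock, Om_oneIrr] at e2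
    rw [← e2]
    apply Finset.sum_congr rfl
    intro k _
    rw [hβ, subgroupBlockCoeff_coe]
  have h2 := orbit_sum hM hP (conjPerm P) β hloc
    (fun q x => hinv q (hNK (hPN q.2)) x)
  have h3 : Om (resH (Subgroup.centralizer (P : Set G)) β) (oneIrr _)
      = 1 - ∑ x, (if (∀ q, conjPerm P q x = x) then 0 else β x) := by
    rw [Om_oneIrr, ← h1, ← Finset.sum_sub_distrib]
    have : ∑ k : Subgroup.centralizer (P : Set G), resH (Subgroup.centralizer (P : Set G)) β k
        = ∑ k : Subgroup.centralizer (P : Set G), β k := rfl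
    rw [this, sum_subgroup_eq]
    apply Finset.sum_congr rfl
    intro x _
    by_cases hx : x ∈ Subgroup.centralizer (P : Set G)
    · rw [if_pos ((conjPerm_fixed_iff P x).2 hx), Set.indicator_of_mem (by exact hx), sub_zero]
    · rw [if_neg (fun h => hx ((conjPerm_fixed_iff P x).1 h)),
        Set.indicator_of_notMem (by exact hx), sub_self]
  rw [h3] at h4
  have := memLocalIdeal_sub h4 h2
  convert this using 1
  ring

theorem subpairLE_principal (hM : IsPModular p M) {S : Subgroup G} (hS : IsPGroup p S) :
    ∀ (n : ℕ) (Q : Subgroup G), Q ≤ S → Nat.card S - Nat.card Q = n →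
      SubpairLE p M Q (principalBlock M (Subgroup.centralizer (Q : Set G))) S
        (principalBlock M (Subgroup.centralizer (S : Set G))) := by
  haveI : Fact p.Prime := ⟨hM.1⟩
  intro n
  induction n using Nat.strong_induction_on with
  | _ n ih =>
    intro Q hQS hn
    by_cases hne : Q = S
    · subst hne
      exact Relation.ReflTransGen.refl
    · obtain ⟨x, hxS, hxN, hxQ⟩ := Cfsg.Agent.Lib.Helper9.normalizer_growth hS hQS hne
      have hQR : Q ≤ Subgroup.normalizer (Q : Set G) ⊓ S := le_inf Subgroup.le_normalizer hQS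
      have hlt : Q < Subgroup.normalizer (Q : Set G) ⊓ S :=
        lt_of_le_of_ne hQR (fun h => hxQ (h ▸ ⟨hxN, hxS⟩))
      have hcard : Nat.card Q < Nat.card (Subgroup.normalizer (Q : Set G) ⊓ S : Subgroup G) :=
        Set.ncard_lt_ncard hlt (Set.toFinite _)
      have hcard2 : Nat.card (Subgroup.normalizer (Q : Set G) ⊓ S : Subgroup G) ≤ Nat.card S :=
        Subgroup.card_le_of_le inf_le_right
      have step := isNormalSubpair_principal hM (hS.to_le inf_le_right) hQR inf_le_left
      have rest := ih (Nat.card S - Nat.card (Subgroup.normalizer (Q : Set G) ⊓ S : Subgroup G))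
        (by omega) _ inf_le_right rfl
      have step' : NormalSubpairRel p M
          ⟨Q, principalBlock M (Subgroup.centralizer (Q : Set G))⟩
          ⟨Subgroup.normalizer (Q : Set G) ⊓ S, principalBlock M (Subgroup.centralizer
            ((Subgroup.normalizer (Q : Set G) ⊓ S : Subgroup G) : Set G))⟩ := step
      exact Relation.ReflTransGen.head step' rest

omit [Fintype G] in
theorem le_of_subpairLE {Q P : Subgroup G}
    {f : Set (IrrCharacter (Subgroup.centralizer (Q : Set G)))}
    {e : Set (IrrCharacter (Subgroup.centralizer (P : Set G)))}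
    (h : SubpairLE p M Q f P e) : Q ≤ P := by
  have key : ∀ b : BrauerPairIdx G,
      Relation.ReflTransGen (NormalSubpairRel p M) ⟨Q, f⟩ b → Q ≤ b.1 := by
    intro b hb
    induction hb with
    | refl => exact le_refl _
    | tail _ h2 ih => exact ih.trans h2.2.2.1
  exact key _ h

end Cfsg.Agent.Lib.Helper24
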