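import Cfsg.Agent.Lib.Helper24.BrauerNormal3
import Cfsg.Agent.Lib.Helper24.BlockBrDecomp

set_option autoImplicit false
set_option linter.style.haveILetI false
open Cfsg
open scoped ComplexConjugate

namespace Cfsg.Agent.Lib.Helper24

open Cfsg.Agent.Lib.Helper7

universe u
variable {G : Type u} [Group G] {M : Ideal AlgInt} {p : ℕ}

theorem invUnder_trunc {H C : Subgroup G} {a : G → ℂ} (ha : InvUnder H a)
    (hHC : H ≤ Subgroup.normalizer (C : Set G)) : InvUnder H (extH C (resH C a)) := by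
  intro y hy g
  by_cases hg : g ∈ C
  · have hg' : y * g * y⁻¹ ∈ C := (Subgroup.mem_normalizer_iff.1 (hHC hy) g).1 hg
    rw [extH_of_mem C _ hg, extH_of_mem C _ hg']
    exact ha y hy g
  · have hg' : y * g * y⁻¹ ∉ C := fun h => hg ((Subgroup.mem_normalizer_iff.1 (hHC hy) g).2 h)
    rw [extH_of_not_mem C _ hg, extH_of_not_mem C _ hg']

theorem memLocalRing_conv {K : Type u} [Group K] [Fintype K] [M.IsPrime] {c d : K → ℂ}
    (hc : ∀ g, MemLocalRing M (c g)) (hd : ∀ g, MemLocalRing M (d g)) (k : K) :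
    MemLocalRing M (conv c d k) :=
  memLocalRing_sum _ _ fun x _ => memLocalRing_mul (hc x) (hd _)

theorem memLocalIdeal_conv_left {K : Type u} [Group K] [Fintype K] [M.IsPrime] {c d : K → ℂ}
    (hc : ∀ g, MemLocalIdeal M (c g)) (hd : ∀ g, MemLocalRing M (d g)) (k : K) :
    MemLocalIdeal M (conv c d k) :=
  memLocalIdeal_sum _ _ fun x _ => memLocalIdeal_mul_right (hc x) (hd _)

variable [Fintype G]

/-- Transitivity of the Brauer map along a normal inclusion. -/
theorem brauerOmega_trans (hM : IsPModular p M) {R P : Subgroup G} (hP : IsPGroup p P)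
    (hRP : R ≤ P) (hPN : P ≤ Subgroup.normalizer (R : Set G)) {a : G → ℂ}
    (haS : ∀ x, MemLocalRing M (a x)) (haP : InvUnder P a)
    (haC : InvUnder (Subgroup.centralizer (R : Set G)) a) (haa : conv a a = a)
    {g : Set (IrrCharacter (Subgroup.centralizer (R : Set G)))} (hg : IsPBlock M g)
    (hst : ∀ x ∈ P, StabilizesBlock (Subgroup.centralizer (R : Set G)) g x)
    (h1 : ∀ ζ ∈ g, MemLocalIdeal M
      (brauerOmega R a (ζ : Subgroup.centralizer (R : Set G) → ℂ) - 1))
    (ξ : IrrCharacter (Subgroup.centralizer (P : Set G)))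
    (h2 : MemLocalIdeal M (brauerOmega P (subgroupBlockCoeff (Subgroup.centralizer (R : Set G)) g)
      (ξ : Subgroup.centralizer (P : Set G) → ℂ) - 1)) :
    MemLocalIdeal M (brauerOmega P a (ξ : Subgroup.centralizer (P : Set G) → ℂ) - 1) := by
  classical
  haveI := hM.2.1.isPrime
  have hCPR : Subgroup.centralizer (P : Set G) ≤ Subgroup.centralizer (R : Set G) :=
    Subgroup.centralizer_le hRP
  have hNK := normalizer_le_normalizer_centralizer R
  obtain ⟨aR, haR⟩ : ∃ aR : Subgroup.centralizer (R : Set G) → ℂ,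
      aR = resH (Subgroup.centralizer (R : Set G)) a := ⟨_, rfl⟩
  obtain ⟨eg, heg⟩ : ∃ eg : Subgroup.centralizer (R : Set G) → ℂ, eg = blockCoeff g := ⟨_, rfl⟩
  have haRc : IsClassFunction _ aR := haR ▸ haC.isClassFunction_resH
  have hegc : IsClassFunction _ eg := heg ▸ isClassFunction_blockCoeff g
  have haRS : ∀ k, MemLocalRing M (aR k) := fun k => by rw [haR]; exact haS _
  have hegS : ∀ k, MemLocalRing M (eg k) := fun k => by rw [heg]; exact osima hg k
  obtain ⟨w, hw⟩ : ∃ w : Subgroup.centralizer (R : Set G) → ℂ, w = eg - conv aR eg := ⟨_, rfl⟩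
  have hwc : IsClassFunction _ w := hw ▸ isClassFunction_sub' hegc (isClassFunction_conv haRc hegc)
  have hwS : ∀ k, MemLocalRing M (w k) := fun k => by
    rw [hw]
    exact memLocalRing_sub (hegS k) (memLocalRing_conv haRS hegS k)
  have hOmeg : Om eg = g.indicator (fun _ => (1 : ℂ)) := by rw [heg, Om_blockCoeff]
  have hOmw : ∀ ζ, Om w ζ = g.indicator (fun _ => (1 : ℂ)) ζ * (1 - Om aR ζ) := by
    intro ζ
    rw [hw, Om_sub', Om_conv haRc, hOmeg]
    simp only [Pi.sub_apply, Pi.mul_apply]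
    ring
  have hOmI : ∀ ζ, MemLocalIdeal M (Om w ζ) := by
    intro ζ
    rw [hOmw]
    by_cases hζ : ζ ∈ g
    · rw [Set.indicator_of_mem hζ, one_mul]
      have := h1 ζ hζ
      rw [brauerOmega_eq_Om, ← haR] at this
      exact memLocalIdeal_sub_comm this
    · rw [Set.indicator_of_notMem hζ, zero_mul]
      exact memLocalIdeal_zero
  obtain ⟨r, hr⟩ : ∃ r : Subgroup.centralizer (R : Set G) → ℂ, r = conv aR aR - aR := ⟨_, rfl⟩
  have hrc : IsClassFunction _ r := hr ▸ isClassFunction_sub' (isClassFunction_conv haRc haRc) haRc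
  have hrI : ∀ k, MemLocalIdeal M (r k) := by
    intro k
    have := resH_conv_fix hM R (hP.to_le hRP) (haP.mono hRP) (haP.mono hRP) haS haS k
    rw [haa, ← haR] at this
    rw [hr]
    exact memLocalIdeal_sub_comm this
  have hid : w - conv w w = -(conv r eg) := by
    apply Om_injective (isClassFunction_sub' hwc (isClassFunction_conv hwc hwc))
    · intro k x
      simp only [Pi.neg_apply, isClassFunction_conv hrc hegc k x]
    · rw [Om_sub', Om_conv hwc, Om_neg, Om_conv hrc, hr, Om_sub', Om_conv haRc, hOmeg]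
      ext ζ
      simp only [Pi.sub_apply, Pi.mul_apply, Pi.neg_apply, hOmw]
      by_cases hζ : ζ ∈ g
      · rw [Set.indicator_of_mem hζ]; ring
      · rw [Set.indicator_of_notMem hζ]; ring
  have hwI : ∀ k, MemLocalIdeal M (w k) := by
    apply mem_ideal_of_idem_mod hwc hwS _ hOmI
    intro k
    have := congrFun hid k
    simp only [Pi.sub_apply, Pi.neg_apply] at this
    rw [this]
    exact memLocalIdeal_neg (memLocalIdeal_conv_left hrI hegS k)
  -- pass to `P`
  obtain ⟨a', ha'⟩ : ∃ a' : G → ℂ, a' = extH (Subgroup.centralizer (R : Set G)) aR := ⟨_, rfl⟩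
  obtain ⟨ε, hε⟩ : ∃ ε : G → ℂ, ε = subgroupBlockCoeff (Subgroup.centralizer (R : Set G)) g :=
    ⟨_, rfl⟩
  have hεe : ε = extH (Subgroup.centralizer (R : Set G)) eg := by
    rw [hε, heg, subgroupBlockCoeff_eq_extH]
  have hW : extH (Subgroup.centralizer (R : Set G)) w = ε - conv a' ε := by
    rw [hεe, ha', conv_extH, hw]
    funext x
    by_cases hx : x ∈ Subgroup.centralizer (R : Set G)
    · simp only [Pi.sub_apply, extH_of_mem _ _ hx]
    · simp only [Pi.sub_apply, extH_of_not_mem _ _ hx, sub_zero]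
  have ha'P : InvUnder P a' := by
    rw [ha', haR]; exact invUnder_trunc haP (hPN.trans hNK)
  have ha'C : InvUnder (Subgroup.centralizer (P : Set G)) a' := by
    rw [ha', haR]
    exact invUnder_trunc (haC.mono hCPR) (hCPR.trans Subgroup.le_normalizer)
  have ha'S : ∀ x, MemLocalRing M (a' x) := by
    intro x
    rw [ha']
    by_cases hx : x ∈ Subgroup.centralizer (R : Set G)
    · rw [extH_of_mem _ _ hx]; exact haRS _
    · rw [extH_of_not_mem _ _ hx]; exact memLocalRing_zero
  have hεP : InvUnder P ε := hε ▸ invUnder_of_stabilizes hst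
  have hεC : InvUnder (Subgroup.centralizer (P : Set G)) ε :=
    hε ▸ (invUnder_subgroupBlockCoeff_self _ g).mono hCPR
  have hεS : ∀ x, MemLocalRing M (ε x) := fun x => by
    rw [hε]; exact memLocalRing_subgroupBlockCoeff _ hg x
  have h3 : MemLocalIdeal M (brauerOmega P (ε - conv a' ε)
      (ξ : Subgroup.centralizer (P : Set G) → ℂ)) := by
    rw [← hW, brauerOmega_eq_Om]
    apply Om_memLocalIdeal
    · intro k x
      show extH _ w ((x : G) * k * (x : G)⁻¹) = extH _ w (k : G)
      have hk : (k : G) ∈ Subgroup.centralizer (R : Set G) := hCPR k.2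
      have hx : (x : G) ∈ Subgroup.centralizer (R : Set G) := hCPR x.2
      rw [extH_of_mem _ _ hk, extH_of_mem _ _
        (Subgroup.mul_mem _ (Subgroup.mul_mem _ hx hk) (Subgroup.inv_mem _ hx))]
      exact hwc ⟨k, hk⟩ ⟨x, hx⟩
    · intro k
      show MemLocalIdeal M (extH _ w (k : G))
      rw [extH_of_mem _ _ (hCPR k.2)]
      exact hwI _
  rw [brauerOmega_sub] at h3
  have h4 := brauerOmega_conv hM P hP ha'P hεP ha'C hεC ha'S hεS ξ
  have h5 : brauerOmega P a' (ξ : Subgroup.centralizer (P : Set G) → ℂ)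
      = brauerOmega P a (ξ : Subgroup.centralizer (P : Set G) → ℂ) := by
    simp only [brauerOmega_eq_sum]
    apply Finset.sum_congr rfl
    intro x _
    rw [ha', extH_of_mem _ _ (hCPR x.2), haR]
    rfl
  rw [h5] at h4
  rw [← hε] at h2
  -- combine
  obtain ⟨A, hA⟩ : ∃ A : ℂ, A = brauerOmega P a (ξ : Subgroup.centralizer (P : Set G) → ℂ) :=
    ⟨_, rfl⟩
  obtain ⟨E, hE⟩ : ∃ E : ℂ, E = brauerOmega P ε (ξ : Subgroup.centralizer (P : Set G) → ℂ) :=
    ⟨_, rfl⟩
  obtain ⟨X, hX⟩ : ∃ X : ℂ, X = brauerOmega P (conv a' ε)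
    (ξ : Subgroup.centralizer (P : Set G) → ℂ) := ⟨_, rfl⟩
  rw [← hA, ← hE, ← hX] at h4
  rw [← hE, ← hX] at h3
  rw [← hE] at h2
  rw [← hA]
  have hAS : MemLocalRing M A := by
    rw [hA]; exact memLocalRing_brauerOmega P (haC.mono hCPR) haS ξ
  -- A - 1 = -(E - X) - (X - A E) + (E - 1) - A (E - 1)
  have := memLocalIdeal_sub (memLocalIdeal_sub (memLocalIdeal_sub h2 h3) h4)
    (memLocalIdeal_mul_left hAS h2)
  convert this using 1
  ring

end Cfsg.Agent.Lib.Helper24
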