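import Cfsg.Agent.Lib.Helper24.BrauerChain

set_option autoImplicit false
set_option linter.style.haveILetI false
open Cfsg
open scoped ComplexConjugate

namespace Cfsg.Agent.Lib.Helper24

open Cfsg.Agent.Lib.Helper7

universe u
variable {G : Type u} [Group G] {M : Ideal AlgInt} {p : ℕ}

/-- the action of the normalizer of `K` on sets of irreducible characters of `K` -/
noncomputable def nAct (K : Subgroup G) :
    Subgroup.normalizer (K : Set G) →* Equiv.Perm (Set (IrrCharacter K)) :=
  (blockPerm K).comp K.normalizerMonoidHom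

theorem nAct_apply (K : Subgroup G) (y : G) (hy : y ∈ Subgroup.normalizer (K : Set G))
    (f : Set (IrrCharacter K)) : nAct K ⟨y, hy⟩ f = mapIrr (nConj K y hy) ⁻¹' f := rfl

variable [Fintype G]

/-- conjugation of a normal inclusion by an element normalizing both subgroups -/
theorem isNormalSubpair_conj (hM : IsPModular p M) {S R : Subgroup G}
    {f : Set (IrrCharacter (Subgroup.centralizer (S : Set G)))}
    {g : Set (IrrCharacter (Subgroup.centralizer (R : Set G)))}
    (h : IsNormalSubpair p M S f R g) (y : G)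
    (hyS : y ∈ Subgroup.normalizer (S : Set G)) (hyR : y ∈ Subgroup.normalizer (R : Set G)) :
    IsNormalSubpair p M S
      (mapIrr (nConj _ y (normalizer_le_normalizer_centralizer S hyS)) ⁻¹' f) R
      (mapIrr (nConj _ y (normalizer_le_normalizer_centralizer R hyR)) ⁻¹' g) := by
  classical
  haveI := hM.2.1.isPrime
  have hNS := normalizer_le_normalizer_centralizer S
  refine ⟨⟨h.1.1, isPBlock_preimage _ h.1.2⟩, ⟨h.2.1.1, isPBlock_preimage _ h.2.1.2⟩, h.2.2.1,
    h.2.2.2.1, ?_, ?_⟩
  · intro x hx
    have hxN : x ∈ Subgroup.normalizer (S : Set G) := h.2.2.2.1 hx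
    apply stabilizes_of_preimage_eq (hNS hxN)
    have hx' : y⁻¹ * x * y ∈ R := by
      have := (Subgroup.mem_normalizer_iff.1 (Subgroup.inv_mem _ hyR) x).1 hx
      simpa using this
    have hx'N : y⁻¹ * x * y ∈ Subgroup.normalizer (S : Set G) := h.2.2.2.1 hx'
    have h1 := preimage_eq_of_stabilizes' (hNS hx'N) (h.2.2.2.2.1 _ hx')
    rw [← nAct_apply, ← nAct_apply, ← Equiv.Perm.mul_apply, ← map_mul]
    rw [← nAct_apply] at h1
    have e : (⟨x, hNS hxN⟩ : Subgroup.normalizer
        ((Subgroup.centralizer (S : Set G) : Subgroup G) : Set G)) * ⟨y, hNS hyS⟩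
        = ⟨y, hNS hyS⟩ * ⟨y⁻¹ * x * y, hNS hx'N⟩ := by
      apply Subtype.ext
      show x * y = y * (y⁻¹ * x * y)
      group
    rw [e, map_mul, Equiv.Perm.mul_apply, h1]
  · intro ξ hξ
    have h1 := h.2.2.2.2.2 _ hξ
    convert h1 using 2
    rw [brauerOmega_eq_Om, brauerOmega_eq_Om,
      ← Om_comp (nConj _ y (normalizer_le_normalizer_centralizer R hyR))]
    congr 1
    funext k
    exact subgroupBlockCoeff_preimage _ f y (hNS hyS) (k : G)

/-- Two normal subpairs of the same pair are comparable. -/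
theorem isNormalSubpair_of_le (hM : IsPModular p M) {S R P : Subgroup G}
    {h : Set (IrrCharacter (Subgroup.centralizer (S : Set G)))}
    {g : Set (IrrCharacter (Subgroup.centralizer (R : Set G)))}
    {e : Set (IrrCharacter (Subgroup.centralizer (P : Set G)))}
    (hS : IsNormalSubpair p M S h P e) (hR : IsNormalSubpair p M R g P e) (hSR : S ≤ R) :
    IsNormalSubpair p M S h R g := by
  classical
  haveI := hM.2.1.isPrime
  have hNS := normalizer_le_normalizer_centralizer S
  have hNR := normalizer_le_normalizer_centralizer R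
  obtain ⟨f', hf'⟩ := exists_normalSubpair hM hR.1 hSR (hR.2.2.1.trans hS.2.2.2.1)
  have hst : ∀ y ∈ P, StabilizesBlock (Subgroup.centralizer (S : Set G)) f' y := by
    intro y hy
    have hyS := hS.2.2.2.1 hy
    have hyR := hR.2.2.2.1 hy
    have h1 := isNormalSubpair_conj hM hf' y hyS hyR
    rw [preimage_eq_of_stabilizes' (hNR hyR) (hR.2.2.2.2.1 y hy)] at h1
    exact stabilizes_of_preimage_eq (hNS hyS) (normalSubpair_unique hM h1 hf')
  have h2 : IsNormalSubpair p M S f' P e := by
    refine ⟨hf'.1, hS.2.1, hS.2.2.1, hS.2.2.2.1, hst, fun ξ hξ => ?_⟩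
    exact brauerOmega_trans hM hS.2.1.1 hR.2.2.1 hR.2.2.2.1
      (memLocalRing_subgroupBlockCoeff _ hf'.1.2) (invUnder_of_stabilizes hst)
      ((invUnder_subgroupBlockCoeff_self _ f').mono (Subgroup.centralizer_le hSR))
      (by rw [conv_subgroupBlockCoeff, Set.inter_self]) hR.1.2 hR.2.2.2.2.1 hf'.2.2.2.2.2 ξ
      (hR.2.2.2.2.2 ξ hξ)
  rw [normalSubpair_unique hM hS h2]
  exact hf'

/-- a normal inclusion with equal subgroups is trivial -/
theorem eq_of_isNormalSubpair_self (hM : IsPModular p M) {P : Subgroup G}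
    {g e : Set (IrrCharacter (Subgroup.centralizer (P : Set G)))}
    (h : IsNormalSubpair p M P g P e) : g = e := by
  classical
  haveI := hM.2.1.isPrime
  obtain ⟨ξ, hξ⟩ := isPBlock_nonempty h.2.1.2
  have h1 := h.2.2.2.2.2 ξ hξ
  rw [brauerOmega_eq_Om] at h1
  have h2 : resH (Subgroup.centralizer (P : Set G))
      (subgroupBlockCoeff (Subgroup.centralizer (P : Set G)) g) = blockCoeff g := by
    funext k
    exact subgroupBlockCoeff_coe _ g k
  rw [h2, Om_blockCoeff] at h1
  have hξg : ξ ∈ g := by
    by_contra hn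
    rw [Set.indicator_of_notMem hn, zero_sub] at h1
    exact not_memLocalIdeal_one (by simpa using memLocalIdeal_neg h1)
  rw [isPBlock_eq_blockOf h.1.2 hξg, ← isPBlock_eq_blockOf h.2.1.2 hξ]

theorem eq_of_normalSubpairRel (hM : IsPModular p M) {c b : BrauerPairIdx G}
    (h : NormalSubpairRel p M c b) (heq : c.1 = b.1) : c = b := by
  obtain ⟨R, g⟩ := c
  obtain ⟨P, e⟩ := b
  simp only at heq
  subst heq
  have : g = e := eq_of_isNormalSubpair_self hM h
  rw [this]

omit [Fintype G] in
theorem le_of_reflTransGen {a b : BrauerPairIdx G}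
    (h : Relation.ReflTransGen (NormalSubpairRel p M) a b) : a.1 ≤ b.1 := by
  induction h with
  | refl => exact le_refl _
  | tail _ h2 ih => exact ih.trans h2.2.2.1

/-- a chain either is trivial or ends in a proper normal step -/
theorem chain_cases (hM : IsPModular p M) {a b : BrauerPairIdx G}
    (h : Relation.ReflTransGen (NormalSubpairRel p M) a b) :
    a = b ∨ ∃ c, Relation.ReflTransGen (NormalSubpairRel p M) a c ∧
      NormalSubpairRel p M c b ∧ c.1 ≠ b.1 := by
  induction h with
  | refl => exact Or.inl rfl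
  | @tail c b h1 h2 ih =>
    by_cases hcb : c.1 = b.1
    · have := eq_of_normalSubpairRel hM h2 hcb
      rw [← this]
      exact ih
    · exact Or.inr ⟨c, h1, h2, hcb⟩

/-- existence of subpairs -/
theorem exists_subpair (hM : IsPModular p M) {P : Subgroup G}
    {e : Set (IrrCharacter (Subgroup.centralizer (P : Set G)))} (hPe : IsBrauerPair p M P e) :
    ∀ (n : ℕ) (Q : Subgroup G), Q ≤ P → Nat.card P - Nat.card Q = n →
      ∃ f : Set (IrrCharacter (Subgroup.centralizer (Q : Set G))),
        IsPBlock M f ∧ SubpairLE p M Q f P e := by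
  haveI : Fact p.Prime := ⟨hM.1⟩
  intro n
  induction n using Nat.strong_induction_on with
  | _ n ih =>
    intro Q hQP hn
    by_cases hne : Q = P
    · subst hne
      exact ⟨e, hPe.2, Relation.ReflTransGen.refl⟩
    · obtain ⟨x, hxP, hxN, hxQ⟩ := Cfsg.Agent.Lib.Helper9.normalizer_growth hPe.1 hQP hne
      have hQR : Q ≤ Subgroup.normalizer (Q : Set G) ⊓ P := le_inf Subgroup.le_normalizer hQP
      have hlt : Q < Subgroup.normalizer (Q : Set G) ⊓ P :=
        lt_of_le_of_ne hQR (fun h => hxQ (h ▸ ⟨hxN, hxP⟩))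
      have hcard : Nat.card Q < Nat.card (Subgroup.normalizer (Q : Set G) ⊓ P : Subgroup G) :=
        Set.ncard_lt_ncard hlt (Set.toFinite _)
      have hcard2 : Nat.card (Subgroup.normalizer (Q : Set G) ⊓ P : Subgroup G) ≤ Nat.card P :=
        Subgroup.card_le_of_le inf_le_right
      obtain ⟨f₁, hf₁, hle₁⟩ :=
        ih (Nat.card P - Nat.card (Subgroup.normalizer (Q : Set G) ⊓ P : Subgroup G))
          (by omega) _ inf_le_right rfl
      obtain ⟨f, hf⟩ := exists_normalSubpair hM
        (⟨hPe.1.to_le inf_le_right, hf₁⟩ : IsBrauerPair p M _ f₁) hQR inf_le_left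
      have step' : NormalSubpairRel p M ⟨Q, f⟩
          ⟨Subgroup.normalizer (Q : Set G) ⊓ P, f₁⟩ := hf
      exact ⟨f, hf.1.2, Relation.ReflTransGen.head step' hle₁⟩

/-- uniqueness of subpairs -/
theorem subpair_unique (hM : IsPModular p M) :
    ∀ (n : ℕ) (b : BrauerPairIdx G), Nat.card b.1 = n →
      ∀ (Q : Subgroup G) (f f' : Set (IrrCharacter (Subgroup.centralizer (Q : Set G)))),
        Relation.ReflTransGen (NormalSubpairRel p M) ⟨Q, f⟩ b →
        Relation.ReflTransGen (NormalSubpairRel p M) ⟨Q, f'⟩ b → f = f' := by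
  intro n
  induction n using Nat.strong_induction_on with
  | _ n ih =>
    intro b hb Q f f' h h'
    rcases chain_cases hM h with h1 | ⟨c, hc1, hc2, hc3⟩
    · rcases chain_cases hM h' with h1' | ⟨c', hc1', hc2', hc3'⟩
      · have := h1.trans h1'.symm
        simpa using this
      · exfalso
        apply hc3'
        apply le_antisymm hc2'.2.2.1
        have := le_of_reflTransGen hc1'
        rw [← h1]
        exact this
    · rcases chain_cases hM h' with h1' | ⟨c', hc1', hc2', hc3'⟩
      · exfalso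
        apply hc3
        apply le_antisymm hc2.2.2.1
        have := le_of_reflTransGen hc1
        rw [← h1']
        exact this
      · obtain ⟨R, g⟩ := c
        obtain ⟨R', g'⟩ := c'
        obtain ⟨P, e⟩ := b
        have hc2 : IsNormalSubpair p M R g P e := hc2
        have hc2' : IsNormalSubpair p M R' g' P e := hc2'
        have hQR : Q ≤ R := le_of_reflTransGen hc1
        have hQR' : Q ≤ R' := le_of_reflTransGen hc1'
        obtain ⟨s, hs⟩ := exists_normalSubpair hM hc2.2.1
          (inf_le_left.trans hc2.2.2.1 : R ⊓ R' ≤ P)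
          (Cfsg.Agent.Lib.Helper9.le_normalizer_inf hc2.2.2.2.1 hc2'.2.2.2.1)
        have hsR := isNormalSubpair_of_le hM hs hc2 inf_le_left
        have hsR' := isNormalSubpair_of_le hM hs hc2' inf_le_right
        obtain ⟨f'', -, hf''⟩ := exists_subpair hM hs.1 _ Q (le_inf hQR hQR') rfl
        have hlt : ∀ {R₀ : Subgroup G}, R₀ ≤ P → R₀ ≠ P → Nat.card R₀ < n := by
          intro R₀ hle hne
          rw [← hb]
          have hlt' : R₀ < P := lt_of_le_of_ne hle hne
          exact Set.ncard_lt_ncard hlt' (Set.toFinite _)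
        have e1 : f = f'' := ih _ (hlt hc2.2.2.1 hc3) ⟨R, g⟩ rfl Q f f'' hc1
          (Relation.ReflTransGen.tail hf'' hsR)
        have e2 : f' = f'' := ih _ (hlt hc2'.2.2.1 hc3') ⟨R', g'⟩ rfl Q f' f'' hc1'
          (Relation.ReflTransGen.tail hf'' hsR')
        rw [e1, e2]

end Cfsg.Agent.Lib.Helper24
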