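import Cfsg.Agent.Lib.Helper24.CanonB

set_option autoImplicit false
set_option linter.style.haveILetI false
set_option linter.unusedSectionVars false
open Cfsg
open Cfsg.Agent.Lib.Helper7
open scoped ComplexConjugate

namespace Cfsg.Agent.Lib.Helper24

universe u
variable {G : Type u} [Group G] {M : Ideal AlgInt} {p : ℕ}

open Classical in
/-- the regular norm as a real number -/
noncomputable def regNorm [Fintype G] (p : ℕ) (χ : G → ℂ) : ℝ :=
  (Nat.card G : ℝ)⁻¹ * ∑ y : G, if p ∣ orderOf y then 0 else Complex.normSq (χ y)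

theorem classInner_regPart_self [Fintype G] (χ : G → ℂ) :
    classInner (regPart p χ) χ = (regNorm p χ : ℂ) := by
  classical
  rw [classInner, regNorm]
  push_cast
  congr 1
  apply Finset.sum_congr rfl
  intro y _
  by_cases hy : p ∣ orderOf y
  · simp [regPart, hy]
  · simp only [regPart, hy, if_false]
    rw [Complex.mul_conj]

theorem isPPart_central_mul [Finite G] (hp : p.Prime) {Z : Subgroup G} (hZp : IsPGroup p Z)
    (hZ : Z ≤ Subgroup.center G) (u : Z) {y : G} (hy : ¬ p ∣ orderOf y) :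
    IsPPart p ((u : G) * y) (u : G) := by
  refine ⟨y, rfl, (Subgroup.mem_center_iff.1 (hZ u.2) y).symm, ?_, hy⟩
  obtain ⟨k, hk⟩ := hZp u
  have h3 : (u : G) ^ p ^ k = 1 := by
    have := congrArg Subtype.val hk
    simpa using this
  obtain ⟨j, _, hj⟩ := (Nat.dvd_prime_pow hp).1 (orderOf_dvd_of_pow_eq_one h3)
  exact ⟨j, hj⟩

open Classical in
theorem regNorm_central [Fintype G] (hp : p.Prime) {Z : Subgroup G} (hZp : IsPGroup p Z)
    (hZ : Z ≤ Subgroup.center G) (χ : IrrCharacter G) :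
    ∑ g : G, (if ∃ x ∈ Z, IsPPart p g x then (0 : ℝ) else Complex.normSq ((χ : G → ℂ) g))
      = (Nat.card G : ℝ) * (1 - (Nat.card Z : ℝ) * regNorm p (χ : G → ℂ)) := by
  haveI : Fintype Z := Fintype.ofFinite _
  have hG := sup_centralizer_of_le_center hZ
  have hc0 : (Nat.card G : ℂ) ≠ 0 := by exact_mod_cast Nat.card_pos.ne'
  have hc0' : (Nat.card G : ℝ) ≠ 0 := by exact_mod_cast Nat.card_pos.ne'
  have h0 := irr_apply_one_ne_zero χ.2
  have h1 : ∑ g : G, Complex.normSq ((χ : G → ℂ) g) = (Nat.card G : ℝ) := by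
    have := classInner_irr_self χ.2
    rw [classInner, inv_mul_eq_iff_eq_mul₀ hc0, mul_one] at this
    have h2 : ((∑ g : G, Complex.normSq ((χ : G → ℂ) g) : ℝ) : ℂ) = ((Nat.card G : ℝ) : ℂ) := by
      rw [Complex.ofReal_sum, Complex.ofReal_natCast, ← this]
      exact Finset.sum_congr rfl fun g _ => (Complex.mul_conj _).symm
    exact_mod_cast h2
  have h2 := sum_eq_sum_mul_regular hp hZp hG
    (fun g => if ∃ x ∈ Z, IsPPart p g x then ((Complex.normSq ((χ : G → ℂ) g) : ℝ) : ℂ) else 0) (by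
      intro g x hx hxZ
      rw [if_neg]
      rintro ⟨x', hx'Z, hx'⟩
      rw [isPPart_unique hp hx' hx] at hx'Z
      exact hxZ hx'Z)
  have h3 : ∀ (u : Z) (y : G), (if p ∣ orderOf y then (0 : ℂ)
      else (if ∃ x ∈ Z, IsPPart p ((u : G) * y) x
        then ((Complex.normSq ((χ : G → ℂ) ((u : G) * y)) : ℝ) : ℂ) else 0))
      = (((if p ∣ orderOf y then 0 else Complex.normSq ((χ : G → ℂ) y)) : ℝ) : ℂ) := by
    intro u y
    by_cases hy : p ∣ orderOf y
    · simp [hy]
    · rw [if_neg hy, if_neg hy, if_pos ⟨u, u.2, isPPart_central_mul hp hZp hZ u hy⟩]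
      have hc := regular_mem_centralizer hp hZp hG hy
      have e1 := char_mul_of_sup_centralizer hG χ u.2 hc
      have e2 := central_mul_conj hZ χ u.2
      have e3 := congrArg conj e1
      obtain ⟨n, _, hn⟩ := irr_apply_one χ.2
      have hψ1 : conj ((χ : G → ℂ) 1) = (χ : G → ℂ) 1 := by rw [hn, Complex.conj_natCast]
      rw [map_mul, map_mul, hψ1] at e3
      rw [← Complex.mul_conj, ← Complex.mul_conj]
      apply mul_left_cancel₀ (mul_ne_zero h0 h0)
      linear_combination (conj ((χ : G → ℂ) ((u : G) * y)) * (χ : G → ℂ) 1) * e1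
        + ((χ : G → ℂ) u * (χ : G → ℂ) y) * e3
        + ((χ : G → ℂ) y * conj ((χ : G → ℂ) y)) * e2
  have h4 : ∑ g : G, (if ∃ x ∈ Z, IsPPart p g x then Complex.normSq ((χ : G → ℂ) g) else (0 : ℝ))
      = (Nat.card Z : ℝ) * ((Nat.card G : ℝ) * regNorm p (χ : G → ℂ)) := by
    have h5 : ((∑ g : G, (if ∃ x ∈ Z, IsPPart p g x then Complex.normSq ((χ : G → ℂ) g)
        else (0 : ℝ)) : ℝ) : ℂ)
        = (((Nat.card Z : ℝ) * ((Nat.card G : ℝ) * regNorm p (χ : G → ℂ)) : ℝ) : ℂ) := by
      rw [Complex.ofReal_sum]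
      have e : ∀ g : G, (((if ∃ x ∈ Z, IsPPart p g x then Complex.normSq ((χ : G → ℂ) g)
          else (0 : ℝ)) : ℝ) : ℂ)
          = if ∃ x ∈ Z, IsPPart p g x then ((Complex.normSq ((χ : G → ℂ) g) : ℝ) : ℂ) else 0 := by
        intro g
        split_ifs <;> simp
      rw [Finset.sum_congr rfl (fun g _ => e g), h2,
        Finset.sum_congr rfl (fun u _ => Finset.sum_congr rfl (fun y _ => h3 u y)),
        Finset.sum_const, Finset.card_univ, nsmul_eq_mul, ← Nat.card_eq_fintype_card,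
        regNorm, mul_inv_cancel_left₀ hc0']
      push_cast
      rfl
    exact_mod_cast h5
  have h6 : ∀ g : G, (if ∃ x ∈ Z, IsPPart p g x then (0 : ℝ) else Complex.normSq ((χ : G → ℂ) g))
      = Complex.normSq ((χ : G → ℂ) g)
        - (if ∃ x ∈ Z, IsPPart p g x then Complex.normSq ((χ : G → ℂ) g) else (0 : ℝ)) := by
    intro g
    split_ifs <;> simp
  rw [Finset.sum_congr rfl (fun g _ => h6 g), Finset.sum_sub_distrib, h1, h4]
  ring

theorem regNorm_le_central [Fintype G] (hp : p.Prime) {Z : Subgroup G} (hZp : IsPGroup p Z)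
    (hZ : Z ≤ Subgroup.center G) (χ : IrrCharacter G) :
    regNorm p (χ : G → ℂ) ≤ (Nat.card Z : ℝ)⁻¹ := by
  classical
  have h1 := regNorm_central hp hZp hZ χ
  have h2 : (0 : ℝ) ≤ ∑ g : G, (if ∃ x ∈ Z, IsPPart p g x then (0 : ℝ)
      else Complex.normSq ((χ : G → ℂ) g)) := by
    apply Finset.sum_nonneg
    intro g _
    split_ifs
    · exact le_rfl
    · exact Complex.normSq_nonneg _
  rw [h1] at h2
  have hcard : (0 : ℝ) < (Nat.card G : ℝ) := by exact_mod_cast Nat.card_pos
  have hcZ : (0 : ℝ) < (Nat.card Z : ℝ) := by exact_mod_cast Nat.card_pos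
  have h3 : 0 ≤ 1 - (Nat.card Z : ℝ) * regNorm p (χ : G → ℂ) := by
    by_contra h
    push Not at h
    have := mul_neg_of_pos_of_neg hcard h
    linarith
  rw [← one_div, le_div_iff₀ hcZ]
  linarith

theorem vanish_of_le_regNorm [Fintype G] (hp : p.Prime) {Z : Subgroup G} (hZp : IsPGroup p Z)
    (hZ : Z ≤ Subgroup.center G) (χ : IrrCharacter G)
    (h : (Nat.card Z : ℝ)⁻¹ ≤ regNorm p (χ : G → ℂ)) (g x : G) (hx : IsPPart p g x)
    (hxZ : x ∉ Z) : (χ : G → ℂ) g = 0 := by
  classical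
  have h1 := regNorm_central hp hZp hZ χ
  have hcard : (0 : ℝ) < (Nat.card G : ℝ) := by exact_mod_cast Nat.card_pos
  have hcZ : (0 : ℝ) < (Nat.card Z : ℝ) := by exact_mod_cast Nat.card_pos
  rw [← one_div, div_le_iff₀ hcZ] at h
  have h2 : ∑ g : G, (if ∃ x ∈ Z, IsPPart p g x then (0 : ℝ)
      else Complex.normSq ((χ : G → ℂ) g)) ≤ 0 := by
    rw [h1]
    apply mul_nonpos_of_nonneg_of_nonpos hcard.le
    linarith
  have hnn : ∀ g ∈ (Finset.univ : Finset G), (0 : ℝ) ≤ (if ∃ x ∈ Z, IsPPart p g x then (0 : ℝ)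
      else Complex.normSq ((χ : G → ℂ) g)) := by
    intro g _
    split_ifs
    · exact le_rfl
    · exact Complex.normSq_nonneg _
  have h3 := (Finset.sum_eq_zero_iff_of_nonneg hnn).1
    (le_antisymm h2 (Finset.sum_nonneg hnn)) g (Finset.mem_univ g)
  rw [if_neg] at h3
  · exact Complex.normSq_eq_zero.1 h3
  · rintro ⟨x', hx'Z, hx'⟩
    rw [isPPart_unique hp hx' hx] at hx'Z
    exact hxZ hx'Z

/-- lower bound for nonzero contributions -/
theorem le_abs_contrib [Fintype G] (hM : IsPModular p M) (χ ψ : IrrCharacter G)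
    (hne : classInner (regPart p (χ : G → ℂ)) (ψ : G → ℂ) ≠ 0) :
    ∃ r : ℝ, classInner (regPart p (χ : G → ℂ)) (ψ : G → ℂ) = r ∧
      (p : ℝ) ^ (charDegree (ψ : G → ℂ)).factorization p
        / (p : ℝ) ^ (Nat.card G).factorization p ≤ |r| := by
  haveI : Fact p.Prime := ⟨hM.1⟩
  obtain ⟨N, hN⟩ := exists_int_contrib (p := p) χ ψ
  obtain ⟨k, rfl⟩ := contrib_dvd hM χ ψ hN
  have hp0 : (0 : ℝ) < (p : ℝ) := by exact_mod_cast hM.1.pos
  have hpp : (0 : ℝ) < (p : ℝ) ^ (Nat.card G).factorization p := by positivity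
  have hpq : (0 : ℝ) < (p : ℝ) ^ (charDegree (ψ : G → ℂ)).factorization p := by positivity
  have hppC : ((p : ℂ) ^ (Nat.card G).factorization p) ≠ 0 := by
    have : (p : ℂ) ≠ 0 := by exact_mod_cast hM.1.pos.ne'
    exact pow_ne_zero _ this
  have hk0 : k ≠ 0 := by
    rintro rfl
    rw [mul_zero, Int.cast_zero] at hN
    rcases mul_eq_zero.1 hN with h | h
    · exact hppC h
    · exact hne h
  refine ⟨((p : ℝ) ^ (charDegree (ψ : G → ℂ)).factorization p * (k : ℝ))
      / (p : ℝ) ^ (Nat.card G).factorization p, ?_, ?_⟩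
  · push_cast
    rw [eq_div_iff hppC, mul_comm, hN]
    push_cast
    rfl
  · rw [abs_div, abs_of_pos hpp, abs_mul, abs_of_pos hpq]
    apply div_le_div_of_nonneg_right _ hpp.le
    have : (1 : ℤ) ≤ |k| := Int.one_le_abs hk0
    have h2 : (1 : ℝ) ≤ |(k : ℝ)| := by exact_mod_cast this
    nlinarith

theorem regNorm_pos [Fintype G] (hp : p.Prime) (χ : IrrCharacter G) :
    0 < regNorm p (χ : G → ℂ) := by
  classical
  have hcard : (0 : ℝ) < (Nat.card G : ℝ) := by exact_mod_cast Nat.card_pos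
  rw [regNorm]
  apply mul_pos (inv_pos.2 hcard)
  have hnn : ∀ g ∈ (Finset.univ : Finset G), (0 : ℝ) ≤ (if p ∣ orderOf g then (0 : ℝ)
      else Complex.normSq ((χ : G → ℂ) g)) := by
    intro g _
    split_ifs
    · exact le_rfl
    · exact Complex.normSq_nonneg _
  have h1 := Finset.single_le_sum hnn (Finset.mem_univ (1 : G))
  have hp1 : ¬ p ∣ orderOf (1 : G) := by
    rw [orderOf_one, Nat.dvd_one]
    exact hp.one_lt.ne'
  rw [if_neg hp1] at h1
  exact lt_of_lt_of_le (Complex.normSq_pos.2 (irr_apply_one_ne_zero χ.2)) h1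

/-- characters of "central defect": statement of Reynolds' lemma -/
theorem central_defect [Fintype G] (hM : IsPModular p M) {D : Subgroup G} (hD : IsPGroup p D)
    (hDZ : D ≤ Subgroup.center G) (χ : IrrCharacter G)
    (hdeg : (charDegree (χ : G → ℂ)).factorization p = D.index.factorization p) :
    IsDefectGroup p M (blockOf M (χ : G → ℂ)) D ∧
      ∀ g x : G, IsPPart p g x → x ∉ D → (χ : G → ℂ) g = 0 := by
  haveI := hM.2.1.isPrime
  haveI : Fact p.Prime := ⟨hM.1⟩
  haveI : D.Normal := normal_of_sup_centralizer (sup_centralizer_of_le_center hDZ)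
  have hp := hM.1
  obtain ⟨n, hn⟩ := hD.exists_card_eq
  have hp0 : (0 : ℝ) < (p : ℝ) := by exact_mod_cast hp.pos
  have ha : (Nat.card G).factorization p = n + (charDegree (χ : G → ℂ)).factorization p := by
    rw [hdeg, ← D.card_mul_index, Nat.factorization_mul Nat.card_pos.ne' D.index_ne_zero_of_finite,
      hn, Finsupp.add_apply, hp.factorization_pow, Finsupp.single_eq_same]
  have hquot : (p : ℝ) ^ (charDegree (χ : G → ℂ)).factorization p
      / (p : ℝ) ^ (Nat.card G).factorization p = (Nat.card D : ℝ)⁻¹ := by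
    rw [ha, hn, pow_add]
    push_cast
    field_simp
  have hB : IsPBlock M (blockOf M (χ : G → ℂ)) := ⟨χ, rfl⟩
  have hχB := self_mem_blockOf (M := M) χ
  constructor
  · obtain ⟨ψ, hψ, h⟩ := exists_height_zero hB p
    have h0 : blockHeight p (blockOf M (χ : G → ℂ)) (ψ : G → ℂ) = 0 := by
      rw [blockHeight, h]; simp
    obtain ⟨r, hr, hle⟩ := le_abs_contrib hM ψ χ (contrib_ne_zero hM hB hψ h0 hχB)
    rw [hquot] at hle
    have hp1 : ¬ p ∣ orderOf (1 : G) := by
      rw [orderOf_one, Nat.dvd_one]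
      exact hp.one_lt.ne'
    have h1 := regular_eq_of_norm_le ψ χ (classInner_regPart_self _) (classInner_regPart_self _) hr
      (regNorm_le_central hp hD hDZ ψ) (regNorm_le_central hp hD hDZ χ) hle 1 hp1
    have h2 : charDegree (ψ : G → ℂ) = charDegree (χ : G → ℂ) := by
      unfold charDegree; rw [h1]
    have hdef : blockDefect p (blockOf M (χ : G → ℂ)) = n := by
      rw [blockDefect, ← h, h2, ha]; omega
    obtain ⟨Q, hQ⟩ := exists_defectGroup hM hB
    have hle2 := normal_le_defectGroup hM hB hQ D hD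
    have : D = Q := Subgroup.eq_of_le_of_card_ge hle2 (by
      rw [card_defectGroup hM hB hQ, hdef, hn])
    rw [this]; exact hQ
  · have hne : classInner (regPart p (χ : G → ℂ)) (χ : G → ℂ) ≠ 0 := by
      rw [classInner_regPart_self]
      exact_mod_cast (regNorm_pos hp χ).ne'
    obtain ⟨r, hr, hle⟩ := le_abs_contrib hM χ χ hne
    rw [classInner_regPart_self] at hr
    have hr' : regNorm p (χ : G → ℂ) = r := by exact_mod_cast hr
    rw [hquot, ← hr', abs_of_pos (regNorm_pos hp χ)] at hle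
    exact vanish_of_le_regNorm hp hD hDZ χ hle

end Cfsg.Agent.Lib.Helper24
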