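import Cfsg.Agent.Lib.Helper24.CanonC
import Cfsg.Agent.Lib.Helper7.BlockKnorr

set_option autoImplicit false
set_option linter.style.haveILetI false
set_option linter.unusedSectionVars false
open Cfsg
open Cfsg.Agent.Lib.Helper7
open scoped ComplexConjugate

namespace Cfsg.Agent.Lib.Helper24

universe u
variable {G : Type u} [Group G] {M : Ideal AlgInt} {p : ℕ} {P : Subgroup G}

theorem conjFun_centralizer_of_sup (hG : P ⊔ Subgroup.centralizer (P : Set G) = ⊤)
    [(Subgroup.centralizer (P : Set G)).Normal]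
    {θ : Subgroup.centralizer (P : Set G) → ℂ}
    (hθ : IsClassFunction (Subgroup.centralizer (P : Set G)) θ) (g : G) :
    Cfsg.Agent.Lib.Helper25.conjFun (Subgroup.centralizer (P : Set G)) θ g = θ := by
  funext n
  rw [Cfsg.Agent.Lib.Helper25.conjFun_apply]
  obtain ⟨v, hv, c, hc, rfl⟩ := exists_mul_of_sup_centralizer hG g
  rw [← hθ n ⟨c, hc⟩]
  congr 1
  apply Subtype.ext
  have hc'' : c * n * c⁻¹ ∈ Subgroup.centralizer (P : Set G) :=
    mul_mem (mul_mem hc n.2) (inv_mem hc)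
  have e1 : v * (c * n * c⁻¹) = (c * n * c⁻¹) * v :=
    Subgroup.mem_centralizer_iff.1 hc'' v hv
  show v * c * n * (v * c)⁻¹ = c * n * c⁻¹
  have : v * c * n * (v * c)⁻¹ = v * (c * n * c⁻¹) * v⁻¹ := by group
  rw [this, e1, mul_inv_cancel_right]

theorem conjFun_self_of_sup (hG : P ⊔ Subgroup.centralizer (P : Set G) = ⊤) [P.Normal]
    {θ : P → ℂ} (hθ : IsClassFunction P θ) (g : G) :
    Cfsg.Agent.Lib.Helper25.conjFun P θ g = θ := by
  funext n
  rw [Cfsg.Agent.Lib.Helper25.conjFun_apply]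
  obtain ⟨v, hv, c, hc, rfl⟩ := exists_mul_of_sup_centralizer hG g
  rw [← hθ n ⟨v, hv⟩]
  congr 1
  apply Subtype.ext
  have e1 : (n : G) * c = c * n := Subgroup.mem_centralizer_iff.1 hc n n.2
  show v * c * n * (v * c)⁻¹ = v * n * v⁻¹
  have : v * c * n * (v * c)⁻¹ = v * (c * n) * c⁻¹ * v⁻¹ := by group
  rw [this, ← e1]
  group

/-- for `G = P C(P)` and a block with defect group `P`, the members are proportional on the
regular elements -/
theorem regular_prop_of_sup [Fintype G] (hM : IsPModular p M)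
    (hG : P ⊔ Subgroup.centralizer (P : Set G) = ⊤) {B : Set (IrrCharacter G)}
    (hB : IsPBlock M B) (hD : IsDefectGroup p M B P) {χ ψ : IrrCharacter G} (hχ : χ ∈ B)
    (hψ : ψ ∈ B) (y : G) (hy : ¬ p ∣ orderOf y) :
    (χ : G → ℂ) y * (ψ : G → ℂ) 1 = (ψ : G → ℂ) y * (χ : G → ℂ) 1 := by
  classical
  haveI := hM.2.1.isPrime
  haveI : Fact p.Prime := ⟨hM.1⟩
  haveI := normal_of_sup_centralizer hG
  haveI : (Subgroup.centralizer (P : Set G)).Normal := inferInstance
  have hP : IsPGroup p P := isPGroup_of_defectGroup hM hB hD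
  set C := Subgroup.centralizer (P : Set G) with hC
  haveI : Fintype C := Fintype.ofFinite _
  obtain ⟨ξ₀, hξ₀⟩ := exists_constituent_res C χ
  set b := blockOf M (ξ₀ : C → ℂ) with hbdef
  have hb : IsPBlock M b := ⟨ξ₀, rfl⟩
  have hξ₀b : ξ₀ ∈ b := self_mem_blockOf ξ₀
  have hcov : Covers C B b := ⟨χ, hχ, ξ₀, hξ₀b, hξ₀⟩
  -- the defect group of `b` is central
  obtain ⟨Db, hDb⟩ := exists_defectGroup hM hb
  have hQ : (Db.map C.subtype).subgroupOf C = Db := by
    rw [Subgroup.subgroupOf, Subgroup.comap_map_eq_self_of_injective C.subtype_injective]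
  obtain ⟨P', hP', hPQ⟩ := knorr C hM hb hB hcov (Q := Db.map C.subtype)
    (map_subtype_le _ _) (by rw [hQ]; exact hDb)
  rw [defectGroup_eq_of_normal hM hB hD hP'] at hPQ
  have hcen : Db ≤ Subgroup.center C := by
    intro z hz
    rw [Subgroup.mem_center_iff]
    intro c
    apply Subtype.ext
    have hzP : (z : G) ∈ P := by
      have : (z : G) ∈ Db.map C.subtype := ⟨z, hz, rfl⟩
      rw [← hPQ] at this
      exact this.1
    exact (Subgroup.mem_centralizer_iff.1 c.2 z hzP).symm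
  have hyC : y ∈ C := regular_mem_centralizer hM.1 hP hG hy
  have hy' : ¬ p ∣ orderOf (⟨y, hyC⟩ : C) := by
    rw [← Subgroup.orderOf_coe]
    exact hy
  have key : ∀ χ' ∈ B, (χ' : G → ℂ) y * (ξ₀ : C → ℂ) 1 = (ξ₀ : C → ℂ) ⟨y, hyC⟩ * (χ' : G → ℂ) 1 := by
    intro χ' hχ'
    obtain ⟨ξ, hξ⟩ := exists_constituent_res C χ'
    have hmem := mem_conjClosure_of_cover C hB hb hχ hξ₀b hξ₀ hχ' hξ
    obtain ⟨g, ξ', hξ', rfl⟩ := hmem
    have hinv : conjIrr C ξ' g = ξ' :=
      Subtype.ext (conjFun_centralizer_of_sup hG (isClassFunction_irr ξ') g)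
    rw [hinv] at hξ
    have h1 := Cfsg.Agent.Lib.Helper25.restrict_eq_smul_of_invariant C χ'.2 ξ'.2 hξ
      (conjFun_centralizer_of_sup hG (isClassFunction_irr ξ'))
    have h2 := congrFun h1 ⟨y, hyC⟩
    have h3 := congrFun h1 1
    simp only [Pi.smul_apply, smul_eq_mul, OneMemClass.coe_one] at h2 h3
    have h4 := central_regular_eq hM hb hcen hDb hξ' hξ₀b ⟨y, hyC⟩ hy'
    have hp1 : ¬ p ∣ orderOf (1 : C) := by
      rw [orderOf_one, Nat.dvd_one]
      exact hM.1.one_lt.ne'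
    have h5 := central_regular_eq hM hb hcen hDb hξ' hξ₀b 1 hp1
    rw [h2, h3, h4, h5]
    ring
  have k1 := key χ hχ
  have k2 := key ψ hψ
  apply mul_right_cancel₀ (irr_apply_one_ne_zero ξ₀.2)
  linear_combination (ψ : G → ℂ) 1 * k1 - (χ : G → ℂ) 1 * k2

end Cfsg.Agent.Lib.Helper24
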