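import Cfsg.Agent.Lib.Helper24.CanonD

set_option autoImplicit false
set_option linter.style.haveILetI false
set_option linter.unusedSectionVars false
open Cfsg
open Cfsg.Agent.Lib.Helper7
open scoped ComplexConjugate

namespace Cfsg.Agent.Lib.Helper24

universe u
variable {G : Type u} [Group G] {M : Ideal AlgInt} {p : ℕ} {P : Subgroup G}

theorem conj_irr_one (χ : IrrCharacter G) : conj ((χ : G → ℂ) 1) = (χ : G → ℂ) 1 := by
  obtain ⟨n, _, hn⟩ := irr_apply_one χ.2
  rw [hn, Complex.conj_natCast]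

theorem regnorm_prop [Fintype G] (η θ : IrrCharacter G)
    (h : ∀ y : G, ¬ p ∣ orderOf y → (η : G → ℂ) y * (θ : G → ℂ) 1 = (θ : G → ℂ) y * (η : G → ℂ) 1) :
    classInner (regPart p (η : G → ℂ)) (η : G → ℂ) * ((θ : G → ℂ) 1 * (θ : G → ℂ) 1)
      = classInner (regPart p (θ : G → ℂ)) (θ : G → ℂ) * ((η : G → ℂ) 1 * (η : G → ℂ) 1) := by
  classical
  unfold classInner
  rw [mul_assoc, mul_assoc, Finset.sum_mul, Finset.sum_mul]
  congr 1
  apply Finset.sum_congr rfl
  intro y _
  by_cases hy : p ∣ orderOf y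
  · simp [regPart, hy]
  · simp only [regPart, hy, if_false]
    have e1 := h y hy
    have e2 := congrArg conj e1
    rw [map_mul, map_mul, conj_irr_one, conj_irr_one] at e2
    linear_combination (conj ((η : G → ℂ) y) * (θ : G → ℂ) 1) * e1
      + ((θ : G → ℂ) y * (η : G → ℂ) 1) * e2

/-- the regular norm of the canonical character -/
theorem regnorm_canonical [Fintype G] (hp : p.Prime) (hP : IsPGroup p P)
    (hG : P ⊔ Subgroup.centralizer (P : Set G) = ⊤) (θ : IrrCharacter G)
    (hvan : ∀ g x : G, IsPPart p g x → x ∉ P → (θ : G → ℂ) g = 0)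
    (hker : ∀ u ∈ P, (θ : G → ℂ) u = (θ : G → ℂ) 1) :
    (Nat.card P : ℂ) * classInner (regPart p (θ : G → ℂ)) (θ : G → ℂ) = 1 := by
  classical
  haveI : Fintype P := Fintype.ofFinite _
  have h1 := classInner_factor hp hP hG θ θ hvan
  have h2 : ∀ u : P, (θ : G → ℂ) u * conj ((θ : G → ℂ) u) = (θ : G → ℂ) 1 * (θ : G → ℂ) 1 := by
    intro u
    rw [hker u u.2, conj_irr_one]
  rw [classInner_irr_self θ.2, Finset.sum_congr rfl (fun u _ => h2 u),
    Finset.sum_const, Finset.card_univ, nsmul_eq_mul, ← Nat.card_eq_fintype_card] at h1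
  have h0 := irr_apply_one_ne_zero θ.2
  apply mul_left_cancel₀ (mul_ne_zero h0 h0)
  linear_combination (-1 : ℂ) * h1

/-- structure of the members of a block with defect group `P` when `G = P C(P)` -/
theorem canonical_forward [Fintype G] [Fintype P] (hM : IsPModular p M)
    (hG : P ⊔ Subgroup.centralizer (P : Set G) = ⊤) {B : Set (IrrCharacter G)}
    (hB : IsPBlock M B) (hD : IsDefectGroup p M B P) {θ : IrrCharacter G} (hθ : θ ∈ B)
    (hker : ∀ u ∈ P, (θ : G → ℂ) u = (θ : G → ℂ) 1) {η : IrrCharacter G} (hη : η ∈ B)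
    {ζ : IrrCharacter P} (hζ : classInner (fun u : P => (η : G → ℂ) u) (ζ : P → ℂ) ≠ 0) :
    ∀ (u : P) (y : G), ¬ p ∣ orderOf y →
      (η : G → ℂ) ((u : G) * y) = (ζ : P → ℂ) u * (θ : G → ℂ) y := by
  classical
  haveI := hM.2.1.isPrime
  haveI := normal_of_sup_centralizer hG
  have hP : IsPGroup p P := isPGroup_of_defectGroup hM hB hD
  have hp := hM.1
  have hres := Cfsg.Agent.Lib.Helper25.restrict_eq_smul_of_invariant P η.2 ζ.2 hζ
    (conjFun_self_of_sup hG (isClassFunction_irr ζ))
  obtain ⟨f, hf⟩ := classInner_char_nat (isCharacter_restrict (isCharacter_of_irr η.2) P)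
    (isCharacter_of_irr ζ.2)
  rw [hf] at hres
  have hresu : ∀ u : P, (η : G → ℂ) u = (f : ℂ) * (ζ : P → ℂ) u := fun u => congrFun hres u
  have hprop := fun y hy => regular_prop_of_sup hM hG hB hD hη hθ y hy
  have hθ0 := irr_apply_one_ne_zero θ.2
  have hη0 := irr_apply_one_ne_zero η.2
  have hcP : (Nat.card P : ℂ) ≠ 0 := by exact_mod_cast Nat.card_pos.ne'
  -- `f = θ 1`
  have h1 := classInner_factor hp hP hG η η (vanish_of_normal_defect hM hB hD hη)
  have h2 : ∑ u : P, (η : G → ℂ) u * conj ((η : G → ℂ) u) = (f : ℂ) * f * (Nat.card P : ℂ) := by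
    have h3 := classInner_irr_self ζ.2
    rw [classInner, inv_mul_eq_iff_eq_mul₀ hcP, mul_one] at h3
    rw [← h3, Finset.mul_sum]
    apply Finset.sum_congr rfl
    intro u _
    rw [hresu u, map_mul, Complex.conj_natCast]
    ring
  rw [classInner_irr_self η.2, h2] at h1
  have h4 := regnorm_prop η θ hprop
  have h5 := regnorm_canonical hp hP hG θ (vanish_of_normal_defect hM hB hD hθ) hker
  have h6 : (f : ℂ) * f = (θ : G → ℂ) 1 * (θ : G → ℂ) 1 := by
    apply mul_left_cancel₀ (mul_ne_zero hη0 hη0)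
    linear_combination (-(θ : G → ℂ) 1 * (θ : G → ℂ) 1) * h1
      - ((f : ℂ) * f * (Nat.card P : ℂ)) * h4
      - ((f : ℂ) * f * ((η : G → ℂ) 1 * (η : G → ℂ) 1)) * h5
  obtain ⟨n, _, hn⟩ := irr_apply_one θ.2
  have h7 : (f : ℂ) = (θ : G → ℂ) 1 := by
    rw [hn] at h6 ⊢
    have : f * f = n * n := by exact_mod_cast h6
    have : f = n := Nat.mul_self_inj.1 this
    rw [this]
  intro u y hy
  have hc := regular_mem_centralizer hp hP hG hy
  have e1 := char_mul_of_sup_centralizer hG η u.2 hc
  have e2 := hprop y hy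
  rw [hresu u, h7] at e1
  apply mul_right_cancel₀ hη0
  apply mul_right_cancel₀ hθ0
  linear_combination (θ : G → ℂ) 1 * e1 + ((θ : G → ℂ) 1 * (ζ : P → ℂ) u) * e2

/-- every irreducible character of a `p`-subgroup lies under some member of any block -/
theorem exists_over_of_block [Fintype G] [Fintype P] (hM : IsPModular p M) (hP : IsPGroup p P)
    {B : Set (IrrCharacter G)} (hB : IsPBlock M B) (ζ : IrrCharacter P) :
    ∃ η ∈ B, classInner (fun u : P => (η : G → ℂ) u) (ζ : P → ℂ) ≠ 0 := by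
  classical
  haveI := hM.2.1.isPrime
  haveI := Fintype.ofFinite (IrrCharacter G)
  by_contra hcon
  push Not at hcon
  have hcP : (Nat.card P : ℂ) ≠ 0 := by exact_mod_cast Nat.card_pos.ne'
  have h1 : ∑ u : P, blockCoeff B (u : G) * (ζ : P → ℂ) u = blockCoeff B 1 * (ζ : P → ℂ) 1 := by
    rw [Finset.sum_eq_single (1 : P)]
    · rfl
    · intro u _ hu
      rw [blockCoeff_eq_zero_of_singular hM hB, zero_mul]
      obtain ⟨k, hk⟩ := hP u
      have h3 : (u : G) ^ p ^ k = 1 := by
        have := congrArg Subtype.val hk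
        simpa using this
      obtain ⟨j, _, hj⟩ := (Nat.dvd_prime_pow hM.1).1 (orderOf_dvd_of_pow_eq_one h3)
      rw [hj]
      apply dvd_pow_self
      rintro rfl
      rw [pow_zero, orderOf_eq_one_iff] at hj
      exact hu (Subtype.ext hj)
    · intro h; exact absurd (Finset.mem_univ _) h
  have h2 : ∑ u : P, blockCoeff B (u : G) * (ζ : P → ℂ) u = 0 := by
    simp only [blockCoeff_eq_sum, mul_assoc, Finset.sum_mul]
    rw [← Finset.mul_sum, Finset.sum_comm]
    apply mul_eq_zero_of_right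
    apply Finset.sum_eq_zero
    intro χ _
    by_cases hχ : χ ∈ B
    · simp only [Set.indicator_of_mem hχ]
      have h3 := hcon χ hχ
      rw [classInner, mul_eq_zero, inv_eq_zero] at h3
      have h4 := h3.resolve_left hcP
      have h5 := congrArg conj h4
      rw [map_sum, map_zero] at h5
      simp only [mul_assoc]
      rw [← Finset.mul_sum]
      apply mul_eq_zero_of_right
      rw [← h5]
      apply Finset.sum_congr rfl
      intro u _
      rw [map_mul, Complex.conj_conj]
    · simp only [Set.indicator_of_notMem hχ, zero_mul, Finset.sum_const_zero]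
  rw [h1] at h2
  rcases mul_eq_zero.1 h2 with h | h
  · apply card_mul_blockCoeff_one_ne_zero hB
    rw [h, mul_zero]
  · exact irr_apply_one_ne_zero ζ.2 h

end Cfsg.Agent.Lib.Helper24
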