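import Cfsg.Agent.Lib.Helper24.CanonE
import Cfsg.Agent.Lib.Helper7.CharColumn

set_option autoImplicit false
set_option linter.style.haveILetI false
set_option linter.unusedSectionVars false
open Cfsg
open Cfsg.Agent.Lib.Helper7
open scoped ComplexConjugate

namespace Cfsg.Agent.Lib.Helper24

universe u
variable {G : Type u} [Group G] {M : Ideal AlgInt} {p : ℕ} {P : Subgroup G}

section
variable [Fintype G] [Fintype P] (hM : IsPModular p M)
    (hG : P ⊔ Subgroup.centralizer (P : Set G) = ⊤) {B : Set (IrrCharacter G)}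
    (hB : IsPBlock M B) (hD : IsDefectGroup p M B P) {θ : IrrCharacter G} (hθ : θ ∈ B)
    (hker : ∀ u ∈ P, (θ : G → ℂ) u = (θ : G → ℂ) 1)
include hM hG hB hD hθ hker

theorem canonical_inj {η η' : IrrCharacter G} (hη : η ∈ B) (hη' : η' ∈ B) {ζ : IrrCharacter P}
    (hζ : classInner (fun u : P => (η : G → ℂ) u) (ζ : P → ℂ) ≠ 0)
    (hζ' : classInner (fun u : P => (η' : G → ℂ) u) (ζ : P → ℂ) ≠ 0) : η = η' := by
  haveI := normal_of_sup_centralizer hG
  apply Subtype.ext
  funext g
  obtain ⟨x, hx⟩ := exists_pPart hM.1 g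
  by_cases hxP : x ∈ P
  · obtain ⟨y, hy, _, _, hyo⟩ := hx
    rw [← hy]
    rw [canonical_forward hM hG hB hD hθ hker hη hζ ⟨x, hxP⟩ y hyo,
      canonical_forward hM hG hB hD hθ hker hη' hζ' ⟨x, hxP⟩ y hyo]
  · rw [vanish_of_normal_defect hM hB hD hη g x hx hxP,
      vanish_of_normal_defect hM hB hD hη' g x hx hxP]

theorem canonical_constituent_unique {η : IrrCharacter G} (hη : η ∈ B) {ζ ζ' : IrrCharacter P}
    (hζ : classInner (fun u : P => (η : G → ℂ) u) (ζ : P → ℂ) ≠ 0)
    (hζ' : classInner (fun u : P => (η : G → ℂ) u) (ζ' : P → ℂ) ≠ 0) : ζ = ζ' := by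
  apply Subtype.ext
  funext u
  have hp1 : ¬ p ∣ orderOf (1 : G) := by
    rw [orderOf_one, Nat.dvd_one]
    exact hM.1.one_lt.ne'
  have h1 := canonical_forward hM hG hB hD hθ hker hη hζ u 1 hp1
  have h2 := canonical_forward hM hG hB hD hθ hker hη hζ' u 1 hp1
  rw [h1] at h2
  exact mul_right_cancel₀ (irr_apply_one_ne_zero θ.2) h2

theorem canonical_card : Nat.card B = Nat.card (ConjClasses P) := by
  classical
  rw [← card_irr_eq_card_conjClasses]
  have hP : IsPGroup p P := isPGroup_of_defectGroup hM hB hD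
  choose F hFB hF using fun ζ : IrrCharacter P => exists_over_of_block hM hP hB ζ
  symm
  apply Nat.card_congr
  refine Equiv.ofBijective (fun ζ => (⟨F ζ, hFB ζ⟩ : B)) ⟨?_, ?_⟩
  · intro ζ ζ' h
    have h1 : F ζ = F ζ' := congrArg Subtype.val h
    have h2 := hF ζ'
    rw [← h1] at h2
    exact canonical_constituent_unique hM hG hB hD hθ hker (hFB ζ) (hF ζ) h2
  · rintro ⟨η, hη⟩
    obtain ⟨ζ, hζ⟩ := exists_constituent_res P η
    exact ⟨ζ, Subtype.ext (canonical_inj hM hG hB hD hθ hker (hFB ζ) hη (hF ζ) hζ)⟩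

theorem canonical_unique {θ' : IrrCharacter G} (hθ' : θ' ∈ B)
    (hker' : ∀ u ∈ P, (θ' : G → ℂ) u = (θ' : G → ℂ) 1) : θ' = θ := by
  obtain ⟨ζ, hζ⟩ := exists_constituent_res P θ'
  apply canonical_inj hM hG hB hD hθ hker hθ' hθ hζ
  intro h0
  apply hζ
  have e : (fun u : P => (θ' : G → ℂ) u)
      = ((θ' : G → ℂ) 1 / (θ : G → ℂ) 1) • (fun u : P => (θ : G → ℂ) u) := by
    funext u
    simp only [Pi.smul_apply, smul_eq_mul]
    rw [hker u u.2, hker' u u.2, div_mul_cancel₀ _ (irr_apply_one_ne_zero θ.2)]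
  rw [e, classInner_smul_left, h0, mul_zero]

theorem canonical_degree :
    (charDegree (θ : G → ℂ)).factorization p = P.index.factorization p := by
  haveI := hM.2.1.isPrime
  haveI : Fact p.Prime := ⟨hM.1⟩
  haveI := normal_of_sup_centralizer hG
  have hp := hM.1
  have hP : IsPGroup p P := isPGroup_of_defectGroup hM hB hD
  have hcard := card_defectGroup hM hB hD
  have h1 := sInf_le_of_mem p hθ
  have h2 := sInf_le_factorization_card hB p
  have ha : (Nat.card G).factorization p = blockDefect p B + P.index.factorization p := by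
    rw [← P.card_mul_index, Nat.factorization_mul Nat.card_pos.ne' P.index_ne_zero_of_finite,
      hcard, Finsupp.add_apply, hp.factorization_pow, Finsupp.single_eq_same]
  have hdef : blockDefect p B = (Nat.card G).factorization p -
    sInf ((fun χ : IrrCharacter G => (charDegree (χ : G → ℂ)).factorization p) '' B) := rfl
  apply le_antisymm
  · obtain ⟨N, hN⟩ := exists_int_contrib (p := p) θ θ
    have h3 := contrib_dvd hM θ θ hN
    have h4 := regnorm_canonical hp hP hG θ (vanish_of_normal_defect hM hB hD hθ) hker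
    have h5 : (N : ℂ) = ((p ^ P.index.factorization p : ℕ) : ℂ) := by
      have hcP : (Nat.card P : ℂ) ≠ 0 := by exact_mod_cast Nat.card_pos.ne'
      apply mul_left_cancel₀ hcP
      rw [← hN, ha, pow_add]
      have e : (Nat.card P : ℂ) = (p : ℂ) ^ blockDefect p B := by rw [hcard]; push_cast; rfl
      push_cast
      linear_combination ((p : ℂ) ^ blockDefect p B * (p : ℂ) ^ P.index.factorization p) * h4
        - (p : ℂ) ^ P.index.factorization p * e
    have h6 : N = ((p ^ P.index.factorization p : ℕ) : ℤ) := by exact_mod_cast h5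
    rw [h6] at h3
    have h7 := Int.natCast_dvd_natCast.1 h3
    exact (Nat.pow_dvd_pow_iff_le_right hp.one_lt).1 h7
  · omega

end

end Cfsg.Agent.Lib.Helper24
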