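import Cfsg.Agent.Lib.Helper24.CanonF
import Cfsg.Agent.S0971
import Cfsg.Agent.S0887

set_option autoImplicit false
set_option linter.style.haveILetI false
set_option linter.unusedSectionVars false
open Cfsg
open Cfsg.Agent.Lib.Helper7
open scoped ComplexConjugate

namespace Cfsg.Agent.Lib.Helper24

universe u
variable {G : Type u} [Group G] {M : Ideal AlgInt} {p : ℕ} {P : Subgroup G}

theorem comm_of_all_linear {H : Type u} [Group H] [Finite H]
    (h : ∀ ζ : IrrCharacter H, (ζ : H → ℂ) 1 = 1) : ∀ a c : H, a * c = c * a := by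
  classical
  haveI := Fintype.ofFinite H
  haveI := Fintype.ofFinite (IrrCharacter H)
  have h1 := Cfsg.Agent.Lib.Helper2.sum_irr_one_mul (1 : H)
  simp only [h, mul_one, Finset.sum_const, Finset.card_univ, nsmul_eq_mul, if_true] at h1
  have h2 : Nat.card (ConjClasses H) = Nat.card H := by
    rw [← card_irr_eq_card_conjClasses, Nat.card_eq_fintype_card]
    exact_mod_cast h1
  have h3 : commProb H = 1 := by
    rw [commProb_def', h2]
    have : (Nat.card H : ℚ) ≠ 0 := by exact_mod_cast Nat.card_pos.ne'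
    exact div_self this
  have h4 := (commProb_eq_one_iff (M := H)).1 h3
  exact fun a c => h4.is_comm.comm a c

/-- the minimal `p`-part of the degrees in a block, in terms of a defect group -/
theorem sInf_eq_index [Finite G] (hM : IsPModular p M) {B : Set (IrrCharacter G)}
    (hB : IsPBlock M B) {D : Subgroup G} (hD : IsDefectGroup p M B D) :
    sInf ((fun χ : IrrCharacter G => (charDegree (χ : G → ℂ)).factorization p) '' B)
      = D.index.factorization p := by
  haveI := hM.2.1.isPrime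
  have hp := hM.1
  have hcard := card_defectGroup hM hB hD
  have h2 := sInf_le_factorization_card hB p
  have ha : (Nat.card G).factorization p = blockDefect p B + D.index.factorization p := by
    rw [← D.card_mul_index, Nat.factorization_mul Nat.card_pos.ne' D.index_ne_zero_of_finite,
      hcard, Finsupp.add_apply, hp.factorization_pow, Finsupp.single_eq_same]
  have hdef : blockDefect p B = (Nat.card G).factorization p -
    sInf ((fun χ : IrrCharacter G => (charDegree (χ : G → ℂ)).factorization p) '' B) := rfl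
  omega

theorem sup_centralizer_subgroupOf [P.Normal] (N : Subgroup G)
    (hN : N = P ⊔ Subgroup.centralizer (P : Set G)) :
    (P.subgroupOf N) ⊔ Subgroup.centralizer ((P.subgroupOf N : Subgroup N) : Set N) = ⊤ := by
  rw [eq_top_iff]
  rintro ⟨n, hn⟩ _
  have hn' := hn
  rw [hN] at hn'
  obtain ⟨v, hv, c, hc, hvc⟩ := Subgroup.mem_sup_of_normal_left.1 hn'
  have hvN : v ∈ N := by rw [hN]; exact (le_sup_left : P ≤ _) hv
  have hcN : c ∈ N := by rw [hN]; exact (le_sup_right : _ ≤ P ⊔ _) hc
  have e : (⟨n, hn⟩ : N) = ⟨v, hvN⟩ * ⟨c, hcN⟩ := Subtype.ext hvc.symm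
  rw [e]
  apply mul_mem
  · exact (le_sup_left : P.subgroupOf N ≤ _) hv
  · apply (le_sup_right : _ ≤ P.subgroupOf N ⊔ _)
    rw [Subgroup.mem_centralizer_iff]
    intro w hw
    apply Subtype.ext
    exact Subgroup.mem_centralizer_iff.1 hc w hw

/-- the block of `P C(P)` below a block with normal defect group `P` -/
theorem normal_defect_setup [Fintype G] (hM : IsPModular p M) {B : Set (IrrCharacter G)}
    (hB : IsPBlock M B) [P.Normal] (hP : IsDefectGroup p M B P) (N : Subgroup G) [N.Normal]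
    [Fintype N] (hN : N = P ⊔ Subgroup.centralizer (P : Set G)) :
    ∃ b : Set (IrrCharacter N), IsPBlock M b ∧ Covers N B b ∧
      IsDefectGroup p M b (P.subgroupOf N) := by
  classical
  haveI := hM.2.1.isPrime
  haveI : Fact p.Prime := ⟨hM.1⟩
  obtain ⟨χ, hχ⟩ := isPBlock_nonempty hB
  obtain ⟨ξ₀, hξ₀⟩ := exists_constituent_res N χ
  have hb : IsPBlock M (blockOf M (ξ₀ : N → ℂ)) := ⟨ξ₀, rfl⟩
  have hcov : Covers N B (blockOf M (ξ₀ : N → ℂ)) := ⟨χ, hχ, ξ₀, self_mem_blockOf ξ₀, hξ₀⟩
  refine ⟨_, hb, hcov, ?_⟩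
  obtain ⟨Db, hDb⟩ := exists_defectGroup hM hb
  have hQ : (Db.map N.subtype).subgroupOf N = Db := by
    rw [Subgroup.subgroupOf, Subgroup.comap_map_eq_self_of_injective N.subtype_injective]
  obtain ⟨P', hP', hPQ⟩ := knorr N hM hb hB hcov (Q := Db.map N.subtype)
    (map_subtype_le _ _) (by rw [hQ]; exact hDb)
  rw [defectGroup_eq_of_normal hM hB hP hP'] at hPQ
  have hPN : P ≤ N := by rw [hN]; exact le_sup_left
  rw [inf_eq_left.2 hPN] at hPQ
  rw [hPQ, hQ]
  exact hDb

/-- Reynolds: a block with a normal defect group `P` has all heights zero iff `P` is abelian -/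
theorem normal_defect_abelian_iff [Fintype G] (hM : IsPModular p M) {B : Set (IrrCharacter G)}
    (hB : IsPBlock M B) [P.Normal] (hP : IsDefectGroup p M B P) :
    (∀ a ∈ P, ∀ c ∈ P, a * c = c * a) ↔ ∀ χ ∈ B, blockHeight p B (χ : G → ℂ) = 0 := by
  classical
  haveI := hM.2.1.isPrime
  haveI : Fact p.Prime := ⟨hM.1⟩
  have hp := hM.1
  obtain ⟨N, hN⟩ : ∃ N : Subgroup G, N = P ⊔ Subgroup.centralizer (P : Set G) := ⟨_, rfl⟩
  haveI : N.Normal := by rw [hN]; infer_instance
  haveI : Fintype N := Fintype.ofFinite _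
  obtain ⟨b, hb, hcov, hbP⟩ := normal_defect_setup hM hB hP N hN
  have hGN := sup_centralizer_subgroupOf N hN
  haveI : Fintype (P.subgroupOf N) := Fintype.ofFinite _
  haveI : (P.subgroupOf N).Normal := normal_of_sup_centralizer hGN
  obtain ⟨θ, hθ, hker, -⟩ := exists_char_normal_defect hM hb (P.subgroupOf N) hbP
  have hdegθ := canonical_degree hM hGN hb hbP hθ hker
  have hPp := isPGroup_of_defectGroup hM hB hP
  have hPNp := isPGroup_of_defectGroup hM hb hbP
  have hPN : P ≤ N := by rw [hN]; exact le_sup_left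
  have hCN : Subgroup.centralizer (P : Set G) ≤ N := by rw [hN]; exact le_sup_right
  have hind : IsInducedBlock M N b B := by
    subst hN
    exact (Cfsg.Agent.S0971.result p M hM P hPp b hb).2 B hB hcov
  have hidx : P.index = (P.subgroupOf N).index * N.index := (Subgroup.relIndex_mul_index hPN).symm
  have hsB := sInf_eq_index hM hB hP
  have hsb := sInf_eq_index hM hb hbP
  have hp1 : ¬ p ∣ orderOf (1 : N) := by
    rw [orderOf_one, Nat.dvd_one]
    exact hp.one_lt.ne'
  have hdeg : ∀ ξ ∈ b, ∀ ζ : IrrCharacter (P.subgroupOf N),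
      classInner (fun u : P.subgroupOf N => (ξ : N → ℂ) u) (ζ : P.subgroupOf N → ℂ) ≠ 0 →
      (ξ : N → ℂ) 1 = (ζ : P.subgroupOf N → ℂ) 1 * (θ : N → ℂ) 1 := by
    intro ξ hξ ζ hζ
    have := canonical_forward hM hGN hb hbP hθ hker hξ hζ 1 1 hp1
    simpa using this
  have hi1 : (P.subgroupOf N).index ≠ 0 := Subgroup.index_ne_zero_of_finite
  have hi2 : N.index ≠ 0 := Subgroup.index_ne_zero_of_finite
  constructor
  · intro hab χ hχ
    haveI : IsMulCommutative (P.subgroupOf N) :=
      ⟨⟨fun a c => Subtype.ext (Subtype.ext (hab _ a.2 _ c.2))⟩⟩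
    obtain ⟨ξ', hξ'⟩ := exists_constituent_res N χ
    obtain ⟨χ₀, hχ₀, ξ₀, hξ₀, hcon₀⟩ := hcov
    obtain ⟨g, ξ, hξ, rfl⟩ := mem_conjClosure_of_cover N hB hb hχ₀ hξ₀ hcon₀ hχ hξ'
    rw [classInner_conjIrr] at hξ'
    obtain ⟨ζ, hζ⟩ := exists_constituent_res (P.subgroupOf N) ξ
    have h1 := hdeg ξ hξ ζ hζ
    rw [irr_apply_one_of_comm ζ.2, one_mul] at h1
    have h2 : charDegree (ξ : N → ℂ) = charDegree (θ : N → ℂ) := by unfold charDegree; rw [h1]
    obtain ⟨⟨k, hk⟩, h4⟩ := Cfsg.Agent.S0887.result N χ χ.2 ξ ξ.2 hξ' (charDegree (χ : G → ℂ))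
      (charDegree (ξ : N → ℂ)) (charDegree_cast (isCharacter_of_irr χ.2)).symm
      (charDegree_cast (isCharacter_of_irr ξ.2)).symm
    rw [hk, Nat.mul_div_cancel_left _ (charDegree_pos ξ)] at h4
    have hk0 : k ≠ 0 := by
      rintro rfl
      rw [mul_zero] at hk
      exact (charDegree_pos χ).ne' hk
    have h5 := (Nat.factorization_le_iff_dvd hk0 hi2).2 h4 p
    rw [blockHeight, hsB, hidx, hk, Nat.factorization_mul (charDegree_pos ξ).ne' hk0,
      Nat.factorization_mul hi1 hi2, Finsupp.add_apply, Finsupp.add_apply, h2, hdegθ]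
    omega
  · intro hh
    have hlin : ∀ ζ : IrrCharacter (P.subgroupOf N), (ζ : P.subgroupOf N → ℂ) 1 = 1 := by
      intro ζ
      obtain ⟨ξ, hξ, hζ⟩ := exists_over_of_block hM hPNp hb ζ
      obtain ⟨χ, hχξ⟩ := exists_over N ξ
      have hχB : χ ∈ B := by
        have hB' : IsPBlock M (blockOf M (χ : G → ℂ)) := ⟨χ, rfl⟩
        have hcov' : Covers N (blockOf M (χ : G → ℂ)) b := ⟨χ, self_mem_blockOf χ, ξ, hξ, hχξ⟩
        have := induced_of_covers N hM P hPp hCN hind hB' hcov'
        rw [← this]; exact self_mem_blockOf χ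
      obtain ⟨ξ', hξ', h0, n, hn, hpn⟩ := exists_height_zero_constituent hM N hind hχB (hh χ hχB)
      have hne : classInner (fun h : N => (χ : G → ℂ) h) (ξ' : N → ℂ) ≠ 0 := by
        rw [hn]
        intro h
        apply hpn
        have : n = 0 := by exact_mod_cast h
        rw [this]; exact dvd_zero _
      obtain ⟨g, hg⟩ : ∃ g : G, (ξ' : N → ℂ) = Cfsg.Agent.Lib.Helper25.conjFun N (ξ : N → ℂ) g := by
        by_contra hc
        exact hne (Cfsg.Agent.Lib.Helper25.classInner_restrict_eq_zero_of_not_conj N χ.2 ξ.2 ξ'.2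
          hχξ hc)
      have h1 : (ξ' : N → ℂ) 1 = (ξ : N → ℂ) 1 := by
        rw [hg, Cfsg.Agent.Lib.Helper25.conjFun_apply]
        have e : (⟨g * ((1 : N) : G) * g⁻¹, ‹N.Normal›.conj_mem _ (1 : N).2 g⟩ : N) = 1 := by
          apply Subtype.ext
          simp
        rw [e]
      have h1' : charDegree (ξ' : N → ℂ) = charDegree (ξ : N → ℂ) := by unfold charDegree; rw [h1]
      have h2 := sInf_le_of_mem p hξ'
      rw [blockHeight, hsb] at h0
      rw [hsb] at h2
      have h3 := hdeg ξ hξ ζ hζ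
      have h4 : charDegree (ξ : N → ℂ)
          = charDegree (ζ : P.subgroupOf N → ℂ) * charDegree (θ : N → ℂ) := by
        have : (charDegree (ξ : N → ℂ) : ℂ)
            = ((charDegree (ζ : P.subgroupOf N → ℂ) * charDegree (θ : N → ℂ) : ℕ) : ℂ) := by
          push_cast
          rw [charDegree_cast (isCharacter_of_irr ξ.2), charDegree_cast (isCharacter_of_irr ζ.2),
            charDegree_cast (isCharacter_of_irr θ.2), h3]
        exact_mod_cast this
      have h5 : (charDegree (ζ : P.subgroupOf N → ℂ)).factorization p = 0 := by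
        have h6 := congrArg (fun t => t.factorization p) h4
        simp only [Nat.factorization_mul (charDegree_pos ζ).ne' (charDegree_pos θ).ne',
          Finsupp.add_apply] at h6
        rw [h1'] at h0 h2
        omega
      obtain ⟨k, hk⟩ := hPNp.exists_card_eq
      have h7 := charDegree_dvd_card ζ
      rw [hk] at h7
      obtain ⟨j, _, hj⟩ := (Nat.dvd_prime_pow hp).1 h7
      rw [hj, hp.factorization_pow, Finsupp.single_eq_same] at h5
      rw [← charDegree_cast (isCharacter_of_irr ζ.2), hj, h5]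
      simp
    have hcomm := comm_of_all_linear hlin
    intro a ha c hc
    have := hcomm ⟨⟨a, hPN ha⟩, ha⟩ ⟨⟨c, hPN hc⟩, hc⟩
    exact congrArg (fun t : P.subgroupOf N => ((t : N) : G)) this

end Cfsg.Agent.Lib.Helper24
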