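import Mathlib
import Cfsg.Prelude.Def_OddOrderChar
import Cfsg.Agent.Lib.Helper11.GenChar

set_option autoImplicit false
set_option linter.unusedSectionVars false
open Cfsg
open scoped ComplexConjugate

namespace Cfsg.Agent.Lib.Helper24.Coh

open Cfsg.Agent.Lib.Helper7 Cfsg.Agent.Lib.Helper11

variable {L : Type*} [Group L] [Fintype L] {G : Type*} [Group G] [Fintype G]

theorem mem_zspan {X : Set (L → ℂ)} {a : L → ℂ} : a ∈ zspan X ↔ a ∈ Submodule.span ℤ X := Iff.rfl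

theorem zspan_mono {X Y : Set (L → ℂ)} (h : X ⊆ Y) : zspan X ⊆ zspan Y :=
  fun _ ha => Submodule.span_mono h ha

theorem subset_zspan {X : Set (L → ℂ)} {a : L → ℂ} (h : a ∈ X) : a ∈ zspan X :=
  Submodule.subset_span h

theorem zspan_zero (X : Set (L → ℂ)) : (0 : L → ℂ) ∈ zspan X := Submodule.zero_mem _

theorem zspan_add {X : Set (L → ℂ)} {a b : L → ℂ} (ha : a ∈ zspan X) (hb : b ∈ zspan X) :
    a + b ∈ zspan X := Submodule.add_mem _ ha hb

theorem zspan_sub {X : Set (L → ℂ)} {a b : L → ℂ} (ha : a ∈ zspan X) (hb : b ∈ zspan X) :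
    a - b ∈ zspan X := Submodule.sub_mem _ ha hb

theorem zspan_zsmul {X : Set (L → ℂ)} {a : L → ℂ} (n : ℤ) (ha : a ∈ zspan X) :
    n • a ∈ zspan X := Submodule.smul_mem _ n ha

theorem zspan_neg {X : Set (L → ℂ)} {a : L → ℂ} (ha : a ∈ zspan X) :
    -a ∈ zspan X := Submodule.neg_mem _ ha

/-- closure properties of the part vanishing off `A` -/
theorem zspanOn_add {X : Set (L → ℂ)} {A : Set L} {a b : L → ℂ} (ha : a ∈ zspanOn X A)
    (hb : b ∈ zspanOn X A) : a + b ∈ zspanOn X A :=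
  ⟨zspan_add ha.1 hb.1, fun x hx => by rw [Pi.add_apply, ha.2 x hx, hb.2 x hx, add_zero]⟩

theorem zspanOn_zsmul {X : Set (L → ℂ)} {A : Set L} {a : L → ℂ} (n : ℤ) (ha : a ∈ zspanOn X A) :
    n • a ∈ zspanOn X A :=
  ⟨zspan_zsmul n ha.1, fun x hx => by rw [Pi.smul_apply, ha.2 x hx, smul_zero]⟩

theorem zspanOn_mono {X Y : Set (L → ℂ)} {A : Set L} (h : X ⊆ Y) : zspanOn X A ⊆ zspanOn Y A :=
  fun _ ha => ⟨zspan_mono h ha.1, ha.2⟩

theorem mem_zspanOn_one {X : Set (L → ℂ)} {a : L → ℂ} :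
    a ∈ zspanOn X ({1}ᶜ : Set L) ↔ a ∈ zspan X ∧ a 1 = 0 := by
  constructor
  · intro h
    exact ⟨h.1, h.2 1 (by simp)⟩
  · intro h
    refine ⟨h.1, fun x hx => ?_⟩
    have : x = 1 := by simpa using hx
    rw [this, h.2]

section iso
variable {X Y : Set (L → ℂ)} {σ τ : (L → ℂ) → (G → ℂ)}

theorem iso_zero (hσ : IsLinearIsometryOn (zspan X) σ) : σ 0 = 0 := by
  have := hσ.2.1 0 (zspan_zero X) 0
  simpa using this

theorem iso_neg (hσ : IsLinearIsometryOn (zspan X) σ) {a : L → ℂ} (ha : a ∈ zspan X) :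
    σ (-a) = - σ a := by
  have := hσ.2.1 a ha (-1)
  simpa using this

theorem iso_sub (hσ : IsLinearIsometryOn (zspan X) σ) {a b : L → ℂ} (ha : a ∈ zspan X)
    (hb : b ∈ zspan X) : σ (a - b) = σ a - σ b := by
  rw [sub_eq_add_neg, hσ.1 a ha _ (zspan_neg hb), iso_neg hσ hb, sub_eq_add_neg]

theorem inner_span_zero (h : ∀ x ∈ X, ∀ y ∈ Y, classInner x y = 0) {a b : L → ℂ}
    (ha : a ∈ zspan X) (hb : b ∈ zspan Y) : classInner a b = 0 := by
  induction ha using Submodule.span_induction with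
  | mem x hx =>
    induction hb using Submodule.span_induction with
    | mem y hy => exact h x hx y hy
    | zero => exact classInner_zero_right _
    | add u v _ _ hu hv => rw [classInner_add_right, hu, hv, add_zero]
    | smul n u _ hu => rw [classInner_zsmul_right, hu, mul_zero]
  | zero => exact classInner_zero_left _
  | add u v _ _ hu hv => rw [classInner_add_left, hu, hv, add_zero]
  | smul n u _ hu => rw [classInner_zsmul_left, hu, mul_zero]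

theorem inner_iso_span_zero (hσ : IsLinearIsometryOn (zspan X) σ)
    (hτ : IsLinearIsometryOn (zspan Y) τ)
    (h : ∀ x ∈ X, ∀ y ∈ Y, classInner (σ x) (τ y) = 0) {a b : L → ℂ}
    (ha : a ∈ zspan X) (hb : b ∈ zspan Y) : classInner (σ a) (τ b) = 0 := by
  induction ha using Submodule.span_induction with
  | mem x hx =>
    induction hb using Submodule.span_induction with
    | mem y hy => exact h x hx y hy
    | zero => rw [iso_zero hτ]; exact classInner_zero_right _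
    | add u v hu' hv' hu hv => rw [hτ.1 u hu' v hv', classInner_add_right, hu, hv, add_zero]
    | smul n u hu' hu => rw [hτ.2.1 u hu' n, classInner_zsmul_right, hu, mul_zero]
  | zero => rw [iso_zero hσ]; exact classInner_zero_left _
  | add u v hu' hv' hu hv => rw [hσ.1 u hu' v hv', classInner_add_left, hu, hv, add_zero]
  | smul n u hu' hu => rw [hσ.2.1 u hu' n, classInner_zsmul_left, hu, mul_zero]

theorem mem_zspan_union {θ : L → ℂ} (h : θ ∈ zspan (X ∪ Y)) :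
    ∃ a ∈ zspan X, ∃ b ∈ zspan Y, a + b = θ := by
  have h' : θ ∈ Submodule.span ℤ (X ∪ Y) := h
  rw [Submodule.span_union, Submodule.mem_sup] at h'
  exact h'

theorem decomp_unique (h : ∀ x ∈ X, ∀ y ∈ Y, classInner x y = 0) {a a' b b' : L → ℂ}
    (ha : a ∈ zspan X) (ha' : a' ∈ zspan X) (hb : b ∈ zspan Y) (hb' : b' ∈ zspan Y)
    (e : a + b = a' + b') : a = a' ∧ b = b' := by
  have e1 : a - a' = b' - b := by
    rw [sub_eq_sub_iff_add_eq_add, e, add_comm]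
  have h0 : classInner (a - a') (b' - b) = 0 :=
    inner_span_zero h (zspan_sub ha ha') (zspan_sub hb' hb)
  rw [← e1] at h0
  have h1 := classInner_self_eq_zero h0
  have h2 : a = a' := sub_eq_zero.mp h1
  refine ⟨h2, ?_⟩
  rw [h2] at e
  exact add_left_cancel e

open Classical in
/-- gluing two isometries with orthogonal domains and orthogonal images -/
theorem glue (h : ∀ x ∈ X, ∀ y ∈ Y, classInner x y = 0)
    (hσ : IsLinearIsometryOn (zspan X) σ) (hτ : IsLinearIsometryOn (zspan Y) τ)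
    (hστ : ∀ x ∈ X, ∀ y ∈ Y, classInner (σ x) (τ y) = 0) :
    ∃ ρ : (L → ℂ) → (G → ℂ), IsLinearIsometryOn (zspan (X ∪ Y)) ρ ∧
      ∀ a ∈ zspan X, ∀ b ∈ zspan Y, ρ (a + b) = σ a + τ b := by
  let ρ : (L → ℂ) → (G → ℂ) := fun θ =>
    if hθ : θ ∈ zspan (X ∪ Y) then
      σ (Classical.choose (mem_zspan_union hθ)) +
        τ (Classical.choose (Classical.choose_spec (mem_zspan_union hθ)).2)
    else 0
  have hρ : ∀ a ∈ zspan X, ∀ b ∈ zspan Y, ρ (a + b) = σ a + τ b := by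
    intro a ha b hb
    have hθ : a + b ∈ zspan (X ∪ Y) :=
      zspan_add (zspan_mono Set.subset_union_left ha) (zspan_mono Set.subset_union_right hb)
    have h1 := (Classical.choose_spec (mem_zspan_union hθ)).1
    have h2 := (Classical.choose_spec (Classical.choose_spec (mem_zspan_union hθ)).2).1
    have h3 := (Classical.choose_spec (Classical.choose_spec (mem_zspan_union hθ)).2).2
    obtain ⟨e1, e2⟩ := decomp_unique h h1 ha h2 hb h3
    simp only [ρ, dif_pos hθ]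
    exact congrArg₂ (· + ·) (congrArg σ e1) (congrArg τ e2)
  refine ⟨ρ, ⟨?_, ?_, ?_, ?_⟩, hρ⟩
  · intro θ hθ θ' hθ'
    obtain ⟨a, ha, b, hb, rfl⟩ := mem_zspan_union hθ
    obtain ⟨a', ha', b', hb', rfl⟩ := mem_zspan_union hθ'
    have e : a + b + (a' + b') = (a + a') + (b + b') := by abel
    rw [e, hρ _ (zspan_add ha ha') _ (zspan_add hb hb'), hρ a ha b hb, hρ a' ha' b' hb',
      hσ.1 a ha a' ha', hτ.1 b hb b' hb']
    abel
  · intro θ hθ n
    obtain ⟨a, ha, b, hb, rfl⟩ := mem_zspan_union hθ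
    rw [smul_add, hρ _ (zspan_zsmul n ha) _ (zspan_zsmul n hb), hρ a ha b hb,
      hσ.2.1 a ha n, hτ.2.1 b hb n, smul_add]
  · intro θ hθ θ' hθ'
    obtain ⟨a, ha, b, hb, rfl⟩ := mem_zspan_union hθ
    obtain ⟨a', ha', b', hb', rfl⟩ := mem_zspan_union hθ'
    rw [hρ a ha b hb, hρ a' ha' b' hb']
    simp only [classInner_add_left, classInner_add_right]
    rw [hσ.2.2.1 a ha a' ha', hτ.2.2.1 b hb b' hb', inner_iso_span_zero hσ hτ hστ ha hb',
      inner_span_zero h ha hb']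
    have e1 : classInner (τ b) (σ a') = 0 := by
      rw [← classInner_conj_symm, inner_iso_span_zero hσ hτ hστ ha' hb, map_zero]
    have e2 : classInner b a' = 0 := by
      rw [← classInner_conj_symm, inner_span_zero h ha' hb, map_zero]
    rw [e1, e2]
  · intro θ hθ
    obtain ⟨a, ha, b, hb, rfl⟩ := mem_zspan_union hθ
    rw [hρ a ha b hb]
    exact genChar_add (hσ.2.2.2 a ha) (hτ.2.2.2 b hb)

theorem zspan_apply_one_int (hdeg : ∀ ξ ∈ X, ∃ n : ℤ, ξ 1 = n) {a : L → ℂ} (ha : a ∈ zspan X) :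
    ∃ m : ℤ, a 1 = m := by
  induction ha using Submodule.span_induction with
  | mem x hx => exact hdeg x hx
  | zero => exact ⟨0, by simp⟩
  | add u v _ _ hu hv =>
    obtain ⟨m, hm⟩ := hu
    obtain ⟨k, hk⟩ := hv
    exact ⟨m + k, by rw [Pi.add_apply, hm, hk]; push_cast; ring⟩
  | smul n u _ hu =>
    obtain ⟨m, hm⟩ := hu
    exact ⟨n * m, by rw [Pi.smul_apply, hm, zsmul_eq_mul]; push_cast; ring⟩

/-- gluing two coherent pieces along one compatible pair -/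
theorem coherent_union {S : Set (L → ℂ)} (hXS : X ⊆ S) (hYS : Y ⊆ S)
    (hdeg : ∀ ξ ∈ S, ∃ n : ℤ, ξ 1 = n)
    (h : ∀ x ∈ X, ∀ y ∈ Y, classInner x y = 0)
    {α : (L → ℂ) → (G → ℂ)} (hα : IsLinearIsometryOn (zspanOn S {1}ᶜ) α)
    (hσ : IsLinearIsometryOn (zspan X) σ) (hσα : ∀ θ ∈ zspanOn X {1}ᶜ, σ θ = α θ)
    (hτ : IsLinearIsometryOn (zspan Y) τ) (hτα : ∀ θ ∈ zspanOn Y {1}ᶜ, τ θ = α θ)
    (hστ : ∀ x ∈ X, ∀ y ∈ Y, classInner (σ x) (τ y) = 0)
    {χ₀ η₀ : L → ℂ} (hχ₀ : χ₀ ∈ X) (hη₀ : η₀ ∈ Y) {c e : ℤ} (hc : χ₀ 1 = c) (he : η₀ 1 = e)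
    (hc0 : c ≠ 0) (he0 : e ≠ 0)
    (hglue : α (c • η₀ - e • χ₀) = c • τ η₀ - e • σ χ₀) :
    ∃ ρ : (L → ℂ) → (G → ℂ), IsLinearIsometryOn (zspan (X ∪ Y)) ρ ∧
      ∀ θ ∈ zspanOn (X ∪ Y) {1}ᶜ, ρ θ = α θ := by
  obtain ⟨ρ, hρ, hρ'⟩ := glue h hσ hτ hστ
  refine ⟨ρ, hρ, ?_⟩
  intro θ hθ
  rw [mem_zspanOn_one] at hθ
  obtain ⟨hθ1, hθ0⟩ := hθ
  obtain ⟨a, ha, b, hb, rfl⟩ := mem_zspan_union hθ1
  rw [hρ' a ha b hb]
  obtain ⟨m, hm⟩ := zspan_apply_one_int (fun ξ hξ => hdeg ξ (hYS hξ)) hb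
  have hm' : a 1 = -(m : ℂ) := by
    rw [Pi.add_apply, hm] at hθ0
    exact eq_neg_of_add_eq_zero_left hθ0
  have hχ₀' := subset_zspan hχ₀
  have hη₀' := subset_zspan hη₀
  -- the three pieces
  have u1 : e • b - m • η₀ ∈ zspanOn Y {1}ᶜ := by
    rw [mem_zspanOn_one]
    refine ⟨zspan_sub (zspan_zsmul e hb) (zspan_zsmul m hη₀'), ?_⟩
    simp only [Pi.sub_apply, Pi.smul_apply, zsmul_eq_mul, Pi.mul_apply, Pi.intCast_apply, hm, he]
    ring
  have u2 : c • a + m • χ₀ ∈ zspanOn X {1}ᶜ := by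
    rw [mem_zspanOn_one]
    refine ⟨zspan_add (zspan_zsmul c ha) (zspan_zsmul m hχ₀'), ?_⟩
    simp only [Pi.add_apply, Pi.smul_apply, zsmul_eq_mul, Pi.mul_apply, Pi.intCast_apply, hm', hc]
    ring
  have u3 : c • η₀ - e • χ₀ ∈ zspanOn S {1}ᶜ := by
    rw [mem_zspanOn_one]
    refine ⟨zspan_sub (zspan_zsmul c (zspan_mono hYS hη₀')) (zspan_zsmul e (zspan_mono hXS hχ₀')), ?_⟩
    simp only [Pi.sub_apply, Pi.smul_apply, zsmul_eq_mul, Pi.mul_apply, Pi.intCast_apply, he, hc]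
    ring
  have u0 : a + b ∈ zspanOn S {1}ᶜ := by
    rw [mem_zspanOn_one]
    exact ⟨zspan_add (zspan_mono hXS ha) (zspan_mono hYS hb), hθ0⟩
  have u1' := zspanOn_mono (A := {1}ᶜ) hYS u1
  have u2' := zspanOn_mono (A := {1}ᶜ) hXS u2
  have key : (c * e) • (a + b) =
      (c • (e • b - m • η₀) + e • (c • a + m • χ₀)) + m • (c • η₀ - e • χ₀) := by
    funext x
    simp only [Pi.add_apply, Pi.sub_apply, Pi.smul_apply, zsmul_eq_mul, Pi.mul_apply, Pi.intCast_apply]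
    push_cast
    ring
  have k1 : α ((c * e) • (a + b)) = (c * e) • α (a + b) := hα.2.1 _ u0 _
  have k2 : α ((c * e) • (a + b)) = (c * e) • (σ a + τ b) := by
    rw [key, hα.1 _ (zspanOn_add (zspanOn_zsmul c u1') (zspanOn_zsmul e u2')) _ (zspanOn_zsmul m u3),
      hα.1 _ (zspanOn_zsmul c u1') _ (zspanOn_zsmul e u2'), hα.2.1 _ u1' c, hα.2.1 _ u2' e,
      hα.2.1 _ u3 m, hglue, ← hτα _ u1, ← hσα _ u2,
      iso_sub hτ (zspan_zsmul e hb) (zspan_zsmul m hη₀'), hτ.2.1 _ hb e, hτ.2.1 _ hη₀' m,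
      hσ.1 _ (zspan_zsmul c ha) _ (zspan_zsmul m hχ₀'), hσ.2.1 _ ha c, hσ.2.1 _ hχ₀' m]
    funext x
    simp only [Pi.add_apply, Pi.sub_apply, Pi.smul_apply, zsmul_eq_mul, Pi.mul_apply, Pi.intCast_apply]
    push_cast
    ring
  rw [k1] at k2
  have hce : c * e ≠ 0 := mul_ne_zero hc0 he0
  exact (smul_right_injective (G → ℂ) hce k2).symm

theorem norm_one_eq_or_neg {u v : G → ℂ} (hu : IsGeneralizedCharacter G u)
    (hu1 : classInner u u = 1) (hv : IsGeneralizedCharacter G v) (hv1 : classInner v v = 1)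
    (h : classInner u v ≠ 0) : u = v ∨ u = -v := by
  rcases genChar_norm_one hu hu1 with h1 | h1 <;> rcases genChar_norm_one hv hv1 with h2 | h2
  · left
    by_contra hne
    exact h (classInner_irr_ne h1 h2 hne)
  · right
    by_contra hne
    apply h
    have := classInner_irr_ne h1 h2 hne
    rw [classInner_neg_right] at this
    exact neg_eq_zero.mp this
  · right
    by_contra hne
    apply h
    have := classInner_irr_ne h1 h2 (fun e => hne (by rw [← e, neg_neg]))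
    rw [classInner_neg_left] at this
    exact neg_eq_zero.mp this
  · left
    by_contra hne
    apply h
    have := classInner_irr_ne h1 h2 (fun e => hne (neg_injective e))
    rw [classInner_neg_left, classInner_neg_right, neg_neg] at this
    exact this

theorem norm_one_apply_one_ne {u : G → ℂ} (hu : IsGeneralizedCharacter G u)
    (hu1 : classInner u u = 1) : u 1 ≠ 0 := by
  rcases genChar_norm_one hu hu1 with h1 | h1
  · exact irr_apply_one_ne_zero h1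
  · have := irr_apply_one_ne_zero h1
    intro h0
    apply this
    rw [Pi.neg_apply, h0, neg_zero]

/-- the degree-zero combination of two members -/
theorem pair_mem {x₁ x₂ : L → ℂ} (h₁ : x₁ ∈ X) (h₂ : x₂ ∈ X) {a₁ a₂ : ℤ} (e₁ : x₁ 1 = a₁)
    (e₂ : x₂ 1 = a₂) : a₂ • x₁ - a₁ • x₂ ∈ zspanOn X {1}ᶜ := by
  rw [mem_zspanOn_one]
  refine ⟨zspan_sub (zspan_zsmul _ (subset_zspan h₁)) (zspan_zsmul _ (subset_zspan h₂)), ?_⟩
  simp only [Pi.sub_apply, Pi.smul_apply, zsmul_eq_mul, Pi.mul_apply, Pi.intCast_apply, e₁, e₂]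
  ring

theorem exists_nonzero (hirr : ∀ ξ ∈ X, IsIrrCharacter L ξ) {x₁ x₂ : L → ℂ} (h₁ : x₁ ∈ X)
    (h₂ : x₂ ∈ X) (hne : x₁ ≠ x₂) : ∃ θ ∈ zspanOn X ({1}ᶜ : Set L), θ ≠ 0 := by
  obtain ⟨a₁, ha₁, e₁⟩ := irr_apply_one (hirr _ h₁)
  obtain ⟨a₂, ha₂, e₂⟩ := irr_apply_one (hirr _ h₂)
  refine ⟨_, pair_mem h₁ h₂ (a₁ := a₁) (a₂ := a₂) (by simpa using e₁) (by simpa using e₂), ?_⟩
  intro h0
  have h1 : classInner (((a₂ : ℕ) : ℤ) • x₁ - ((a₁ : ℕ) : ℤ) • x₂) x₁ = 0 := by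
    rw [h0]; exact classInner_zero_left _
  rw [classInner_sub_left, classInner_zsmul_left, classInner_zsmul_left,
    classInner_irr_self (hirr _ h₁), classInner_irr_ne (hirr _ h₂) (hirr _ h₁) hne.symm] at h1
  simp at h1
  omega

/-- the images of two coherent pieces are orthogonal -/
theorem cross_orthogonal {S : Set (L → ℂ)} (hirr : ∀ ξ ∈ S, IsIrrCharacter L ξ)
    (hXS : X ⊆ S) (hYS : Y ⊆ S) (hXY : Disjoint X Y)
    {α : (L → ℂ) → (G → ℂ)} (hα : IsLinearIsometryOn (zspanOn S {1}ᶜ) α)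
    (hα1 : ∀ θ ∈ zspanOn S {1}ᶜ, α θ 1 = 0)
    (hσ : IsLinearIsometryOn (zspan X) σ) (hσα : ∀ θ ∈ zspanOn X {1}ᶜ, σ θ = α θ)
    (hτ : IsLinearIsometryOn (zspan Y) τ) (hτα : ∀ θ ∈ zspanOn Y {1}ᶜ, τ θ = α θ)
    {χ₁ χ₂ η₁ η₂ : L → ℂ} (hχ₁ : χ₁ ∈ X) (hχ₂ : χ₂ ∈ X) (hχ : χ₁ ≠ χ₂)
    (hη₁ : η₁ ∈ Y) (hη₂ : η₂ ∈ Y) (hη : η₁ ≠ η₂) : classInner (σ χ₁) (τ η₁) = 0 := by
  by_contra hne
  have hperp : ∀ x ∈ X, ∀ y ∈ Y, classInner x y = 0 := by
    intro x hx y hy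
    refine classInner_irr_ne (hirr _ (hXS hx)) (hirr _ (hYS hy)) ?_
    rintro rfl
    exact Set.disjoint_left.mp hXY hx hy
  obtain ⟨a₁, ha₁, e₁⟩ := irr_apply_one (hirr _ (hXS hχ₁))
  obtain ⟨a₂, ha₂, e₂⟩ := irr_apply_one (hirr _ (hXS hχ₂))
  obtain ⟨b₁, hb₁, f₁⟩ := irr_apply_one (hirr _ (hYS hη₁))
  obtain ⟨b₂, hb₂, f₂⟩ := irr_apply_one (hirr _ (hYS hη₂))
  have mA := pair_mem hχ₁ hχ₂ (a₁ := a₁) (a₂ := a₂) (by simpa using e₁) (by simpa using e₂)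
  have mB := pair_mem hη₁ hη₂ (a₁ := b₁) (a₂ := b₂) (by simpa using f₁) (by simpa using f₂)
  have c₁ := subset_zspan hχ₁
  have c₂ := subset_zspan hχ₂
  have d₁ := subset_zspan hη₁
  have d₂ := subset_zspan hη₂
  have sA : σ (((a₂ : ℕ) : ℤ) • χ₁ - ((a₁ : ℕ) : ℤ) • χ₂) =
      ((a₂ : ℕ) : ℤ) • σ χ₁ - ((a₁ : ℕ) : ℤ) • σ χ₂ := by
    rw [iso_sub hσ (zspan_zsmul _ c₁) (zspan_zsmul _ c₂), hσ.2.1 _ c₁, hσ.2.1 _ c₂]
  have sB : τ (((b₂ : ℕ) : ℤ) • η₁ - ((b₁ : ℕ) : ℤ) • η₂) =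
      ((b₂ : ℕ) : ℤ) • τ η₁ - ((b₁ : ℕ) : ℤ) • τ η₂ := by
    rw [iso_sub hτ (zspan_zsmul _ d₁) (zspan_zsmul _ d₂), hτ.2.1 _ d₁, hτ.2.1 _ d₂]
  have n₁ : classInner (σ χ₁) (σ χ₁) = 1 := by
    rw [hσ.2.2.1 _ c₁ _ c₁, classInner_irr_self (hirr _ (hXS hχ₁))]
  have n₂ : classInner (σ χ₂) (σ χ₂) = 1 := by
    rw [hσ.2.2.1 _ c₂ _ c₂, classInner_irr_self (hirr _ (hXS hχ₂))]
  have n₁₂ : classInner (σ χ₂) (σ χ₁) = 0 := by
    rw [hσ.2.2.1 _ c₂ _ c₁, classInner_irr_ne (hirr _ (hXS hχ₂)) (hirr _ (hXS hχ₁)) hχ.symm]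
  have k₁ : classInner (τ η₁) (τ η₁) = 1 := by
    rw [hτ.2.2.1 _ d₁ _ d₁, classInner_irr_self (hirr _ (hYS hη₁))]
  have k₂ : classInner (τ η₂) (τ η₂) = 1 := by
    rw [hτ.2.2.1 _ d₂ _ d₂, classInner_irr_self (hirr _ (hYS hη₂))]
  have k₁₂ : classInner (τ η₁) (τ η₂) = 0 := by
    rw [hτ.2.2.1 _ d₁ _ d₂, classInner_irr_ne (hirr _ (hYS hη₁)) (hirr _ (hYS hη₂)) hη]
  have E : (a₂ : ℂ) * b₂ * classInner (σ χ₁) (τ η₁) - a₂ * b₁ * classInner (σ χ₁) (τ η₂)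
      - a₁ * b₂ * classInner (σ χ₂) (τ η₁) + a₁ * b₁ * classInner (σ χ₂) (τ η₂) = 0 := by
    have h0 := hα.2.2.1 _ (zspanOn_mono hXS mA) _ (zspanOn_mono hYS mB)
    rw [inner_span_zero hperp mA.1 mB.1, ← hσα _ mA, ← hτα _ mB, sA, sB] at h0
    simp only [classInner_sub_left, classInner_sub_right, classInner_zsmul_left,
      classInner_zsmul_right] at h0
    push_cast at h0
    linear_combination h0
  have V₁ : (a₂ : ℂ) * σ χ₁ 1 = a₁ * σ χ₂ 1 := by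
    have h0 := hα1 _ (zspanOn_mono hXS mA)
    rw [← hσα _ mA, sA] at h0
    simp only [Pi.sub_apply, Pi.smul_apply, zsmul_eq_mul, Pi.mul_apply, Pi.intCast_apply] at h0
    push_cast at h0
    linear_combination h0
  have V₂ : (b₂ : ℂ) * τ η₁ 1 = b₁ * τ η₂ 1 := by
    have h0 := hα1 _ (zspanOn_mono hYS mB)
    rw [← hτα _ mB, sB] at h0
    simp only [Pi.sub_apply, Pi.smul_apply, zsmul_eq_mul, Pi.mul_apply, Pi.intCast_apply] at h0
    push_cast at h0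
    linear_combination h0
  have g₁ := hσ.2.2.2 _ c₁
  have g₂ := hσ.2.2.2 _ c₂
  have l₁ := hτ.2.2.2 _ d₁
  have l₂ := hτ.2.2.2 _ d₂
  have t0 := norm_one_apply_one_ne l₁ k₁
  have pos1 : ((a₂ : ℂ) * b₂ + a₁ * b₁) ≠ 0 := by
    have : 0 < a₂ * b₂ + a₁ * b₁ := by positivity
    exact_mod_cast this.ne'
  have pos2 : ((a₂ : ℂ) * b₁ + a₁ * b₂) ≠ 0 := by
    have : 0 < a₂ * b₁ + a₁ * b₂ := by positivity
    exact_mod_cast this.ne'
  have pos3 : ((a₂ : ℂ) * b₂) ≠ 0 := by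
    have : 0 < a₂ * b₂ := by positivity
    exact_mod_cast this.ne'
  have fin : ∀ ε : ℂ, (ε = 1 ∨ ε = -1) → σ χ₁ = ε • τ η₁ → False := by
    intro ε hε hs
    have hεε : ε * ε = 1 := by rcases hε with rfl | rfl <;> norm_num
    have hεc : conj ε = ε := by rcases hε with rfl | rfl <;> simp
    have q1 : classInner (σ χ₁) (τ η₁) = ε := by
      rw [hs, classInner_smul_left, k₁, mul_one]
    have q2 : classInner (σ χ₁) (τ η₂) = 0 := by
      rw [hs, classInner_smul_left, k₁₂, mul_zero]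
    have ht : τ η₁ = ε • σ χ₁ := by
      rw [hs, smul_smul, hεε, one_smul]
    have q3 : classInner (σ χ₂) (τ η₁) = 0 := by
      rw [ht, classInner_smul_right, n₁₂, mul_zero]
    rw [q1, q2, q3] at E
    have hne2 : classInner (σ χ₂) (τ η₂) ≠ 0 := by
      intro h0
      rw [h0] at E
      apply pos3
      have : (a₂ : ℂ) * b₂ * (ε * ε) = 0 := by linear_combination ε * E
      rwa [hεε, mul_one] at this
    have V₁' : (a₂ : ℂ) * (ε * τ η₁ 1) = a₁ * σ χ₂ 1 := by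
      rw [← V₁, hs]; rfl
    rcases norm_one_eq_or_neg g₂ n₂ l₂ k₂ hne2 with h2 | h2
    · rw [h2, k₂] at E
      rw [h2] at V₁'
      rcases hε with rfl | rfl
      · exact pos1 (by linear_combination E)
      · apply t0
        have : ((a₂ : ℂ) * b₁ + a₁ * b₂) * τ η₁ 1 = 0 := by
          linear_combination (-(b₁ : ℂ)) * V₁' + (a₁ : ℂ) * V₂
        exact (mul_eq_zero.mp this).resolve_left pos2
    · rw [h2, classInner_neg_left, k₂] at E
      rw [h2, Pi.neg_apply] at V₁'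
      rcases hε with rfl | rfl
      · apply t0
        have : ((a₂ : ℂ) * b₁ + a₁ * b₂) * τ η₁ 1 = 0 := by
          linear_combination (b₁ : ℂ) * V₁' + (a₁ : ℂ) * V₂
        exact (mul_eq_zero.mp this).resolve_left pos2
      · exact pos1 (by linear_combination -E)
  rcases norm_one_eq_or_neg g₁ n₁ l₁ k₁ hne with h1 | h1
  · exact fin 1 (Or.inl rfl) (by rw [one_smul]; exact h1)
  · exact fin (-1) (Or.inr rfl) (by rw [neg_one_smul]; exact h1)

end iso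

end Cfsg.Agent.Lib.Helper24.Coh
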