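import Mathlib
import Cfsg.Prelude.Def_OddOrderChar
import Cfsg.Agent.Lib.Helper24.Coherence

set_option autoImplicit false
set_option linter.unusedSectionVars false
set_option linter.unusedSimpArgs false
open Cfsg
open scoped ComplexConjugate

namespace Cfsg.Agent.Lib.Helper24.Coh

open Cfsg.Agent.Lib.Helper7 Cfsg.Agent.Lib.Helper11

variable {L : Type*} [Group L] [Fintype L] {G : Type*} [Group G] [Fintype G]

theorem exists_real_norm (a : G → ℂ) : ∃ r : ℝ, 0 ≤ r ∧ classInner a a = r := by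
  refine ⟨(Nat.card G : ℝ)⁻¹ * ∑ g : G, Complex.normSq (a g),
    mul_nonneg (by positivity) (Finset.sum_nonneg fun g _ => Complex.normSq_nonneg _), ?_⟩
  simp only [classInner, Complex.mul_conj]
  push_cast
  rfl

theorem norm_int_nonneg {a : G → ℂ} {D : ℤ} (h : classInner a a = D) : 0 ≤ D := by
  obtain ⟨r, hr, e⟩ := exists_real_norm a
  rw [e] at h
  have h' : r = (D : ℝ) := by exact_mod_cast h
  have h0 : (0 : ℝ) ≤ (D : ℝ) := h' ▸ hr
  exact_mod_cast h0

/-- Bessel decomposition along a finite orthogonal family -/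
theorem bessel {ι : Type*} [DecidableEq ι] (s : Finset ι) (v : ι → G → ℂ) (N : ι → ℂ)
    (hN : ∀ i ∈ s, N i ≠ 0)
    (hv : ∀ i ∈ s, ∀ j ∈ s, classInner (v i) (v j) = if i = j then N i else 0) (T T' : G → ℂ) :
    classInner T T' = ∑ i ∈ s, classInner T (v i) * conj (classInner T' (v i)) / N i +
      classInner (T - ∑ i ∈ s, (classInner T (v i) / N i) • v i)
        (T' - ∑ i ∈ s, (classInner T' (v i) / N i) • v i) := by
  have hNc : ∀ i ∈ s, conj (N i) = N i := by
    intro i hi
    have := hv i hi i hi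
    rw [if_pos rfl] at this
    rw [← this, classInner_conj_symm]
  have e1 : classInner T (∑ i ∈ s, (classInner T' (v i) / N i) • v i) =
      ∑ i ∈ s, classInner T (v i) * conj (classInner T' (v i)) / N i := by
    rw [classInner_sum_right]
    apply Finset.sum_congr rfl
    intro i hi
    rw [classInner_smul_right, map_div₀, hNc i hi]
    ring
  have e2 : classInner (∑ i ∈ s, (classInner T (v i) / N i) • v i) T' =
      ∑ i ∈ s, classInner T (v i) * conj (classInner T' (v i)) / N i := by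
    rw [classInner_sum_left]
    apply Finset.sum_congr rfl
    intro i hi
    rw [classInner_smul_left, classInner_conj_symm]
    ring
  have e3 : classInner (∑ i ∈ s, (classInner T (v i) / N i) • v i)
      (∑ i ∈ s, (classInner T' (v i) / N i) • v i) =
      ∑ i ∈ s, classInner T (v i) * conj (classInner T' (v i)) / N i := by
    rw [classInner_sum_left]
    apply Finset.sum_congr rfl
    intro i hi
    rw [classInner_smul_left, classInner_sum_right, Finset.sum_eq_single i]
    · rw [classInner_smul_right, hv i hi i hi, if_pos rfl, map_div₀, hNc i hi]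
      field_simp [hN i hi]
    · intro j hj hji
      rw [classInner_smul_right, hv i hi j hj, if_neg (Ne.symm hji), mul_zero]
    · intro h; exact absurd hi h
  rw [classInner_sub_left, classInner_sub_right, classInner_sub_right, e1, e2, e3]
  ring

/-- the remainder of the Bessel decomposition is orthogonal to the family -/
theorem bessel_rem {ι : Type*} [DecidableEq ι] (s : Finset ι) (v : ι → G → ℂ) (N : ι → ℂ)
    (hN : ∀ i ∈ s, N i ≠ 0)
    (hv : ∀ i ∈ s, ∀ j ∈ s, classInner (v i) (v j) = if i = j then N i else 0) (T : G → ℂ)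
    {j : ι} (hj : j ∈ s) :
    classInner (T - ∑ i ∈ s, (classInner T (v i) / N i) • v i) (v j) = 0 := by
  rw [classInner_sub_left, classInner_sum_left, Finset.sum_eq_single j]
  · rw [classInner_smul_left, hv j hj j hj, if_pos rfl]
    field_simp [hN j hj]
    ring
  · intro i hi hij
    rw [classInner_smul_left, hv i hi j hj, if_neg hij, mul_zero]
  · intro h; exact absurd hj h

theorem finite_of_orthogonal {S : Set (L → ℂ)} (hS0 : ∀ φ ∈ S, classInner φ φ ≠ 0)
    (horth : ∀ φ ∈ S, ∀ φ' ∈ S, φ ≠ φ' → classInner φ φ' = 0) : S.Finite := by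
  classical
  apply LinearIndependent.setFinite (R := ℂ)
  rw [linearIndependent_iff']
  intro s g hg i hi
  have h1 : classInner (∑ j ∈ s, g j • (j : L → ℂ)) (i : L → ℂ) = 0 := by
    rw [hg]; exact classInner_zero_left _
  rw [classInner_sum_left, Finset.sum_eq_single i] at h1
  · rw [classInner_smul_left] at h1
    exact (mul_eq_zero.mp h1).resolve_right (hS0 _ i.2)
  · intro j _ hji
    rw [classInner_smul_left, horth _ j.2 _ i.2 (fun e => hji (Subtype.ext e)), mul_zero]
  · intro h; exact absurd hi h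

/-- an inner-product preserving assignment on an orthogonal set extends to its integer span -/
theorem exists_iso_of_orthogonal {S : Set (L → ℂ)} (hS0 : ∀ φ ∈ S, classInner φ φ ≠ 0)
    (horth : ∀ φ ∈ S, ∀ φ' ∈ S, φ ≠ φ' → classInner φ φ' = 0) (f : (L → ℂ) → (G → ℂ))
    (hf : ∀ φ ∈ S, IsGeneralizedCharacter G (f φ))
    (hinner : ∀ φ ∈ S, ∀ φ' ∈ S, classInner (f φ) (f φ') = classInner φ φ') :
    ∃ ρ : (L → ℂ) → (G → ℂ), IsLinearIsometryOn (zspan S) ρ ∧ ∀ φ ∈ S, ρ φ = f φ := by
  classical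
  have hfin := finite_of_orthogonal hS0 horth
  let s : Finset (L → ℂ) := hfin.toFinset
  have hs : ∀ φ, φ ∈ s ↔ φ ∈ S := fun φ => hfin.mem_toFinset
  let ρ : (L → ℂ) → (G → ℂ) := fun θ => ∑ φ ∈ s, (classInner θ φ / classInner φ φ) • f φ
  have hadd : ∀ a b, ρ (a + b) = ρ a + ρ b := by
    intro a b
    simp only [ρ, classInner_add_left, add_div, add_smul, Finset.sum_add_distrib]
  have hsmul : ∀ (n : ℤ) a, ρ (n • a) = n • ρ a := by
    intro n a
    simp only [ρ, classInner_zsmul_left, Finset.smul_sum]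
    apply Finset.sum_congr rfl
    intro φ _
    rw [mul_div_assoc, mul_smul, Int.cast_smul_eq_zsmul]
  have hzero : ρ 0 = 0 := by
    simp only [ρ, classInner_zero_left, zero_div, zero_smul, Finset.sum_const_zero]
  have hgen : ∀ φ ∈ S, ρ φ = f φ := by
    intro φ hφ
    simp only [ρ]
    rw [Finset.sum_eq_single φ]
    · rw [div_self (hS0 φ hφ), one_smul]
    · intro φ' hφ' hne
      rw [horth φ hφ φ' ((hs φ').mp hφ') (Ne.symm hne), zero_div, zero_smul]
    · intro h; exact absurd ((hs φ).mpr hφ) h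
  refine ⟨ρ, ⟨fun a _ b _ => hadd a b, fun a _ n => hsmul n a, ?_, ?_⟩, hgen⟩
  · intro a ha b hb
    induction ha using Submodule.span_induction with
    | mem x hx =>
      induction hb using Submodule.span_induction with
      | mem y hy => rw [hgen x hx, hgen y hy, hinner x hx y hy]
      | zero => rw [hzero, classInner_zero_right, classInner_zero_right]
      | add u v _ _ hu hv => rw [hadd, classInner_add_right, classInner_add_right, hu, hv]
      | smul n u _ hu => rw [hsmul, classInner_zsmul_right, classInner_zsmul_right, hu]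
    | zero => rw [hzero, classInner_zero_left, classInner_zero_left]
    | add u v _ _ hu hv => rw [hadd, classInner_add_left, classInner_add_left, hu, hv]
    | smul n u _ hu => rw [hsmul, classInner_zsmul_left, classInner_zsmul_left, hu]
  · intro a ha
    induction ha using Submodule.span_induction with
    | mem x hx => rw [hgen x hx]; exact hf x hx
    | zero => rw [hzero]; exact genChar_zero
    | add u v _ _ hu hv => rw [hadd]; exact genChar_add hu hv
    | smul n u _ hu => rw [hsmul]; exact genChar_zsmul hu n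

theorem isoOn_zero {E : Set (L → ℂ)} {τ : (L → ℂ) → (G → ℂ)} (hτ : IsLinearIsometryOn E τ)
    {a : L → ℂ} (ha : a ∈ E) : τ 0 = 0 := by
  have := hτ.2.1 a ha 0
  simpa using this

/-- agreement on degree zero elements can be checked on generators -/
theorem agree_of_generators {S S₂ : Set (L → ℂ)} (hS₂S : S₂ ⊆ S)
    {τ ρ : (L → ℂ) → (G → ℂ)} (hτ : IsLinearIsometryOn (zspanOn S {1}ᶜ) τ)
    (hρ : IsLinearIsometryOn (zspan S₂) ρ) {χ₁ : L → ℂ} (hχ₁ : χ₁ ∈ S₂) {d₁ : ℤ}
    (hd₁ : χ₁ 1 = d₁) (hd₁0 : d₁ ≠ 0)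
    (hgen : ∀ φ ∈ S₂, ∃ m : ℤ, φ 1 = m ∧ τ (d₁ • φ - m • χ₁) = d₁ • ρ φ - m • ρ χ₁) :
    ∀ θ ∈ zspanOn S₂ {1}ᶜ, ρ θ = τ θ := by
  have c₁ := subset_zspan hχ₁
  have mem : ∀ θ ∈ zspan S₂, ∀ m : ℤ, θ 1 = m → d₁ • θ - m • χ₁ ∈ zspanOn S {1}ᶜ := by
    intro θ hθ m hm
    rw [mem_zspanOn_one]
    refine ⟨zspan_mono hS₂S (zspan_sub (zspan_zsmul _ hθ) (zspan_zsmul _ c₁)), ?_⟩
    simp only [Pi.sub_apply, Pi.smul_apply, zsmul_eq_mul, Pi.mul_apply, Pi.intCast_apply, hm, hd₁]
    ring
  have key : ∀ θ ∈ zspan S₂, ∃ m : ℤ, θ 1 = m ∧ τ (d₁ • θ - m • χ₁) = d₁ • ρ θ - m • ρ χ₁ := by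
    intro θ hθ
    induction hθ using Submodule.span_induction with
    | mem x hx => exact hgen x hx
    | zero =>
      refine ⟨0, by simp, ?_⟩
      have h0 := isoOn_zero hτ (mem χ₁ c₁ d₁ hd₁)
      simp only [smul_zero, zero_smul, sub_zero, iso_zero hρ, h0]
    | add u v hu' hv' hu hv =>
      obtain ⟨m, hm, em⟩ := hu
      obtain ⟨k, hk, ek⟩ := hv
      refine ⟨m + k, by rw [Pi.add_apply, hm, hk]; push_cast; ring, ?_⟩
      have e : d₁ • (u + v) - (m + k) • χ₁ = (d₁ • u - m • χ₁) + (d₁ • v - k • χ₁) := by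
        rw [smul_add, add_smul]; abel
      rw [e, hτ.1 _ (mem u hu' m hm) _ (mem v hv' k hk), em, ek, hρ.1 u hu' v hv', smul_add,
        add_smul]
      abel
    | smul n u hu' hu =>
      obtain ⟨m, hm, em⟩ := hu
      refine ⟨n * m, by rw [Pi.smul_apply, hm, zsmul_eq_mul]; push_cast; ring, ?_⟩
      have e : d₁ • (n • u) - (n * m) • χ₁ = n • (d₁ • u - m • χ₁) := by
        rw [smul_sub, smul_smul, smul_smul, smul_smul, mul_comm d₁ n]
      rw [e, hτ.2.1 _ (mem u hu' m hm), em, hρ.2.1 u hu' n, smul_sub, smul_smul, smul_smul,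
        smul_smul, mul_comm d₁ n]
  intro θ hθ
  rw [mem_zspanOn_one] at hθ
  obtain ⟨m, hm, em⟩ := key θ hθ.1
  have hm0 : m = 0 := by
    rw [hθ.2] at hm
    exact_mod_cast hm.symm
  subst hm0
  simp only [zero_smul, sub_zero] at em
  have hθS : θ ∈ zspanOn S {1}ᶜ := mem_zspanOn_one.mpr ⟨zspan_mono hS₂S hθ.1, hθ.2⟩
  rw [hτ.2.1 θ hθS d₁] at em
  exact (smul_right_injective (G → ℂ) hd₁0 em).symm

end Cfsg.Agent.Lib.Helper24.Coh
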