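import Mathlib
import Cfsg.Prelude.Def_OddOrderChar
import Cfsg.Agent.Lib.Helper24.Coherence2

set_option autoImplicit false
set_option linter.unusedSectionVars false
set_option linter.unusedSimpArgs false
open Cfsg
open scoped ComplexConjugate

namespace Cfsg.Agent.Lib.Helper24.Coh

open Cfsg.Agent.Lib.Helper7 Cfsg.Agent.Lib.Helper11

variable {L : Type*} [Group L] [Fintype L] {G : Type*} [Group G] [Fintype G]

theorem conjFun_conjFun (φ : L → ℂ) : conjFun (conjFun φ) = φ := by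
  funext x; simp [conjFun]

theorem classInner_conjFun (a b : L → ℂ) :
    classInner (conjFun a) (conjFun b) = conj (classInner a b) := by
  simp only [classInner, conjFun, map_mul, map_inv₀, map_natCast, map_sum]

variable {S : Set (L → ℂ)} {τ : (L → ℂ) → (G → ℂ)} {R : (L → ℂ) → Finset (G → ℂ)}

theorem sys_ne_zero (hS : IsCoherenceSystem S τ R) {φ : L → ℂ} (hφ : φ ∈ S) :
    classInner φ φ ≠ 0 := by
  intro h
  have h0 := classInner_self_eq_zero h
  apply hS.conj_ne φ hφ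
  rw [h0]
  funext x
  simp [conjFun]

theorem sys_norm (hS : IsCoherenceSystem S τ R) {φ : L → ℂ} (hφ : φ ∈ S) :
    ∃ n : ℕ, 0 < n ∧ classInner φ φ = n := by
  obtain ⟨n, hn⟩ := classInner_char_nat (hS.isCharacter φ hφ) (hS.isCharacter φ hφ)
  refine ⟨n, ?_, hn⟩
  rcases Nat.eq_zero_or_pos n with rfl | h
  · exact absurd (by simpa using hn) (sys_ne_zero hS hφ)
  · exact h

theorem sys_deg (hS : IsCoherenceSystem S τ R) {φ : L → ℂ} (hφ : φ ∈ S) :
    ∃ d : ℕ, 0 < d ∧ φ 1 = d := by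
  obtain ⟨d, hd⟩ := isCharacter_apply_one (hS.isCharacter φ hφ)
  refine ⟨d, ?_, hd⟩
  rcases Nat.eq_zero_or_pos d with rfl | h
  · exfalso
    apply sys_ne_zero hS hφ
    have : φ = 0 := by
      funext g
      have h1 := char_norm_le (hS.isCharacter φ hφ) g
      rw [hd] at h1
      simpa using h1
    rw [this]
    exact classInner_zero_left _
  · exact h

theorem sys_conj_one (hS : IsCoherenceSystem S τ R) {φ : L → ℂ} (hφ : φ ∈ S) :
    conjFun φ 1 = φ 1 := by
  obtain ⟨d, _, hd⟩ := sys_deg hS hφ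
  simp [conjFun, hd]

theorem sys_conj_norm (φ : L → ℂ) : classInner (conjFun φ) (conjFun φ) = classInner φ φ := by
  rw [classInner_conjFun, classInner_conj_symm]

theorem sys_sub_mem {φ φ' : L → ℂ} (hφ : φ ∈ S) (hφ' : φ' ∈ S) (h1 : φ 1 = φ' 1) :
    φ - φ' ∈ zspanOn S {1}ᶜ := by
  rw [mem_zspanOn_one]
  exact ⟨zspan_sub (subset_zspan hφ) (subset_zspan hφ'), by rw [Pi.sub_apply, h1, sub_self]⟩

theorem sys_sub_conj_mem (hS : IsCoherenceSystem S τ R) {φ : L → ℂ} (hφ : φ ∈ S) :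
    φ - conjFun φ ∈ zspanOn S {1}ᶜ :=
  sys_sub_mem hφ (hS.conj_mem φ hφ) (sys_conj_one hS hφ).symm

theorem sys_inner_conj (hS : IsCoherenceSystem S τ R) {φ : L → ℂ} (hφ : φ ∈ S) :
    classInner φ (conjFun φ) = 0 :=
  hS.orthogonal φ hφ _ (hS.conj_mem φ hφ) (hS.conj_ne φ hφ).symm

theorem sys_inner_conj' (hS : IsCoherenceSystem S τ R) {φ : L → ℂ} (hφ : φ ∈ S) :
    classInner (conjFun φ) φ = 0 :=
  hS.orthogonal _ (hS.conj_mem φ hφ) φ hφ (hS.conj_ne φ hφ)

theorem sys_inner_sum (hS : IsCoherenceSystem S τ R) {φ : L → ℂ} (hφ : φ ∈ S) (T : G → ℂ) :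
    classInner T (τ (φ - conjFun φ)) = ∑ α ∈ R φ, classInner T α := by
  rw [hS.sum_eq φ hφ, classInner_sum_right]

/-- integer coefficients of a virtual character along `R φ` -/
theorem sys_coeff (hS : IsCoherenceSystem S τ R) {T : G → ℂ} (hT : IsGeneralizedCharacter G T) :
    ∃ c : (G → ℂ) → ℤ, ∀ φ ∈ S, ∀ α ∈ R φ, classInner T α = c α := by
  classical
  have hex : ∀ α : G → ℂ, ∃ k : ℤ, IsGeneralizedCharacter G α → classInner T α = k := by
    intro α
    by_cases hα : IsGeneralizedCharacter G α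
    · obtain ⟨k, hk⟩ := genChar_inner_int hT hα
      exact ⟨k, fun _ => hk⟩
    · exact ⟨0, fun h => absurd h hα⟩
  choose c hc using hex
  exact ⟨c, fun φ hφ α hα => hc α (hS.virtual φ hφ α hα)⟩

theorem sys_card (hS : IsCoherenceSystem S τ R) {φ : L → ℂ} (hφ : φ ∈ S) {n : ℕ}
    (hn : classInner φ φ = n) : (R φ).card = 2 * n := by
  classical
  have h1 := hS.isometry.2.2.1 _ (sys_sub_conj_mem hS hφ) _ (sys_sub_conj_mem hS hφ)
  rw [sys_inner_sum hS hφ, hS.sum_eq φ hφ] at h1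
  have h2 : ∀ α ∈ R φ, classInner (∑ β ∈ R φ, β) α = 1 := by
    intro α hα
    rw [classInner_sum_left, Finset.sum_eq_single α]
    · rw [hS.orthonormal φ hφ α hα α hα, if_pos rfl]
    · intro β hβ hne
      rw [hS.orthonormal φ hφ β hβ α hα, if_neg hne]
    · intro h; exact absurd hα h
  rw [Finset.sum_congr rfl h2] at h1
  simp only [classInner_sub_left, classInner_sub_right, sys_inner_conj hS hφ,
    sys_inner_conj' hS hφ, sys_conj_norm, hn] at h1
  simp only [Finset.sum_const, nsmul_eq_mul, mul_one] at h1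
  have : ((R φ).card : ℂ) = ((2 * n : ℕ) : ℂ) := by
    rw [h1]; push_cast; ring
  exact_mod_cast this

/-- orthogonality of `R φ` and `R φ'` for unrelated members -/
theorem sys_disjoint (hS : IsCoherenceSystem S τ R) {φ φ' : L → ℂ} (hφ : φ ∈ S) (hφ' : φ' ∈ S)
    (h1 : φ' ≠ φ) (h2 : φ' ≠ conjFun φ) : ∀ α ∈ R φ, ∀ β ∈ R φ', classInner α β = 0 := by
  intro α hα β hβ
  refine hS.disjoint φ' hφ' φ hφ (hS.orthogonal φ hφ φ' hφ' h1.symm) ?_ α hα β hβ
  refine hS.orthogonal φ hφ _ (hS.conj_mem φ' hφ') ?_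
  intro e
  apply h2
  rw [e, conjFun_conjFun]

/-- Lemma A: the image of a difference of two unrelated members of equal degree is supported
on `R φ ∪ R φ'` -/
theorem sys_two_support (hS : IsCoherenceSystem S τ R) {φ φ' : L → ℂ} (hφ : φ ∈ S) (hφ' : φ' ∈ S)
    (h1 : φ' ≠ φ) (h2 : φ' ≠ conjFun φ) (hdeg : φ 1 = φ' 1) {n : ℕ} (hn : classInner φ φ = n) :
    (∀ γ : G → ℂ, (∀ α ∈ R φ, classInner α γ = 0) → (∀ β ∈ R φ', classInner β γ = 0) →
      classInner (τ (φ - φ')) γ = 0) ∧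
    ∑ α ∈ R φ, classInner (τ (φ - φ')) α * conj (classInner (τ (φ - φ')) α) = n := by
  classical
  obtain ⟨n', hn'0, hn'⟩ := sys_norm hS hφ'
  have hm := sys_sub_mem hφ hφ' hdeg
  have hTg := hS.isometry.2.2.2 _ hm
  have o1 : classInner φ φ' = 0 := hS.orthogonal φ hφ φ' hφ' h1.symm
  have o2 : classInner φ' φ = 0 := hS.orthogonal φ' hφ' φ hφ h1
  have o3 : classInner φ' (conjFun φ) = 0 := hS.orthogonal φ' hφ' _ (hS.conj_mem φ hφ) h2
  have o4 : classInner φ (conjFun φ') = 0 := by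
    refine hS.orthogonal φ hφ _ (hS.conj_mem φ' hφ') ?_
    intro e; apply h2; rw [e, conjFun_conjFun]
  have hTT : classInner (τ (φ - φ')) (τ (φ - φ')) = n + n' := by
    rw [hS.isometry.2.2.1 _ hm _ hm]
    simp only [classInner_sub_left, classInner_sub_right, o1, o2, hn, hn']
    ring
  have s1 : classInner (τ (φ - φ')) (τ (φ - conjFun φ)) = n := by
    rw [hS.isometry.2.2.1 _ hm _ (sys_sub_conj_mem hS hφ)]
    simp only [classInner_sub_left, classInner_sub_right, o2, o3, hn, sys_inner_conj hS hφ]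
    ring
  have s2 : classInner (τ (φ - φ')) (τ (φ' - conjFun φ')) = -n' := by
    rw [hS.isometry.2.2.1 _ hm _ (sys_sub_conj_mem hS hφ')]
    simp only [classInner_sub_left, classInner_sub_right, o1, o4, hn', sys_inner_conj hS hφ']
    ring
  rw [sys_inner_sum hS hφ] at s1
  rw [sys_inner_sum hS hφ'] at s2
  generalize τ (φ - φ') = T at hTg hTT s1 s2 ⊢
  obtain ⟨c, hc⟩ := sys_coeff hS hTg
  have hdis := sys_disjoint hS hφ hφ' h1 h2
  have hdisj : Disjoint (R φ) (R φ') := by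
    rw [Finset.disjoint_left]
    intro α hα hα'
    have e1 := hdis α hα α hα'
    rw [hS.orthonormal φ hφ α hα α hα, if_pos rfl] at e1
    exact one_ne_zero e1
  have hon : ∀ α ∈ R φ ∪ R φ', ∀ β ∈ R φ ∪ R φ',
      classInner (id α : G → ℂ) (id β) = if α = β then (1 : ℂ) else 0 := by
    intro α hα β hβ
    simp only [id]
    rcases Finset.mem_union.mp hα with hα | hα <;> rcases Finset.mem_union.mp hβ with hβ | hβ
    · exact hS.orthonormal φ hφ α hα β hβ
    · rw [hdis α hα β hβ, if_neg]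
      rintro rfl
      exact Finset.disjoint_left.mp hdisj hα hβ
    · rw [← classInner_conj_symm, hdis β hβ α hα, map_zero, if_neg]
      rintro rfl
      exact Finset.disjoint_left.mp hdisj hβ hα
    · exact hS.orthonormal φ' hφ' α hα β hβ
  have hB := bessel (R φ ∪ R φ') id (fun _ => (1 : ℂ)) (fun _ _ => one_ne_zero) hon T T
  obtain ⟨r, hr, hrZ⟩ := exists_real_norm
    (T - ∑ i ∈ R φ ∪ R φ', (classInner T (id i) / (1 : ℂ)) • (id i : G → ℂ))
  rw [hrZ, hTT, Finset.sum_union hdisj] at hB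
  have q1 : ∑ α ∈ R φ, classInner T (id α) * conj (classInner T (id α)) / (1 : ℂ) =
      ((∑ α ∈ R φ, c α ^ 2 : ℤ) : ℂ) := by
    push_cast
    apply Finset.sum_congr rfl
    intro α hα
    simp only [id, hc φ hφ α hα, div_one, map_intCast]
    ring
  have q2 : ∑ α ∈ R φ', classInner T (id α) * conj (classInner T (id α)) / (1 : ℂ) =
      ((∑ α ∈ R φ', c α ^ 2 : ℤ) : ℂ) := by
    push_cast
    apply Finset.sum_congr rfl
    intro α hα
    simp only [id, hc φ' hφ' α hα, div_one, map_intCast]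
    ring
  rw [q1, q2] at hB
  have t1 : (n : ℤ) = ∑ α ∈ R φ, c α := by
    rw [Finset.sum_congr rfl (fun α hα => hc φ hφ α hα)] at s1
    exact_mod_cast s1.symm
  have t2 : -(n' : ℤ) = ∑ α ∈ R φ', c α := by
    rw [Finset.sum_congr rfl (fun α hα => hc φ' hφ' α hα)] at s2
    exact_mod_cast s2.symm
  have u1 : (n : ℤ) ≤ ∑ α ∈ R φ, c α ^ 2 := by
    rw [t1]; exact Finset.sum_le_sum (fun α _ => Int.le_self_sq (c α))
  have u2 : (n' : ℤ) ≤ ∑ α ∈ R φ', c α ^ 2 := by
    have : (n' : ℤ) = ∑ α ∈ R φ', (- c α) := by rw [Finset.sum_neg_distrib, ← t2, neg_neg]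
    rw [this]
    refine Finset.sum_le_sum (fun α _ => ?_)
    have := Int.le_self_sq (- c α)
    rwa [neg_sq] at this
  have hB' : ((n : ℝ) + n') = ((∑ α ∈ R φ, c α ^ 2 : ℤ) : ℝ) + ((∑ α ∈ R φ', c α ^ 2 : ℤ) : ℝ) + r := by
    exact_mod_cast hB
  have u1' : (n : ℝ) ≤ ((∑ α ∈ R φ, c α ^ 2 : ℤ) : ℝ) := by exact_mod_cast u1
  have u2' : (n' : ℝ) ≤ ((∑ α ∈ R φ', c α ^ 2 : ℤ) : ℝ) := by exact_mod_cast u2
  have hr0 : r = 0 := by linarith
  have hc2 : ((∑ α ∈ R φ, c α ^ 2 : ℤ) : ℝ) = n := by linarith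
  constructor
  · intro γ hγ hγ'
    rw [hr0] at hrZ
    have hZ := classInner_self_eq_zero (hrZ.trans (by simp))
    have hT : T = ∑ i ∈ R φ ∪ R φ', (classInner T (id i) / (1 : ℂ)) • (id i : G → ℂ) :=
      sub_eq_zero.mp hZ
    rw [hT, classInner_sum_left]
    apply Finset.sum_eq_zero
    intro α hα
    rw [classInner_smul_left]
    rcases Finset.mem_union.mp hα with hα | hα
    · rw [show (id α : G → ℂ) = α from rfl, hγ α hα, mul_zero]
    · rw [show (id α : G → ℂ) = α from rfl, hγ' α hα, mul_zero]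
  · have : ∑ α ∈ R φ, classInner T α * conj (classInner T α) = ((∑ α ∈ R φ, c α ^ 2 : ℤ) : ℂ) := by
      rw [← q1]
      apply Finset.sum_congr rfl
      intro α _
      simp
    rw [this]
    exact_mod_cast hc2

/-- integer combinations of `R χ` -/
theorem sys_comb (hS : IsCoherenceSystem S τ R) {χ : L → ℂ} (hχ : χ ∈ S) (c : (G → ℂ) → ℤ) :
    IsGeneralizedCharacter G (∑ α ∈ R χ, c α • α) ∧
    (∀ β ∈ R χ, classInner (∑ α ∈ R χ, c α • α) β = c β) ∧
    (∀ γ : G → ℂ, classInner (∑ α ∈ R χ, c α • α) γ = ∑ α ∈ R χ, (c α : ℂ) * classInner α γ) ∧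
    (∀ c' : (G → ℂ) → ℤ, classInner (∑ α ∈ R χ, c α • α) (∑ α ∈ R χ, c' α • α) =
      ((∑ α ∈ R χ, c α * c' α : ℤ) : ℂ)) := by
  classical
  have h3 : ∀ γ : G → ℂ, classInner (∑ α ∈ R χ, c α • α) γ =
      ∑ α ∈ R χ, (c α : ℂ) * classInner α γ := by
    intro γ
    rw [classInner_sum_left]
    apply Finset.sum_congr rfl
    intro α _
    rw [classInner_zsmul_left]
  have h2 : ∀ (c : (G → ℂ) → ℤ), ∀ β ∈ R χ, classInner (∑ α ∈ R χ, c α • α) β = c β := by
    intro c β hβ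
    rw [classInner_sum_left, Finset.sum_eq_single β]
    · rw [classInner_zsmul_left, hS.orthonormal χ hχ β hβ β hβ, if_pos rfl, mul_one]
    · intro α hα hne
      rw [classInner_zsmul_left, hS.orthonormal χ hχ α hα β hβ, if_neg hne, mul_zero]
    · intro h; exact absurd hβ h
  refine ⟨genChar_sum _ _ (fun α hα => genChar_zsmul (hS.virtual χ hχ α hα) _), h2 c, h3, ?_⟩
  intro c'
  rw [h3]
  push_cast
  apply Finset.sum_congr rfl
  intro α hα
  rw [← classInner_conj_symm, h2 c' α hα, map_intCast]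

end Cfsg.Agent.Lib.Helper24.Coh
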