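import Mathlib
import Cfsg.Prelude.Def_OddOrderChar
import Cfsg.Agent.Lib.Helper24.Coherence3

set_option autoImplicit false
set_option linter.unusedSectionVars false
set_option linter.unusedSimpArgs false
open Cfsg
open scoped ComplexConjugate

namespace Cfsg.Agent.Lib.Helper24.Coh

open Cfsg.Agent.Lib.Helper7 Cfsg.Agent.Lib.Helper11

variable {L : Type*} [Group L] [Fintype L] {G : Type*} [Group G] [Fintype G]
variable {S : Set (L → ℂ)} {τ : (L → ℂ) → (G → ℂ)} {R : (L → ℂ) → Finset (G → ℂ)}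

/-- a coherent extension sends `φ` into the span of `R φ` -/
theorem sys_coh_support (hS : IsCoherenceSystem S τ R) {S₁ : Set (L → ℂ)} (hS₁ : S₁ ⊆ S)
    {τ₁ : (L → ℂ) → (G → ℂ)} (hτ₁ : IsLinearIsometryOn (zspan S₁) τ₁)
    (hτ₁τ : ∀ θ ∈ zspanOn S₁ {1}ᶜ, τ₁ θ = τ θ) {φ : L → ℂ} (hφ : φ ∈ S₁)
    (hφc : conjFun φ ∈ S₁) (γ : G → ℂ) (hγ : ∀ β ∈ R φ, classInner β γ = 0) :
    classInner (τ₁ φ) γ = 0 := by
  classical
  have hφS := hS₁ hφ
  have c1 := subset_zspan hφ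
  have c2 := subset_zspan hφc
  have hdiff : τ₁ φ - τ₁ (conjFun φ) = ∑ β ∈ R φ, β := by
    rw [← iso_sub hτ₁ c1 c2, hτ₁τ _ (sys_sub_mem hφ hφc (sys_conj_one hS hφS).symm),
      hS.sum_eq φ hφS]
  have hU' : τ₁ (conjFun φ) = τ₁ φ - ∑ β ∈ R φ, β := by
    rw [← hdiff]; abel
  have h0 : classInner (τ₁ φ) (τ₁ (conjFun φ)) = 0 := by
    rw [hτ₁.2.2.1 _ c1 _ c2, sys_inner_conj hS hφS]
  obtain ⟨b, hb⟩ := sys_coeff hS (hτ₁.2.2.2 _ c1)
  have hsum1 : ∀ α ∈ R φ, classInner (∑ β ∈ R φ, β) α = 1 := by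
    intro α hα
    rw [classInner_sum_left, Finset.sum_eq_single α]
    · rw [hS.orthonormal φ hφS α hα α hα, if_pos rfl]
    · intro β hβ hne
      rw [hS.orthonormal φ hφS β hβ α hα, if_neg hne]
    · intro h; exact absurd hα h
  have hb' : ∀ α ∈ R φ, classInner (τ₁ (conjFun φ)) α = b α - 1 := by
    intro α hα
    rw [hU', classInner_sub_left, hb φ hφS α hα, hsum1 α hα]
  have hB := bessel (R φ) id (fun _ => (1 : ℂ)) (fun _ _ => one_ne_zero)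
    (fun α hα β hβ => hS.orthonormal φ hφS α hα β hβ) (τ₁ φ) (τ₁ (conjFun φ))
  have hZ : τ₁ (conjFun φ) - ∑ i ∈ R φ, (classInner (τ₁ (conjFun φ)) (id i) / (1 : ℂ)) • (id i : G → ℂ)
      = τ₁ φ - ∑ i ∈ R φ, (classInner (τ₁ φ) (id i) / (1 : ℂ)) • (id i : G → ℂ) := by
    have e : ∑ i ∈ R φ, (classInner (τ₁ (conjFun φ)) (id i) / (1 : ℂ)) • (id i : G → ℂ) =
        ∑ i ∈ R φ, (classInner (τ₁ φ) (id i) / (1 : ℂ)) • (id i : G → ℂ) - ∑ β ∈ R φ, β := by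
      rw [← Finset.sum_sub_distrib]
      apply Finset.sum_congr rfl
      intro α hα
      simp only [id, div_one, hb' α hα, hb φ hφS α hα, sub_smul, one_smul]
    rw [e, hU']
    abel
  rw [hZ, h0] at hB
  obtain ⟨r, hr, hrZ⟩ := exists_real_norm
    (τ₁ φ - ∑ i ∈ R φ, (classInner (τ₁ φ) (id i) / (1 : ℂ)) • (id i : G → ℂ))
  rw [hrZ] at hB
  have q : ∑ i ∈ R φ, classInner (τ₁ φ) (id i) * conj (classInner (τ₁ (conjFun φ)) (id i)) / (1 : ℂ)
      = ((∑ α ∈ R φ, b α * (b α - 1) : ℤ) : ℂ) := by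
    push_cast
    apply Finset.sum_congr rfl
    intro α hα
    simp only [id, div_one, hb' α hα, hb φ hφS α hα, map_sub, map_intCast, map_one]
  rw [q] at hB
  have hB' : (0 : ℝ) = ((∑ α ∈ R φ, b α * (b α - 1) : ℤ) : ℝ) + r := by exact_mod_cast hB
  have hnn : (0 : ℤ) ≤ ∑ α ∈ R φ, b α * (b α - 1) := by
    apply Finset.sum_nonneg
    intro α _
    have := Int.le_self_sq (b α)
    nlinarith
  have hnn' : (0 : ℝ) ≤ ((∑ α ∈ R φ, b α * (b α - 1) : ℤ) : ℝ) := by exact_mod_cast hnn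
  have hr0 : r = 0 := by linarith
  rw [hr0] at hrZ
  have hZ0 := classInner_self_eq_zero (hrZ.trans (by simp))
  rw [sub_eq_zero.mp hZ0, classInner_sum_left]
  apply Finset.sum_eq_zero
  intro α hα
  rw [classInner_smul_left, show (id α : G → ℂ) = α from rfl, hγ α hα, mul_zero]

end Cfsg.Agent.Lib.Helper24.Coh
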