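import Mathlib
import Cfsg.Agent.Lib.Helper25.CliffordCorr
import Cfsg.Agent.Lib.Helper25.Irr
import Cfsg.Agent.Lib.Helper7.CharColumn
import Cfsg.Agent.Lib.Helper7.BlockDefect

set_option autoImplicit false
set_option linter.unusedSectionVars false
set_option linter.unusedSimpArgs false
open Cfsg
open scoped ComplexConjugate

namespace Cfsg.Agent.Lib.Helper24.TIFrob

open Cfsg.Agent.Lib.Helper7

variable {N : Type*} [Group N] [Fintype N] (H : Subgroup N) [hH : H.Normal]

open Classical in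
theorem sum_indicator_eq (F : N → ℂ) : ∑ x : N, (if x ∈ H then F x else 0) = ∑ h : H, F h := by
  rw [← Finset.sum_filter]
  exact (Finset.sum_subtype (Finset.univ.filter (· ∈ H)) (by simp) F)

open Classical in
/-- a character not trivial on the normal subgroup `H` sums to zero over `H` -/
theorem sum_eq_zero {χ : N → ℂ} (hχ : IsIrrCharacter N χ) (hrel : ∃ h ∈ H, χ h ≠ χ 1) :
    ∑ x : N, (if x ∈ H then χ x else 0) = 0 := by
  rw [sum_indicator_eq]
  by_contra hne
  have hconst : classInner (fun n : H => χ n) (fun _ => (1 : ℂ)) ≠ 0 := by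
    simp only [classInner, map_one, mul_one]
    refine mul_ne_zero ?_ hne
    exact inv_ne_zero (by exact_mod_cast Nat.card_pos.ne')
  have h1 := Cfsg.Agent.Lib.Helper25.restrict_eq_smul_of_invariant H hχ
    (θ := fun _ => (1 : ℂ)) isIrrCharacter_one hconst (fun g => rfl)
  obtain ⟨h, hh, hne'⟩ := hrel
  apply hne'
  have e1 := congrFun h1 ⟨h, hh⟩
  have e2 := congrFun h1 1
  simp only [Pi.smul_apply, smul_eq_mul, mul_one, OneMemClass.coe_one] at e1 e2
  rw [e1, e2]

/-- inflation of irreducible characters from the quotient -/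
noncomputable def infl (η : IrrCharacter (N ⧸ H)) : IrrCharacter N :=
  ⟨fun x => (η : N ⧸ H → ℂ) (QuotientGroup.mk' H x),
    Cfsg.Agent.Lib.Helper25.isIrrCharacter_comp_surjective (QuotientGroup.mk' H)
      (QuotientGroup.mk'_surjective H) η.2⟩

theorem infl_injective : Function.Injective (infl H) := by
  intro η η' h
  apply Subtype.ext
  funext q
  obtain ⟨x, rfl⟩ := QuotientGroup.mk'_surjective H q
  exact congrFun (congrArg Subtype.val h) x

theorem infl_apply_mem (η : IrrCharacter (N ⧸ H)) {h : N} (hh : h ∈ H) :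
    (infl H η : N → ℂ) h = (infl H η : N → ℂ) 1 := by
  show (η : N ⧸ H → ℂ) (QuotientGroup.mk' H h) = (η : N ⧸ H → ℂ) (QuotientGroup.mk' H 1)
  rw [map_one]
  exact congrArg _ ((QuotientGroup.eq_one_iff h).mpr hh)

theorem card_centralizer_le (hC : ∀ h ∈ H, h ≠ 1 → Subgroup.centralizer ({h} : Set N) ≤ H)
    {x : N} (hx : x ∉ H) :
    Nat.card (Subgroup.centralizer ({x} : Set N)) ≤
      Nat.card (Subgroup.centralizer ({(QuotientGroup.mk' H x)} : Set (N ⧸ H))) := by
  refine Nat.card_le_card_of_injective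
    (fun c : Subgroup.centralizer ({x} : Set N) =>
      (⟨QuotientGroup.mk' H c, ?_⟩ : Subgroup.centralizer ({(QuotientGroup.mk' H x)} : Set (N ⧸ H))))
    ?_
  · rw [Subgroup.mem_centralizer_singleton_iff]
    have := Subgroup.mem_centralizer_singleton_iff.mp c.2
    rw [← map_mul, ← map_mul, this]
  · intro c c' h
    have h1 : QuotientGroup.mk' H (c : N) = QuotientGroup.mk' H (c' : N) :=
      congrArg Subtype.val h
    have h2 : (c : N)⁻¹ * c' ∈ H := by
      rw [← QuotientGroup.eq_one_iff, ← QuotientGroup.mk'_apply, map_mul, map_inv, h1]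
      simp
    by_contra hne
    have h3 : (c : N)⁻¹ * c' ≠ 1 := by
      intro e
      apply hne
      apply Subtype.ext
      exact inv_mul_eq_one.mp e
    apply hx
    apply hC _ h2 h3
    rw [Subgroup.mem_centralizer_singleton_iff]
    have hm : (c : N)⁻¹ * c' ∈ Subgroup.centralizer ({x} : Set N) :=
      Subgroup.mul_mem _ (Subgroup.inv_mem _ c.2) c'.2
    exact (Subgroup.mem_centralizer_singleton_iff.mp hm).symm

/-- in a Frobenius-like situation the relevant characters vanish off the kernel -/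
theorem vanish_off (hC : ∀ h ∈ H, h ≠ 1 → Subgroup.centralizer ({h} : Set N) ≤ H)
    {χ : N → ℂ} (hχ : IsIrrCharacter N χ) (hrel : ∃ h ∈ H, χ h ≠ χ 1) {x : N} (hx : x ∉ H) :
    χ x = 0 := by
  classical
  haveI := Fintype.ofFinite (IrrCharacter N)
  haveI := Fintype.ofFinite (IrrCharacter (N ⧸ H))
  have c1 := column_orthogonality_self x
  have c2 := column_orthogonality_self (QuotientGroup.mk' H x)
  simp only [Complex.mul_conj] at c1 c2
  have c1' : ∑ ψ : IrrCharacter N, Complex.normSq ((ψ : N → ℂ) x) =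
      (Nat.card (Subgroup.centralizer ({x} : Set N)) : ℝ) := by exact_mod_cast c1
  have c2' : ∑ η : IrrCharacter (N ⧸ H), Complex.normSq ((η : N ⧸ H → ℂ) (QuotientGroup.mk' H x)) =
      (Nat.card (Subgroup.centralizer ({(QuotientGroup.mk' H x)} : Set (N ⧸ H))) : ℝ) := by
    exact_mod_cast c2
  have hnot : (⟨χ, hχ⟩ : IrrCharacter N) ∉ Finset.univ.image (infl H) := by
    intro hmem
    obtain ⟨η, _, hη⟩ := Finset.mem_image.mp hmem
    obtain ⟨h, hh, hne⟩ := hrel
    apply hne
    have := infl_apply_mem H η hh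
    rw [hη] at this
    exact this
  have hle : ∑ ψ ∈ insert (⟨χ, hχ⟩ : IrrCharacter N) (Finset.univ.image (infl H)),
      Complex.normSq ((ψ : N → ℂ) x) ≤ ∑ ψ : IrrCharacter N, Complex.normSq ((ψ : N → ℂ) x) :=
    Finset.sum_le_sum_of_subset_of_nonneg (Finset.subset_univ _)
      (fun _ _ _ => Complex.normSq_nonneg _)
  rw [Finset.sum_insert hnot, Finset.sum_image (fun a _ b _ h => infl_injective H h)] at hle
  have e : ∑ η : IrrCharacter (N ⧸ H), Complex.normSq ((infl H η : N → ℂ) x) =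
      ∑ η : IrrCharacter (N ⧸ H), Complex.normSq ((η : N ⧸ H → ℂ) (QuotientGroup.mk' H x)) := rfl
  rw [e, c1', c2'] at hle
  have hcard : (Nat.card (Subgroup.centralizer ({x} : Set N)) : ℝ) ≤
      (Nat.card (Subgroup.centralizer ({(QuotientGroup.mk' H x)} : Set (N ⧸ H))) : ℝ) := by
    exact_mod_cast card_centralizer_le H hC hx
  have h0 : Complex.normSq (χ x) ≤ 0 := by
    have : Complex.normSq (((⟨χ, hχ⟩ : IrrCharacter N) : N → ℂ) x) = Complex.normSq (χ x) := rfl
    linarith
  exact Complex.normSq_eq_zero.mp (le_antisymm h0 (Complex.normSq_nonneg _))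

theorem sum_deg_mul [Fintype (IrrCharacter N)] {x : N} (hx : x ≠ 1) :
    ∑ χ : IrrCharacter N, (χ : N → ℂ) 1 * (χ : N → ℂ) x = 0 := by
  have h := column_orthogonality_ne (g := x) (h := 1) (fun h => hx (isConj_one_right.mp h.symm))
  rw [← h]
  apply Finset.sum_congr rfl
  intro χ _
  rw [conj_irr_one, mul_comm]

open Classical in
theorem const_on_kernel_aux {f : N → ℂ} (hf : IsClassFunction N f) (r : ℂ)
    (hr : ∀ χ : N → ℂ, IsIrrCharacter N χ → (∃ h ∈ H, χ h ≠ χ 1) → classInner f χ = r * χ 1) :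
    ∃ C : ℂ, ∀ h ∈ H, h ≠ 1 → f h = C := by
  haveI := Fintype.ofFinite (IrrCharacter N)
  refine ⟨∑ χ : IrrCharacter N, (if ∃ h ∈ H, (χ : N → ℂ) h ≠ (χ : N → ℂ) 1 then 0 else
    (classInner f (χ : N → ℂ) - r * (χ : N → ℂ) 1) * (χ : N → ℂ) 1), ?_⟩
  intro h hh h1
  rw [classFunction_apply_eq_sum hf h]
  have e : ∀ χ : IrrCharacter N, classInner f (χ : N → ℂ) * (χ : N → ℂ) h =
      r * ((χ : N → ℂ) 1 * (χ : N → ℂ) h) +
      (if ∃ h ∈ H, (χ : N → ℂ) h ≠ (χ : N → ℂ) 1 then 0 else
        (classInner f (χ : N → ℂ) - r * (χ : N → ℂ) 1) * (χ : N → ℂ) 1) := by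
    intro χ
    split_ifs with hrel
    · rw [hr _ χ.2 hrel]; ring
    · push Not at hrel
      rw [hrel h hh]; ring
  rw [Finset.sum_congr rfl (fun χ _ => e χ), Finset.sum_add_distrib, ← Finset.mul_sum,
    sum_deg_mul h1, mul_zero, zero_add]

/-- Lemma C: a class function whose multiplicities along the relevant characters are proportional
to the degrees is constant on the non-identity elements of `H` -/
theorem const_on_kernel {f : N → ℂ} (hf : IsClassFunction N f)
    (hprop : ∀ χ ξ : N → ℂ, IsIrrCharacter N χ → (∃ h ∈ H, χ h ≠ χ 1) → IsIrrCharacter N ξ →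
      (∃ h ∈ H, ξ h ≠ ξ 1) → ξ 1 * classInner f χ = χ 1 * classInner f ξ) :
    ∃ C : ℂ, ∀ h ∈ H, h ≠ 1 → f h = C := by
  by_cases hex : ∃ χ₀ : N → ℂ, IsIrrCharacter N χ₀ ∧ ∃ h ∈ H, χ₀ h ≠ χ₀ 1
  · obtain ⟨χ₀, h₀, hrel₀⟩ := hex
    refine const_on_kernel_aux H hf (classInner f χ₀ / χ₀ 1) ?_
    intro χ hχ hrel
    have h1 := hprop χ χ₀ hχ hrel h₀ hrel₀
    have h2 := irr_apply_one_ne_zero h₀
    field_simp
    linear_combination h1
  · refine const_on_kernel_aux H hf 0 ?_
    intro χ hχ hrel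
    exact absurd ⟨χ, hχ, hrel⟩ hex

open Classical in
/-- (⋆) inner product of a function constant on `H∖1` with a relevant character -/
theorem inner_of_const (hC : ∀ h ∈ H, h ≠ 1 → Subgroup.centralizer ({h} : Set N) ≤ H)
    {f : N → ℂ} {C : ℂ} (hfC : ∀ h ∈ H, h ≠ 1 → f h = C) {ξ : N → ℂ} (hξ : IsIrrCharacter N ξ)
    (hrel : ∃ h ∈ H, ξ h ≠ ξ 1) :
    classInner f ξ = (Nat.card N : ℂ)⁻¹ * ((f 1 - C) * ξ 1) := by
  unfold classInner
  congr 1
  have hξ1 : conj (ξ 1) = ξ 1 := conj_irr_one ⟨ξ, hξ⟩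
  have e : ∀ x : N, f x * conj (ξ x) = C * conj (if x ∈ H then ξ x else 0) +
      (if x = 1 then (f 1 - C) * ξ 1 else 0) := by
    intro x
    by_cases hx : x ∈ H
    · by_cases hx1 : x = 1
      · subst hx1
        rw [if_pos hx, if_pos rfl, hξ1]; ring
      · rw [if_pos hx, if_neg hx1, hfC x hx hx1, add_zero]
    · have hx1 : x ≠ 1 := fun e => hx (e ▸ H.one_mem)
      rw [if_neg hx, if_neg hx1, vanish_off H hC hξ hrel hx]
      simp
  rw [Finset.sum_congr rfl (fun x _ => e x), Finset.sum_add_distrib, ← Finset.mul_sum,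
    ← map_sum, sum_eq_zero H hξ hrel, map_zero, mul_zero, zero_add, Finset.sum_ite_eq' ,
    if_pos (Finset.mem_univ _)]

open Classical in
/-- the non-relevant characters have squared degrees summing to the index -/
theorem sum_sq_nonrel [Fintype (IrrCharacter N)]
    (hC : ∀ h ∈ H, h ≠ 1 → Subgroup.centralizer ({h} : Set N) ≤ H) :
    ∑ χ : IrrCharacter N, (if ∃ h ∈ H, (χ : N → ℂ) h ≠ (χ : N → ℂ) 1 then 0 else
      (χ : N → ℂ) 1 ^ 2) = (H.index : ℂ) := by
  set D : ℂ := ∑ χ : IrrCharacter N, (if ∃ h ∈ H, (χ : N → ℂ) h ≠ (χ : N → ℂ) 1 then 0 else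
      (χ : N → ℂ) 1 ^ 2) with hD
  have hπ : ∀ x : N, ∑ χ : IrrCharacter N, (if ∃ h ∈ H, (χ : N → ℂ) h ≠ (χ : N → ℂ) 1 then 0 else
      (χ : N → ℂ) 1 * (χ : N → ℂ) x) = if x ∈ H then D else 0 := by
    intro x
    by_cases hx : x ∈ H
    · rw [if_pos hx, hD]
      apply Finset.sum_congr rfl
      intro χ _
      split_ifs with hrel
      · rfl
      · push Not at hrel
        rw [hrel x hx]; ring
    · rw [if_neg hx]
      have hx1 : x ≠ 1 := fun e => hx (e ▸ H.one_mem)
      refine Eq.trans ?_ (sum_deg_mul hx1)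
      apply Finset.sum_congr rfl
      intro χ _
      split_ifs with hrel
      · rw [vanish_off H hC χ.2 hrel hx, mul_zero]
      · rfl
  have hsum : ∑ x : N, ∑ χ : IrrCharacter N,
      (if ∃ h ∈ H, (χ : N → ℂ) h ≠ (χ : N → ℂ) 1 then 0 else
      (χ : N → ℂ) 1 * (χ : N → ℂ) x) = (Nat.card N : ℂ) := by
    rw [Finset.sum_comm, Finset.sum_eq_single (⟨fun _ => 1, isIrrCharacter_one⟩ : IrrCharacter N)]
    · rw [Finset.sum_congr rfl (fun x _ => if_neg (by simp))]
      simp [Nat.card_eq_fintype_card]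
    · intro χ _ hne
      split_ifs with hrel
      · simp
      · rw [← Finset.mul_sum]
        have h1 := classInner_irr_ne χ.2 (isIrrCharacter_one (G := N))
          (fun e => hne (Subtype.ext e))
        simp only [classInner, map_one, mul_one] at h1
        have hc : (Nat.card N : ℂ)⁻¹ ≠ 0 := inv_ne_zero (by exact_mod_cast Nat.card_pos.ne')
        rw [(mul_eq_zero.mp h1).resolve_left hc, mul_zero]
    · intro h; exact absurd (Finset.mem_univ _) h
  rw [Finset.sum_congr rfl (fun x _ => hπ x), sum_indicator_eq H (fun _ => D)] at hsum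
  simp only [Finset.sum_const, Finset.card_univ, nsmul_eq_mul] at hsum
  have hidx := H.card_mul_index
  have hH0 : (Nat.card H : ℂ) ≠ 0 := by exact_mod_cast Nat.card_pos.ne'
  rw [← Nat.card_eq_fintype_card] at hsum
  have : (Nat.card H : ℂ) * D = (Nat.card H : ℂ) * (H.index : ℂ) := by
    rw [hsum, ← hidx]; push_cast; ring
  exact mul_left_cancel₀ hH0 this

theorem sum_sq_all [Fintype (IrrCharacter N)] :
    ∑ χ : IrrCharacter N, (χ : N → ℂ) 1 ^ 2 = (Nat.card N : ℂ) := by
  have h := column_orthogonality_self (1 : N)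
  have e : Subgroup.centralizer ({1} : Set N) = ⊤ := by
    ext x; simp [Subgroup.mem_centralizer_singleton_iff]
  rw [e, Subgroup.card_top] at h
  rw [← h]
  apply Finset.sum_congr rfl
  intro χ _
  rw [conj_irr_one]; ring

end Cfsg.Agent.Lib.Helper24.TIFrob
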