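import Mathlib
import Cfsg.Agent.Lib.Helper24.Coherence4
import Cfsg.Agent.Lib.Helper24.TIFrob
import Cfsg.Agent.Lib.Helper25.AbQuot3
import Cfsg.Agent.Lib.Helper25.AbelianIndex
import Cfsg.Agent.Lib.Helper25.NotPerfect
import Cfsg.Agent.Lib.Helper25.Kernel2
import Cfsg.Agent.Lib.Helper2.CharMore
import Cfsg.Agent.S0154

set_option autoImplicit false
set_option linter.unusedSectionVars false
set_option linter.unusedSimpArgs false
open Cfsg
open scoped ComplexConjugate

namespace Cfsg.Agent.Lib.Helper24.Coh5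

open Cfsg.Agent.Lib.Helper7 Cfsg.Agent.Lib.Helper24.Coh

section general

variable {N : Type*} [Group N] [Fintype N] (H : Subgroup N) [hH : H.Normal]

open Classical in
/-- the characters with `H` in the kernel add up to the regular character of the quotient -/
theorem sum_ker_deg_mul [Fintype (IrrCharacter N)] (g : N) :
    ∑ χ : IrrCharacter N, (if ∀ n ∈ H, (χ : N → ℂ) n = (χ : N → ℂ) 1 then
      (χ : N → ℂ) 1 * (χ : N → ℂ) g else 0) = if g ∈ H then (H.index : ℂ) else 0 := by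
  have h1 : ∀ χ : IrrCharacter N, (if ∀ n ∈ H, (χ : N → ℂ) n = (χ : N → ℂ) 1 then
      (χ : N → ℂ) 1 * (χ : N → ℂ) g else 0) =
      (Nat.card H : ℂ)⁻¹ * ∑ n : H, (χ : N → ℂ) 1 * (χ : N → ℂ) ((n : N) * g) := by
    intro χ
    have := Cfsg.Agent.Lib.Helper25.avg_normal H χ.2 g
    rw [← Finset.mul_sum, mul_left_comm, this]
    split_ifs <;> simp
  rw [Finset.sum_congr rfl (fun χ _ => h1 χ), ← Finset.mul_sum, Finset.sum_comm]
  have h2 : ∀ n : H, ∑ χ : IrrCharacter N, (χ : N → ℂ) 1 * (χ : N → ℂ) ((n : N) * g) =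
      if (n : N) * g = 1 then (Nat.card N : ℂ) else 0 := by
    intro n
    split_ifs with h
    · rw [h, ← TIFrob.sum_sq_all]
      apply Finset.sum_congr rfl
      intros
      ring
    · exact TIFrob.sum_deg_mul h
  rw [Finset.sum_congr rfl (fun n _ => h2 n)]
  have hH0 : (Nat.card H : ℂ) ≠ 0 := by exact_mod_cast Nat.card_pos.ne'
  by_cases hg : g ∈ H
  · rw [if_pos hg, Finset.sum_eq_single (⟨g⁻¹, H.inv_mem hg⟩ : H)]
    · rw [if_pos (by simp), ← H.card_mul_index]
      push_cast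
      field_simp
    · intro n _ hn
      rw [if_neg]
      intro h
      apply hn
      apply Subtype.ext
      exact eq_inv_of_mul_eq_one_left h
    · intro h; exact absurd (Finset.mem_univ _) h
  · rw [if_neg hg, Finset.sum_eq_zero, mul_zero]
    intro n _
    rw [if_neg]
    intro h
    apply hg
    have : g = (n : N)⁻¹ := eq_inv_of_mul_eq_one_right h
    rw [this]
    exact H.inv_mem n.2

end general

/-- a proper normal subgroup of a solvable group lies in the kernel of a nonprincipal linear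
character -/
theorem exists_linear {K : Type*} [Group K] [Finite K] (hs : Group.IsSolvable K) (A : Subgroup K)
    [A.Normal] (hA : A ≠ ⊤) :
    ∃ θ : K → ℂ, IsIrrCharacter K θ ∧ θ ≠ (fun _ => 1) ∧ (∀ a ∈ A, θ a = θ 1) ∧ θ 1 = 1 := by
  classical
  have hc : commutator (K ⧸ A) ≠ ⊤ := by
    intro h
    have hsub := Cfsg.Agent.Lib.Helper25.subsingleton_of_perfect_of_solvable h
    apply hA
    rw [eq_top_iff]
    intro k _
    rw [← QuotientGroup.eq_one_iff]
    exact Subsingleton.elim _ _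
  have hcard := Cfsg.Agent.S0154.result (G := K ⧸ A)
  have hidx : 1 < (commutator (K ⧸ A)).index := by
    have h0 : (commutator (K ⧸ A)).index ≠ 0 := Subgroup.index_ne_zero_of_finite
    have h1 : (commutator (K ⧸ A)).index ≠ 1 := fun h => hc (Subgroup.index_eq_one.mp h)
    omega
  rw [← hcard] at hidx
  have : Finite (IrrCharacter (K ⧸ A)) := Cfsg.Agent.Lib.Helper25.finite_irrCharacter
  have hnt := (Finite.one_lt_card_iff_nontrivial).mp hidx
  obtain ⟨⟨η, hη1⟩, hne⟩ := exists_ne (⟨⟨fun _ => 1, isIrrCharacter_one⟩, rfl⟩ :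
    {χ : Cfsg.IrrCharacter (K ⧸ A) // (χ : K ⧸ A → ℂ) 1 = 1})
  refine ⟨fun x => (η : K ⧸ A → ℂ) (QuotientGroup.mk' A x),
    Cfsg.Agent.Lib.Helper25.isIrrCharacter_comp_surjective (QuotientGroup.mk' A)
      (QuotientGroup.mk'_surjective A) η.2, ?_, ?_, ?_⟩
  · intro h
    apply hne
    apply Subtype.ext
    apply Subtype.ext
    funext q
    obtain ⟨x, rfl⟩ := QuotientGroup.mk'_surjective A q
    exact congrFun h x
  · intro a ha
    show (η : K ⧸ A → ℂ) (QuotientGroup.mk' A a) = (η : K ⧸ A → ℂ) (QuotientGroup.mk' A 1)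
    rw [map_one]
    exact congrArg _ ((QuotientGroup.eq_one_iff a).mpr ha)
  · show (η : K ⧸ A → ℂ) (QuotientGroup.mk' A 1) = 1
    rw [map_one]
    exact hη1

/-- degree bound from a central section -/
theorem degree_bound {X : Type*} [Group X] [Fintype X] (C D : Subgroup X) (hDC : D ≤ C)
    {θ : X → ℂ} (hθ : IsIrrCharacter X θ)
    (hcent : ∀ x ∈ D, ∀ y ∈ C, θ (x * y * x⁻¹ * y⁻¹) = θ 1) {t : ℕ} (ht : θ 1 = t) :
    t ^ 2 * (Nat.card D * Nat.card C) ≤ Nat.card X ^ 2 := by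
  classical
  have hθc := isCharacter_of_irr hθ
  have hres := isCharacter_restrict hθc C
  have hne0 : (fun a : C => θ a) ≠ 0 := by
    intro h0
    have h1 := congrFun h0 1
    simp only [OneMemClass.coe_one, Pi.zero_apply] at h1
    exact irr_apply_one_ne_zero hθ h1
  obtain ⟨ψ, hψ, hne⟩ := Cfsg.Agent.Lib.Helper25.exists_irr_constituent hres hne0
  obtain ⟨s, hs0, hs⟩ := irr_apply_one hψ
  have h1 := Cfsg.Agent.Lib.Helper25.degree_le_index_mul hθ C hψ hne ht hs
  have h2 := Cfsg.Agent.Lib.Helper25.degree_sq_mul_card_le hψ (D.subgroupOf C) (by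
    intro d hd c
    apply Cfsg.Agent.Lib.Helper25.ker_constituent hres hψ hne
    exact hcent d hd c c.2)
  rw [hs, Complex.norm_natCast] at h2
  have h3 : Nat.card (D.subgroupOf C) = Nat.card D :=
    Nat.card_congr (Subgroup.subgroupOfEquivOfLe hDC).toEquiv
  rw [h3] at h2
  have h4 : s ^ 2 * Nat.card D ≤ Nat.card C := by exact_mod_cast h2
  have h5 := C.card_mul_index
  calc t ^ 2 * (Nat.card D * Nat.card C) ≤ (C.index * s) ^ 2 * (Nat.card D * Nat.card C) := by
        gcongr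
    _ = C.index ^ 2 * Nat.card C * (s ^ 2 * Nat.card D) := by ring
    _ ≤ C.index ^ 2 * Nat.card C * Nat.card C := by gcongr
    _ = (Nat.card C * C.index) ^ 2 := by ring
    _ = Nat.card X ^ 2 := by rw [h5]

section coh

variable {L : Type*} [Group L] [Fintype L] {G : Type*} [Group G] [Fintype G]

theorem coherent_mono {X Y : Set (L → ℂ)} {A : Set L} {τ : (L → ℂ) → (G → ℂ)} (hXY : X ⊆ Y)
    (hY : IsCoherent Y A τ) (hne : ∃ α ∈ zspanOn X A, α ≠ 0) : IsCoherent X A τ := by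
  obtain ⟨-, τ₁, ⟨h1, h2, h3, h4⟩, h5⟩ := hY
  have hz := zspan_mono hXY
  exact ⟨hne, τ₁, ⟨fun a ha b hb => h1 a (hz ha) b (hz hb), fun a ha n => h2 a (hz ha) n,
    fun a ha b hb => h3 a (hz ha) b (hz hb), fun a ha => h4 a (hz ha)⟩,
    fun a ha => h5 a (zspanOn_mono hXY ha)⟩

end coh

section ind

variable {L : Type*} [Group L] [Fintype L] (K : Subgroup L) [hK : K.Normal] [Fintype K]

theorem above_subset (A : Subgroup L) : inducedIrrAbove K A ⊆ inducedIrrAbove K ⊥ := by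
  rintro φ ⟨θ, h1, h2, -, h4⟩
  refine ⟨θ, h1, h2, ?_, h4⟩
  intro a ha
  have : a = 1 := Subtype.ext (Subgroup.mem_bot.mp ha)
  rw [this]

theorem conjFun_indFun (θ : K → ℂ) :
    Cfsg.conjFun (indFun K θ) = indFun K (fun k => conj (θ k)) := by
  funext g
  simp only [Cfsg.conjFun, indFun, map_mul, map_inv₀, map_natCast, map_sum]
  congr 1
  apply Finset.sum_congr rfl
  intro x _
  by_cases h : x⁻¹ * g * x ∈ K
  · rw [Cfsg.Agent.Lib.Helper25.extendByZero_mem K _ h,
      Cfsg.Agent.Lib.Helper25.extendByZero_mem K _ h]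
  · rw [Cfsg.Agent.Lib.Helper25.extendByZero_not_mem K _ h,
      Cfsg.Agent.Lib.Helper25.extendByZero_not_mem K _ h, map_zero]

theorem above_conj (A : Subgroup L) {φ : L → ℂ} (hφ : φ ∈ inducedIrrAbove K A) :
    Cfsg.conjFun φ ∈ inducedIrrAbove K A := by
  obtain ⟨θ, h1, h2, h3, rfl⟩ := hφ
  refine ⟨fun k => conj (θ k), Cfsg.Agent.Lib.Helper2.IsIrrCharacter.conj h1, ?_, ?_,
    conjFun_indFun K θ⟩
  · intro h
    apply h2
    funext k
    have := congrArg conj (congrFun h k)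
    simpa using this
  · intro a ha
    show conj (θ a) = conj (θ 1)
    rw [h3 a ha]

open Classical in
noncomputable def Th [Fintype (IrrCharacter K)] (A : Subgroup L) : Finset (IrrCharacter K) :=
  Finset.univ.filter (fun θ => (θ : K → ℂ) ≠ (fun _ => 1) ∧
    ∀ a : K, (a : L) ∈ A → (θ : K → ℂ) a = (θ : K → ℂ) 1)

open Classical in
noncomputable def SF [Fintype (IrrCharacter K)] (A : Subgroup L) : Finset (L → ℂ) :=
  (Th K A).image (fun θ : IrrCharacter K => indFun K (θ : K → ℂ))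

theorem mem_Th [Fintype (IrrCharacter K)] (A : Subgroup L) (θ : IrrCharacter K) :
    θ ∈ Th K A ↔ (θ : K → ℂ) ≠ (fun _ => 1) ∧
      ∀ a : K, (a : L) ∈ A → (θ : K → ℂ) a = (θ : K → ℂ) 1 := by
  simp [Th]

theorem coe_SF [Fintype (IrrCharacter K)] (A : Subgroup L) :
    (↑(SF K A) : Set (L → ℂ)) = inducedIrrAbove K A := by
  ext φ
  rw [Finset.mem_coe, SF, Finset.mem_image]
  constructor
  · rintro ⟨θ, h, rfl⟩
    rw [mem_Th] at h
    exact ⟨θ, θ.2, h.1, h.2, rfl⟩
  · rintro ⟨θ, h1, h2, h3, rfl⟩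
    exact ⟨⟨θ, h1⟩, (mem_Th K A _).mpr ⟨h2, h3⟩, rfl⟩

/-- members of `S(A)` are constant on `A` -/
theorem ind_const (A : Subgroup L) [hA : A.Normal] {θ : K → ℂ}
    (h : ∀ a : K, (a : L) ∈ A → θ a = θ 1) (a : K) (ha : (a : L) ∈ A) :
    indFun K θ a = indFun K θ 1 := by
  have e1 := Cfsg.Agent.Lib.Helper25.indFun_coe_eq_sum_conjFun K θ a
  have e2 := Cfsg.Agent.Lib.Helper25.indFun_coe_eq_sum_conjFun K θ 1
  rw [OneMemClass.coe_one] at e2
  rw [e1, e2]
  congr 1
  apply Finset.sum_congr rfl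
  intro x _
  rw [Cfsg.Agent.Lib.Helper25.conjFun_apply, Cfsg.Agent.Lib.Helper25.conjFun_apply,
    h _ (hA.conj_mem a ha x)]
  congr 1
  apply Subtype.ext
  simp

/-- members of `S` sum to zero over `K` -/
theorem ind_sum_zero {θ : K → ℂ} (hθ : IsIrrCharacter K θ) (hne : θ ≠ fun _ => 1) :
    ∑ k : K, indFun K θ k = 0 := by
  have h0 : ∑ k : K, θ k = 0 := by
    have h1 := classInner_irr_ne hθ (isIrrCharacter_one (G := K)) hne
    simp only [classInner, map_one, mul_one] at h1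
    have hc : (Nat.card K : ℂ)⁻¹ ≠ 0 := inv_ne_zero (by exact_mod_cast Nat.card_pos.ne')
    exact (mul_eq_zero.mp h1).resolve_left hc
  simp_rw [Cfsg.Agent.Lib.Helper25.indFun_coe_eq_sum_conjFun K θ]
  rw [← Finset.mul_sum, Finset.sum_comm]
  apply mul_eq_zero_of_right
  apply Finset.sum_eq_zero
  intro x _
  rw [← h0]
  exact Fintype.sum_equiv (MulAut.conjNormal x).toEquiv _ _ (fun k => rfl)

open Classical in
/-- the weighted sum of the characters in `Th` -/
theorem sum_Th [Fintype (IrrCharacter K)] (A : Subgroup L) [hA : A.Normal] (k : K) :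
    ∑ θ ∈ Th K A, (θ : K → ℂ) 1 * (θ : K → ℂ) k =
      (if (k : L) ∈ A then (A.relIndex K : ℂ) else 0) - 1 := by
  have h := sum_ker_deg_mul (A.subgroupOf K) k
  have e : ∀ χ : IrrCharacter K, (if ∀ n ∈ A.subgroupOf K, (χ : K → ℂ) n = (χ : K → ℂ) 1 then
      (χ : K → ℂ) 1 * (χ : K → ℂ) k else 0) =
      (if χ ∈ Th K A then (χ : K → ℂ) 1 * (χ : K → ℂ) k else 0) +
      (if χ = ⟨fun _ => 1, isIrrCharacter_one⟩ then 1 else 0) := by
    intro χ
    by_cases h1 : χ = ⟨fun _ => 1, isIrrCharacter_one⟩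
    · subst h1
      rw [if_pos (by simp), if_neg (by simp [mem_Th]), if_pos rfl]
      simp
    · rw [if_neg h1, add_zero]
      have h1' : (χ : K → ℂ) ≠ fun _ => 1 := fun e => h1 (Subtype.ext e)
      by_cases h2 : ∀ n ∈ A.subgroupOf K, (χ : K → ℂ) n = (χ : K → ℂ) 1
      · rw [if_pos h2, if_pos]
        rw [mem_Th]
        exact ⟨h1', fun a ha => h2 a (Subgroup.mem_subgroupOf.mpr ha)⟩
      · rw [if_neg h2, if_neg]
        rw [mem_Th]
        rintro ⟨-, h3⟩
        exact h2 (fun a ha => h3 a (Subgroup.mem_subgroupOf.mp ha))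
  rw [Finset.sum_congr rfl (fun χ _ => e χ), Finset.sum_add_distrib, Finset.sum_ite_mem,
    Finset.univ_inter, Finset.sum_ite_eq' Finset.univ, if_pos (Finset.mem_univ _)] at h
  rw [eq_sub_iff_add_eq, h]
  simp only [Subgroup.mem_subgroupOf, Subgroup.relIndex]

open Classical in
theorem inner_Psi [Fintype (IrrCharacter K)] (A : Subgroup L) [hA : A.Normal] {φ : L → ℂ}
    (hφ : φ ∈ inducedIrrAbove K A) :
    classInner (∑ θ ∈ Th K A, (θ : K → ℂ) 1 • indFun K (θ : K → ℂ)) φ = conj (φ 1) := by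
  obtain ⟨θ₀, h1, h2, h3, rfl⟩ := hφ
  have hcl := Cfsg.Agent.Lib.Helper25.indFun_isClassFunction K θ₀
  rw [classInner_sum_left]
  simp_rw [classInner_smul_left, Cfsg.Agent.Lib.Helper25.frobenius_reciprocity K _ _ hcl]
  simp only [classInner]
  have e1 : ∑ θ ∈ Th K A, (θ : K → ℂ) 1 * ((Nat.card K : ℂ)⁻¹ *
      ∑ k : K, (θ : K → ℂ) k * conj (indFun K θ₀ k)) =
      (Nat.card K : ℂ)⁻¹ * ∑ k : K, (∑ θ ∈ Th K A, (θ : K → ℂ) 1 * (θ : K → ℂ) k) *
        conj (indFun K θ₀ k) := by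
    simp_rw [Finset.mul_sum, Finset.sum_mul]
    rw [Finset.sum_comm]
    apply Finset.sum_congr rfl
    intro k _
    rw [Finset.mul_sum]
    apply Finset.sum_congr rfl
    intro θ _
    ring
  rw [e1]
  simp_rw [sum_Th K A]
  have e2 : ∀ k : K, ((if (k : L) ∈ A then (A.relIndex K : ℂ) else 0) - 1) *
      conj (indFun K θ₀ k) =
      (if k ∈ A.subgroupOf K then (A.relIndex K : ℂ) * conj (indFun K θ₀ 1) else 0) -
        conj (indFun K θ₀ k) := by
    intro k
    by_cases hk : (k : L) ∈ A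
    · rw [if_pos hk, if_pos (Subgroup.mem_subgroupOf.mpr hk), ind_const K A h3 k hk]
      ring
    · rw [if_neg hk, if_neg (fun h => hk (Subgroup.mem_subgroupOf.mp h))]
      ring
  rw [Finset.sum_congr rfl (fun k _ => e2 k), Finset.sum_sub_distrib, ← map_sum,
    ind_sum_zero K h1 h2, map_zero, sub_zero,
    TIFrob.sum_indicator_eq (A.subgroupOf K) (fun _ => (A.relIndex K : ℂ) * conj (indFun K θ₀ 1)),
    Finset.sum_const, Finset.card_univ, nsmul_eq_mul, ← Nat.card_eq_fintype_card]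
  have hidx := (A.subgroupOf K).card_mul_index
  have hK0 : (Nat.card K : ℂ) ≠ 0 := by exact_mod_cast Nat.card_pos.ne'
  have : (Nat.card (A.subgroupOf K) : ℂ) * (A.relIndex K : ℂ) = (Nat.card K : ℂ) := by
    rw [← hidx]; push_cast; rfl
  rw [← mul_assoc, ← mul_assoc, mul_assoc (Nat.card K : ℂ)⁻¹, this, inv_mul_cancel₀ hK0, one_mul]

open Classical in
/-- the weight of `S(A)` -/
theorem sum_sq_div [Fintype (IrrCharacter K)] (A : Subgroup L) [hA : A.Normal]
    (horth : ∀ χ ∈ inducedIrrAbove K A, ∀ φ ∈ inducedIrrAbove K A, χ ≠ φ → classInner χ φ = 0)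
    (hnorm : ∀ χ ∈ inducedIrrAbove K A, classInner χ χ ≠ 0)
    (hreal : ∀ χ ∈ inducedIrrAbove K A, conj (χ 1) = χ 1) :
    ∑ φ ∈ SF K A, φ 1 ^ 2 / classInner φ φ = (K.index : ℂ) * ((A.relIndex K : ℂ) - 1) := by
  set Ψ : L → ℂ := ∑ θ ∈ Th K A, (θ : K → ℂ) 1 • indFun K (θ : K → ℂ) with hΨ
  let c : (L → ℂ) → ℂ := fun φ =>
    ∑ θ ∈ (Th K A).filter (fun θ : IrrCharacter K => indFun K (θ : K → ℂ) = φ), (θ : K → ℂ) 1
  have hdec : ∑ φ ∈ SF K A, c φ • φ = Ψ := by
    rw [hΨ, SF]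
    apply Finset.sum_image'
    intro θ _
    show (∑ θ' ∈ (Th K A).filter (fun θ' : IrrCharacter K =>
      indFun K (θ' : K → ℂ) = indFun K (θ : K → ℂ)), (θ' : K → ℂ) 1) • indFun K (θ : K → ℂ) = _
    rw [Finset.sum_smul]
    apply Finset.sum_congr rfl
    intro θ' hθ'
    rw [(Finset.mem_filter.mp hθ').2]
  have hmem : ∀ φ ∈ SF K A, φ ∈ inducedIrrAbove K A := by
    intro φ hφ
    rw [← coe_SF]
    exact hφ
  have hc : ∀ φ ∈ SF K A, c φ * classInner φ φ = φ 1 := by
    intro φ hφ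
    have h1 := inner_Psi K A (hmem φ hφ)
    rw [← hΨ, ← hdec, classInner_sum_left, Finset.sum_eq_single φ, classInner_smul_left,
      hreal φ (hmem φ hφ)] at h1
    · exact h1
    · intro χ hχ hne
      rw [classInner_smul_left, horth χ (hmem χ hχ) φ (hmem φ hφ) hne, mul_zero]
    · intro h; exact absurd hφ h
  have hΨ1 : Ψ 1 = (K.index : ℂ) * ((A.relIndex K : ℂ) - 1) := by
    have := sum_Th K A 1
    rw [OneMemClass.coe_one, if_pos A.one_mem] at this
    rw [← this, hΨ, Finset.sum_apply, Finset.mul_sum]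
    apply Finset.sum_congr rfl
    intro θ _
    rw [Pi.smul_apply, Cfsg.Agent.Lib.Helper25.indFun_one, smul_eq_mul]
    ring
  rw [← hΨ1, ← hdec, Finset.sum_apply]
  apply Finset.sum_congr rfl
  intro φ hφ
  rw [Pi.smul_apply, smul_eq_mul, ← hc φ hφ]
  have := hnorm φ (hmem φ hφ)
  field_simp

end ind

end Cfsg.Agent.Lib.Helper24.Coh5
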