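import Mathlib
import Cfsg.Agent.Lib.Helper24.Coherence5
import Cfsg.Agent.Lib.Helper25.Clifford
import Cfsg.Agent.S1520

set_option autoImplicit false
set_option linter.unusedSectionVars false
set_option linter.unusedSimpArgs false
open Cfsg
open scoped ComplexConjugate commutatorElement

namespace Cfsg.Agent.Lib.Helper24.Coh6

open Cfsg.Agent.Lib.Helper7 Cfsg.Agent.Lib.Helper24.Coh Cfsg.Agent.Lib.Helper24.Coh5

section sys

variable {L : Type*} [Group L] [Fintype L] {G : Type*} [Group G] [Fintype G]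

theorem sys_mono {S S' : Set (L → ℂ)} {τ : (L → ℂ) → (G → ℂ)} {R : (L → ℂ) → Finset (G → ℂ)}
    (hS : IsCoherenceSystem S τ R) (hsub : S' ⊆ S) (hne : S'.Nonempty)
    (hconj : ∀ χ ∈ S', Cfsg.conjFun χ ∈ S') : IsCoherenceSystem S' τ R := by
  have hz : zspanOn S' {1}ᶜ ⊆ zspanOn S {1}ᶜ := zspanOn_mono hsub
  obtain ⟨i1, i2, i3, i4⟩ := hS.isometry
  exact
    { nonempty := hne
      isCharacter := fun χ hχ => hS.isCharacter χ (hsub hχ)
      conj_mem := hconj
      conj_ne := fun χ hχ => hS.conj_ne χ (hsub hχ)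
      isometry := ⟨fun a ha b hb => i1 a (hz ha) b (hz hb), fun a ha n => i2 a (hz ha) n,
        fun a ha b hb => i3 a (hz ha) b (hz hb), fun a ha => i4 a (hz ha)⟩
      map_one := fun a ha => hS.map_one a (hz ha)
      orthogonal := fun χ hχ φ hφ => hS.orthogonal χ (hsub hχ) φ (hsub hφ)
      orthonormal := fun χ hχ => hS.orthonormal χ (hsub hχ)
      virtual := fun χ hχ => hS.virtual χ (hsub hχ)
      sum_eq := fun χ hχ => hS.sum_eq χ (hsub hχ)
      disjoint := fun χ hχ φ hφ => hS.disjoint χ (hsub hχ) φ (hsub hφ) }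

end sys

section frob

variable {L : Type*} [Group L] [Fintype L] (K H₁ : Subgroup L) [hK : K.Normal] [hH : H₁.Normal]

theorem frob_surj (hKK : ⁅K, K⁆ ≤ H₁)
    (hfrob : ∀ k ∈ K, k ∉ H₁ → ∀ x : L, x * k * x⁻¹ * k⁻¹ ∈ H₁ → x ∈ K) (g : L) (hg : g ∉ K)
    (k' : K) : ∃ k : K, (QuotientGroup.mk' (H₁.subgroupOf K))
      ((⟨g * k * g⁻¹, hK.conj_mem k k.2 g⟩ : K) * k⁻¹) = QuotientGroup.mk' (H₁.subgroupOf K) k' := by
  set π := QuotientGroup.mk' (H₁.subgroupOf K) with hπ
  have hcomm : ∀ a b : K ⧸ H₁.subgroupOf K, a * b = b * a := by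
    intro a b
    obtain ⟨x, rfl⟩ := QuotientGroup.mk'_surjective _ a
    obtain ⟨y, rfl⟩ := QuotientGroup.mk'_surjective _ b
    rw [← map_mul, ← map_mul]
    apply (QuotientGroup.eq).mpr
    rw [Subgroup.mem_subgroupOf]
    have : (((x * y)⁻¹ * (y * x) : K) : L) = ⁅(y : L)⁻¹, (x : L)⁻¹⁆ := by
      rw [commutatorElement_def]
      push_cast
      group
    rw [this]
    exact hKK (Subgroup.commutator_mem_commutator (K.inv_mem y.2) (K.inv_mem x.2))
  let cj : K → K := fun k => ⟨g * k * g⁻¹, hK.conj_mem k k.2 g⟩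
  have hcj : ∀ a b : K, cj (a * b) = cj a * cj b := by
    intro a b
    apply Subtype.ext
    show g * (a * b) * g⁻¹ = (g * a * g⁻¹) * (g * b * g⁻¹)
    group
  let c : K →* K ⧸ H₁.subgroupOf K := MonoidHom.mk' (fun k => π (cj k) * (π k)⁻¹) (by
    intro a b
    simp only [hcj, map_mul, mul_inv_rev]
    rw [mul_assoc (π (cj a)) (π (cj b)), mul_assoc (π (cj a)) (π a)⁻¹]
    congr 1
    rw [hcomm (π b)⁻¹ (π a)⁻¹, ← mul_assoc, hcomm (π (cj b)) (π a)⁻¹, mul_assoc])
  have hc1 : ∀ x ∈ H₁.subgroupOf K, c x = 1 := by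
    intro x hx
    have h1 : π x = 1 := (QuotientGroup.eq_one_iff _).mpr hx
    have h2 : π (cj x) = 1 := (QuotientGroup.eq_one_iff _).mpr
      (Subgroup.mem_subgroupOf.mpr (hH.conj_mem x (Subgroup.mem_subgroupOf.mp hx) g))
    show π (cj x) * (π x)⁻¹ = 1
    rw [h1, h2]
    simp
  let cl := QuotientGroup.lift (H₁.subgroupOf K) c hc1
  have hinj : Function.Injective cl := by
    rw [injective_iff_map_eq_one]
    intro y hy
    obtain ⟨k, rfl⟩ := QuotientGroup.mk'_surjective _ y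
    have h1 : π (cj k) * (π k)⁻¹ = 1 := hy
    rw [← map_inv, ← map_mul] at h1
    have h2 := Subgroup.mem_subgroupOf.mp ((QuotientGroup.eq_one_iff _).mp h1)
    apply (QuotientGroup.eq_one_iff _).mpr
    rw [Subgroup.mem_subgroupOf]
    by_contra hk
    exact hg (hfrob k k.2 hk g h2)
  have hsurj := Finite.injective_iff_surjective.mp hinj
  obtain ⟨y, hy⟩ := hsurj (π k')
  obtain ⟨k, rfl⟩ := QuotientGroup.mk'_surjective _ y
  refine ⟨k, ?_⟩
  rw [map_mul, map_inv]
  exact hy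

theorem ind_norm_one [Fintype K] (hKK : ⁅K, K⁆ ≤ H₁)
    (hfrob : ∀ k ∈ K, k ∉ H₁ → ∀ x : L, x * k * x⁻¹ * k⁻¹ ∈ H₁ → x ∈ K)
    {θ : K → ℂ} (hθ : IsIrrCharacter K θ) (hne : θ ≠ fun _ => 1)
    (hker : ∀ a : K, (a : L) ∈ H₁ → θ a = θ 1) :
    θ 1 = 1 ∧ classInner (indFun K θ) (indFun K θ) = 1 := by
  have h1 : θ 1 = 1 := Cfsg.Agent.Lib.Helper25.linear_of_abelian_mod_ker hθ (by
    intro x y
    apply hker
    have : ((x * y * x⁻¹ * y⁻¹ : K) : L) = ⁅(x : L), (y : L)⁆ := by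
      rw [commutatorElement_def]; rfl
    rw [this]
    exact hKK (Subgroup.commutator_mem_commutator x.2 y.2))
  refine ⟨h1, ?_⟩
  have hθc := isCharacter_of_irr hθ
  obtain ⟨f, hf⟩ := exists_hom_of_linear hθc h1
  have hcard := Cfsg.Agent.Lib.Helper25.card_mul_classInner_indFun_self K hθ
  have hset : Nat.card {g : L // ∀ h : K, θ ⟨g * h * g⁻¹, hK.conj_mem h h.2 g⟩ = θ h} =
      Nat.card K := by
    apply Nat.card_congr
    apply Equiv.subtypeEquivRight
    intro g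
    constructor
    · intro hg
      by_contra hgK
      apply hne
      funext k'
      obtain ⟨k, hk⟩ := frob_surj K H₁ hKK hfrob g hgK k'
      have h2 := Subgroup.mem_subgroupOf.mp ((QuotientGroup.eq).mp hk)
      have h3 : θ k' = θ ((⟨g * k * g⁻¹, hK.conj_mem k k.2 g⟩ : K) * k⁻¹) := by
        have := Cfsg.Agent.Lib.Helper25.char_mul_of_mem_ker' hθc (hker _ h2)
          ((⟨g * k * g⁻¹, hK.conj_mem k k.2 g⟩ : K) * k⁻¹)
        rw [← this]
        congr 1
        group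
      rw [h3, hf, map_mul, map_inv]
      have h4 : f ⟨g * k * g⁻¹, hK.conj_mem k k.2 g⟩ = f k := by
        apply Units.ext
        rw [← hf, ← hf]
        exact hg k
      rw [h4]
      simp
    · intro hg h
      have := isClassFunction_of_isCharacter hθc h ⟨g, hg⟩
      rw [← this]
      rfl
  rw [hset] at hcard
  have hK0 : (Nat.card K : ℂ) ≠ 0 := by exact_mod_cast Nat.card_pos.ne'
  exact mul_left_cancel₀ hK0 (by rw [hcard, mul_one])

end frob

theorem two_e {e x : ℕ} (he : Odd e) (hx : Odd x) (hx1 : 1 < x) (hdvd : e ∣ x - 1) :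
    2 * e + 1 ≤ x := by
  obtain ⟨t, ht⟩ := hdvd
  rcases Nat.even_or_odd t with ⟨s, hs⟩ | hodd
  · have hs0 : 0 < s := by
      rcases Nat.eq_zero_or_pos s with rfl | h
      · simp [hs] at ht; omega
      · exact h
    have : 2 * e ≤ e * t := by rw [hs]; nlinarith
    omega
  · obtain ⟨z, hz⟩ := he.mul hodd
    obtain ⟨m, hm⟩ := hx
    omega

section count

variable {L : Type*} [Group L] [Fintype L] {G : Type*} [Group G] [Fintype G]
  (K H₁ : Subgroup L) [hK : K.Normal] [hH : H₁.Normal]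

theorem relIndex_eq [Fintype K] [Fintype (IrrCharacter K)] {τ : (L → ℂ) → (G → ℂ)}
    {R : (L → ℂ) → Finset (G → ℂ)} (hS : IsCoherenceSystem (inducedIrrAbove K ⊥) τ R)
    (hKK : ⁅K, K⁆ ≤ H₁)
    (hfrob : ∀ k ∈ K, k ∉ H₁ → ∀ x : L, x * k * x⁻¹ * k⁻¹ ∈ H₁ → x ∈ K)
    (N : Subgroup L) [N.Normal] (hN : H₁ ≤ N) :
    N.relIndex K = K.index * (SF K N).card + 1 := by
  have hsub := above_subset K N
  have hd : ∀ φ ∈ inducedIrrAbove K N, φ 1 = (K.index : ℂ) ∧ classInner φ φ = 1 := by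
    rintro φ ⟨θ, h1, h2, h3, rfl⟩
    obtain ⟨e1, e2⟩ := ind_norm_one K H₁ hKK hfrob h1 h2 (fun a ha => h3 a (hN ha))
    exact ⟨by rw [Cfsg.Agent.Lib.Helper25.indFun_one, e1, mul_one], e2⟩
  have h := sum_sq_div K N
    (fun χ hχ φ hφ hne => hS.orthogonal χ (hsub hχ) φ (hsub hφ) hne)
    (fun χ hχ => sys_ne_zero hS (hsub hχ))
    (fun χ hχ => by rw [(hd χ hχ).1]; simp)
  have e : ∀ φ ∈ SF K N, φ 1 ^ 2 / classInner φ φ = (K.index : ℂ) ^ 2 := by
    intro φ hφ
    have hφ' : φ ∈ inducedIrrAbove K N := by rw [← coe_SF]; exact hφ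
    rw [(hd φ hφ').1, (hd φ hφ').2, div_one]
  rw [Finset.sum_congr rfl e, Finset.sum_const, nsmul_eq_mul] at h
  have he0 : (K.index : ℂ) ≠ 0 := by
    exact_mod_cast (Subgroup.index_ne_zero_of_finite : K.index ≠ 0)
  have h2 : ((SF K N).card : ℂ) * (K.index : ℂ) = (N.relIndex K : ℂ) - 1 := by
    apply mul_left_cancel₀ he0
    rw [← h]; ring
  have h3 : ((N.relIndex K : ℕ) : ℂ) = ((K.index * (SF K N).card + 1 : ℕ) : ℂ) := by
    push_cast
    linear_combination -h2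
  exact_mod_cast h3

end count

section grp

/-- a nilpotent group whose abelianisation is a `p`-group is a `p`-group -/
theorem nilP {K : Type*} [Group K] [Finite K] (M T : Subgroup K) [M.Normal]
    (hn : Group.IsNilpotent (K ⧸ M)) (hT : T ≤ commutator K ⊔ M) (p : ℕ)
    [hp : Fact p.Prime] (j : ℕ) (hidx : T.index = p ^ j) : ∃ m, M.index = p ^ m := by
  obtain ⟨P⟩ : Nonempty (Sylow p (K ⧸ M)) := inferInstance
  rcases eq_top_or_exists_le_coatom (P : Subgroup (K ⧸ M)) with htop | ⟨Hm, hco, hle⟩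
  · obtain ⟨n, hn'⟩ := (IsPGroup.iff_card).mp P.2
    refine ⟨n, ?_⟩
    rw [Subgroup.index_eq_card, ← hn', htop, Subgroup.card_top]
  · exfalso
    have hnorm : Hm.Normal := 
      ((Group.isNilpotent_of_finite_tfae (G := K ⧸ M)).out 0 2 rfl rfl).mp hn Hm hco
    have hcq : commutator ((K ⧸ M) ⧸ Hm) ≠ ⊤ := by
      intro h
      have hsub := Cfsg.Agent.Lib.Helper25.subsingleton_of_perfect_of_solvable h
      apply hco.1
      rw [eq_top_iff]
      intro k _
      rw [← QuotientGroup.eq_one_iff]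
      exact Subsingleton.elim _ _
    have hV : (commutator ((K ⧸ M) ⧸ Hm)).comap (QuotientGroup.mk' Hm) = Hm := by
      by_contra hne
      have hle' : Hm ≤ (commutator ((K ⧸ M) ⧸ Hm)).comap (QuotientGroup.mk' Hm) := by
        intro x hx
        rw [Subgroup.mem_comap]
        have : QuotientGroup.mk' Hm x = 1 := (QuotientGroup.eq_one_iff _).mpr hx
        rw [this]
        exact one_mem _
      have htop := hco.2 _ (lt_of_le_of_ne hle' (Ne.symm hne))
      apply hcq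
      rw [eq_top_iff]
      intro y _
      obtain ⟨x, rfl⟩ := QuotientGroup.mk'_surjective _ y
      have : x ∈ (commutator ((K ⧸ M) ⧸ Hm)).comap (QuotientGroup.mk' Hm) := by
        rw [htop]; exact Subgroup.mem_top _
      exact this
    have hcX : commutator (K ⧸ M) ≤ Hm := by
      rw [← hV, commutator_def, Subgroup.commutator_le]
      intro a _ b _
      rw [Subgroup.mem_comap, map_commutatorElement, commutator_def]
      exact Subgroup.commutator_mem_commutator (Subgroup.mem_top _) (Subgroup.mem_top _)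
    have hidx1 : (Hm.comap (QuotientGroup.mk' M)).index = Hm.index :=
      Subgroup.index_comap_of_surjective Hm (QuotientGroup.mk'_surjective M)
    have hTle : T ≤ Hm.comap (QuotientGroup.mk' M) := by
      refine hT.trans (sup_le ?_ ?_)
      · rw [commutator_def, Subgroup.commutator_le]
        intro a _ b _
        rw [Subgroup.mem_comap, map_commutatorElement]
        apply hcX
        rw [commutator_def]
        exact Subgroup.commutator_mem_commutator (Subgroup.mem_top _) (Subgroup.mem_top _)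
      · intro x hx
        rw [Subgroup.mem_comap]
        have : QuotientGroup.mk' M x = 1 := (QuotientGroup.eq_one_iff _).mpr hx
        rw [this]
        exact one_mem _
    have hd1 : Hm.index ∣ p ^ j := by
      rw [← hidx, ← hidx1]
      exact Subgroup.index_dvd_of_le hTle
    have hd2 : Hm.index ∣ (P : Subgroup (K ⧸ M)).index := Subgroup.index_dvd_of_le hle
    have hnd : ¬ p ∣ Hm.index := fun h => P.not_dvd_index (h.trans hd2)
    obtain ⟨i, -, hi⟩ := (Nat.dvd_prime_pow hp.1).mp hd1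
    have hi0 : i = 0 := by
      by_contra h0
      apply hnd
      rw [hi]
      exact dvd_pow_self p h0
    rw [hi0, pow_zero] at hi
    exact hco.1 (Subgroup.index_eq_one.mp hi)

theorem exists_between {L : Type*} [Group L] [Finite L] (K H₁ : Subgroup L) [hK : K.Normal]
    [hH : H₁.Normal] (hKK : ⁅K, K⁆ ≤ H₁) (hlt : H₁ < K)
    (hnp : ¬ ∃ p j : ℕ, p.Prime ∧ H₁.relIndex K = p ^ j) :
    ∃ N : Subgroup L, N.Normal ∧ H₁ < N ∧ N < K := by
  have ha1 : H₁.relIndex K ≠ 1 := fun h => not_le_of_gt hlt (Subgroup.relIndex_eq_one.mp h)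
  set p := (H₁.relIndex K).minFac with hp
  have hpp : p.Prime := Nat.minFac_prime ha1
  have : Fact p.Prime := ⟨hpp⟩
  have hpd : p ∣ H₁.relIndex K := Nat.minFac_dvd _
  set π := QuotientGroup.mk' H₁ with hπ
  have hπ1 : ∀ x : L, π x = 1 ↔ x ∈ H₁ := fun x => QuotientGroup.eq_one_iff x
  have hcomm : ∀ a ∈ K, ∀ b ∈ K, Commute (π a) (π b) := by
    intro x hx y hy
    show π x * π y = π y * π x
    rw [← map_mul, ← map_mul]
    apply (QuotientGroup.eq).mpr
    have : (x * y)⁻¹ * (y * x) = ⁅y⁻¹, x⁻¹⁆ := by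
      rw [commutatorElement_def]
      group
    rw [this]
    exact hKK (Subgroup.commutator_mem_commutator (K.inv_mem hy) (K.inv_mem hx))
  let N : Subgroup L :=
    { carrier := {k | k ∈ K ∧ ∃ j : ℕ, (π k) ^ (p ^ j) = 1}
      mul_mem' := by
        rintro a b ⟨ha, j, hj⟩ ⟨hb, j', hj'⟩
        refine ⟨K.mul_mem ha hb, j + j', ?_⟩
        rw [map_mul, (hcomm a ha b hb).mul_pow, pow_add, pow_mul, hj, one_pow, one_mul,
          mul_comm (p ^ j), pow_mul, hj', one_pow]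
      one_mem' := ⟨K.one_mem, 0, by simp⟩
      inv_mem' := by
        rintro a ⟨ha, j, hj⟩
        exact ⟨K.inv_mem ha, j, by rw [map_inv, inv_pow, hj, inv_one]⟩ }
  have hmemN : ∀ k, k ∈ N ↔ k ∈ K ∧ ∃ j : ℕ, (π k) ^ (p ^ j) = 1 := fun k => Iff.rfl
  have hcardY : Nat.card (K ⧸ H₁.subgroupOf K) = H₁.relIndex K := rfl
  refine ⟨N, ⟨?_⟩, lt_of_le_of_ne ?_ ?_, lt_of_le_of_ne ?_ ?_⟩
  · rintro k ⟨hk, j, hj⟩ g
    refine ⟨hK.conj_mem k hk g, j, ?_⟩
    rw [map_mul, map_mul, map_inv, conj_pow, hj]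
    simp
  · intro h hh
    exact ⟨hlt.le hh, 0, by rw [(hπ1 h).mpr hh]; simp⟩
  · intro heq
    obtain ⟨y, hy⟩ := exists_prime_orderOf_dvd_card' (G := K ⧸ H₁.subgroupOf K) p
      (by rw [hcardY]; exact hpd)
    obtain ⟨k, rfl⟩ := QuotientGroup.mk'_surjective _ y
    have h1 : (QuotientGroup.mk' (H₁.subgroupOf K) k) ^ p = 1 := by
      rw [← hy]; exact pow_orderOf_eq_one _
    rw [← map_pow] at h1
    have h2 : ((k : L)) ^ p ∈ H₁ := by
      have := Subgroup.mem_subgroupOf.mp ((QuotientGroup.eq_one_iff _).mp h1)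
      simpa using this
    have h3 : (k : L) ∈ N := ⟨k.2, 1, by rw [pow_one, ← map_pow]; exact (hπ1 _).mpr h2⟩
    rw [← heq] at h3
    have h4 : QuotientGroup.mk' (H₁.subgroupOf K) k = 1 :=
      (QuotientGroup.eq_one_iff _).mpr (Subgroup.mem_subgroupOf.mpr h3)
    rw [h4, orderOf_one] at hy
    exact hpp.one_lt.ne hy
  · intro k hk
    exact hk.1
  · intro heq
    apply hnp
    have hpg : IsPGroup p (K ⧸ H₁.subgroupOf K) := by
      intro y
      obtain ⟨k, rfl⟩ := QuotientGroup.mk'_surjective _ y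
      have hk : (k : L) ∈ N := by rw [heq]; exact k.2
      obtain ⟨-, j, hj⟩ := hk
      refine ⟨j, ?_⟩
      rw [← map_pow]
      apply (QuotientGroup.eq_one_iff _).mpr
      rw [Subgroup.mem_subgroupOf]
      rw [← map_pow] at hj
      have := (hπ1 _).mp hj
      simpa using this
    obtain ⟨n, hn⟩ := (IsPGroup.iff_card).mp hpg
    exact ⟨p, n, hpp, by rw [← hcardY]; exact hn⟩

theorem comm_le_of_prime {L : Type*} [Group L] [Finite L] (K M : Subgroup L) [hK : K.Normal]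
    [hM : M.Normal] (hMK : M ≤ K) [(M.subgroupOf K).Normal]
    (hnil : Group.IsNilpotent (↥K ⧸ M.subgroupOf K)) (p : ℕ) (hp : p.Prime)
    (hidx : (⁅K, K⁆ ⊔ M).relIndex K = p) : ⁅K, K⁆ ≤ M := by
  have : Fact p.Prime := ⟨hp⟩
  apply Cfsg.Agent.S1520.nil_step M K ⁅K, K⁆ hnil (Subgroup.commutator_le_left K K) hMK
  set Γ : Subgroup L := ⁅⁅K, K⁆, K⁆ ⊔ M with hΓ
  set π := QuotientGroup.mk' Γ with hπ
  have hπ1 : ∀ x : L, π x = 1 ↔ x ∈ Γ := fun x => QuotientGroup.eq_one_iff x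
  have hH₁K : ⁅K, K⁆ ⊔ M ≤ K := sup_le (Subgroup.commutator_le_left K K) hMK
  have hZ : ∀ u ∈ ⁅K, K⁆ ⊔ M, ∀ k ∈ K, Commute (π u) (π k) := by
    have hle : ⁅K, K⁆ ⊔ M ≤ (Subgroup.centralizer ((K.map π : Subgroup (L ⧸ Γ)) : Set (L ⧸ Γ))).comap π := by
      refine sup_le ?_ ?_
      · intro u hu
        rw [Subgroup.mem_comap, Subgroup.mem_centralizer_iff]
        rintro _ ⟨k, hk, rfl⟩
        have h1 : π ⁅u, k⁆ = 1 := (hπ1 _).mpr
          ((le_sup_left : ⁅⁅K, K⁆, K⁆ ≤ Γ) (Subgroup.commutator_mem_commutator hu hk))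
        rw [map_commutatorElement, commutatorElement_eq_one_iff_mul_comm] at h1
        exact h1.symm
      · intro u hu
        rw [Subgroup.mem_comap, (hπ1 u).mpr ((le_sup_right : M ≤ Γ) hu)]
        exact one_mem _
    intro u hu k hk
    have := Subgroup.mem_centralizer_iff.mp (hle hu) (π k) ⟨k, hk, rfl⟩
    exact this.symm
  have hcyc : IsCyclic (K ⧸ (⁅K, K⁆ ⊔ M).subgroupOf K) := isCyclic_of_prime_card (p := p) hidx
  obtain ⟨g, hg⟩ := hcyc.exists_generator
  obtain ⟨k₀, rfl⟩ := QuotientGroup.mk'_surjective _ g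
  have hdec : ∀ x ∈ K, ∃ i : ℤ, ∃ u ∈ ⁅K, K⁆ ⊔ M, x = (k₀ : L) ^ i * u := by
    intro x hx
    obtain ⟨i, hi⟩ := Subgroup.mem_zpowers_iff.mp (hg (QuotientGroup.mk' _ ⟨x, hx⟩))
    rw [← map_zpow] at hi
    have h1 := Subgroup.mem_subgroupOf.mp ((QuotientGroup.eq).mp hi)
    refine ⟨i, _, h1, ?_⟩
    push_cast
    group
  rw [Subgroup.commutator_le]
  intro x hx y hy
  rw [← hπ1, map_commutatorElement, commutatorElement_eq_one_iff_mul_comm]
  obtain ⟨i, u, hu, rfl⟩ := hdec x hx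
  obtain ⟨j, v, hv, rfl⟩ := hdec y hy
  have hk0 : ∀ n : ℤ, (k₀ : L) ^ n ∈ K := fun n => K.zpow_mem k₀.2 n
  have c1 : Commute (π ((k₀ : L) ^ i)) (π ((k₀ : L) ^ j)) := by
    rw [map_zpow, map_zpow]
    exact Commute.zpow_zpow_self _ _ _
  have c2 : Commute (π ((k₀ : L) ^ i)) (π v) := (hZ v hv _ (hk0 i)).symm
  have c3 : Commute (π u) (π ((k₀ : L) ^ j)) := hZ u hu _ (hk0 j)
  have c4 : Commute (π u) (π v) := hZ u hu v (hH₁K hv)
  rw [map_mul, map_mul]
  exact (Commute.mul_left (Commute.mul_right c1 c2) (Commute.mul_right c3 c4))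

end grp

end Cfsg.Agent.Lib.Helper24.Coh6
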