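import Mathlib
import Cfsg.Agent.Lib.Helper24.Coherence6
import Cfsg.Agent.S1516
import Cfsg.Agent.S1517

set_option autoImplicit false
set_option linter.unusedSectionVars false
set_option linter.unusedSimpArgs false
open Cfsg
open scoped ComplexConjugate commutatorElement

namespace Cfsg.Agent.Lib.Helper24.Coh7

open Cfsg.Agent.Lib.Helper7 Cfsg.Agent.Lib.Helper24.Coh Cfsg.Agent.Lib.Helper24.Coh5
  Cfsg.Agent.Lib.Helper24.Coh6

variable {L : Type*} [Group L] [Fintype L] {G : Type*} [Group G] [Fintype G]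
  {S : Set (L → ℂ)} {τ : (L → ℂ) → (G → ℂ)} {R : (L → ℂ) → Finset (G → ℂ)}

open Classical in
theorem extend_many (hS : IsCoherenceSystem S τ R) (d n : (L → ℂ) → ℕ)
    (hd : ∀ φ ∈ S, φ 1 = (d φ : ℂ)) (hn : ∀ φ ∈ S, classInner φ φ = (n φ : ℂ))
    (S₀ : Finset (L → ℂ)) (hS₀ : (↑S₀ : Set (L → ℂ)) ⊆ S)
    (hS₀c : ∀ φ ∈ S₀, Cfsg.conjFun φ ∈ S₀)
    (hcoh : IsCoherent (↑S₀ : Set (L → ℂ)) {1}ᶜ τ) (χ₁ : L → ℂ) (hχ₁ : χ₁ ∈ S₀)
    (Y : Finset (L → ℂ))
    (hY : ∀ χ ∈ Y, χ ∈ S ∧ d χ₁ ∣ d χ ∧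
      (2 * d χ * d χ₁ : ℝ) < ∑ φ ∈ S₀, ((d φ : ℝ) ^ 2 / (n φ : ℝ))) :
    ∃ S₁ : Finset (L → ℂ), (↑S₁ : Set (L → ℂ)) ⊆ S ∧ (∀ φ ∈ S₁, Cfsg.conjFun φ ∈ S₁) ∧
      S₀ ⊆ S₁ ∧ Y ⊆ S₁ ∧ IsCoherent (↑S₁ : Set (L → ℂ)) {1}ᶜ τ := by
  induction Y using Finset.induction_on with
  | empty => exact ⟨S₀, hS₀, hS₀c, subset_rfl, Finset.empty_subset _, hcoh⟩
  | insert χ T hχT ih =>
    obtain ⟨hχS, hdvd, hlt⟩ := hY χ (Finset.mem_insert_self _ _)
    obtain ⟨S₁, h1, h2, h3, h4, h5⟩ := ih (fun x hx => hY x (Finset.mem_insert_of_mem hx))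
    by_cases hχS₁ : χ ∈ S₁
    · exact ⟨S₁, h1, h2, h3, Finset.insert_subset hχS₁ h4, h5⟩
    · have hχc : Cfsg.conjFun χ ∉ S₁ := by
        intro h
        have := h2 _ h
        rw [conjFun_conjFun] at this
        exact hχS₁ this
      have hcoh' := Cfsg.Agent.S1516.result S τ R hS d n hd hn S₁ h1 h2 h5
        χ hχS hχS₁ hχc χ₁ (h3 hχ₁) hdvd (by
          have hle : ∑ φ ∈ S₀, ((d φ : ℝ) ^ 2 / (n φ : ℝ)) ≤
              ∑ φ ∈ S₁, ((d φ : ℝ) ^ 2 / (n φ : ℝ)) :=
            Finset.sum_le_sum_of_subset_of_nonneg h3 (fun _ _ _ => by positivity)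
          exact lt_of_lt_of_le hlt hle)
      refine ⟨S₁ ∪ {χ, Cfsg.conjFun χ}, ?_, ?_, ?_, ?_, ?_⟩
      · intro x hx
        rw [Finset.mem_coe, Finset.mem_union, Finset.mem_insert, Finset.mem_singleton] at hx
        rcases hx with hx | rfl | rfl
        · exact h1 hx
        · exact hχS
        · exact hS.conj_mem _ hχS
      · intro x hx
        rw [Finset.mem_union, Finset.mem_insert, Finset.mem_singleton] at hx ⊢
        rcases hx with hx | rfl | rfl
        · exact Or.inl (h2 x hx)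
        · exact Or.inr (Or.inr rfl)
        · exact Or.inr (Or.inl (conjFun_conjFun _))
      · exact h3.trans Finset.subset_union_left
      · intro x hx
        rw [Finset.mem_insert] at hx
        rw [Finset.mem_union, Finset.mem_insert, Finset.mem_singleton]
        rcases hx with rfl | hx
        · exact Or.inr (Or.inl rfl)
        · exact Or.inl (h4 hx)
      · have : (↑(S₁ ∪ {χ, Cfsg.conjFun χ}) : Set (L → ℂ)) = ↑S₁ ∪ {χ, Cfsg.conjFun χ} := by
          push_cast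
          rfl
        rw [this]
        exact hcoh'

open Classical in
theorem coherent_by_degree (hS : IsCoherenceSystem S τ R) (d n : (L → ℂ) → ℕ)
    (hd : ∀ φ ∈ S, φ 1 = (d φ : ℂ)) (hn : ∀ φ ∈ S, classInner φ φ = (n φ : ℂ))
    (T : Finset (L → ℂ)) (hT : (↑T : Set (L → ℂ)) ⊆ S)
    (hTc : ∀ φ ∈ T, Cfsg.conjFun φ ∈ T) (hTne : T.Nonempty) (hn1 : ∀ φ ∈ T, n φ = 1)
    (hstep : ∀ χ ∈ T, ∀ χ₁ ∈ T, d χ₁ < d χ → d χ₁ ∣ d χ ∧
      2 * d χ * d χ₁ < ∑ φ ∈ T.filter (fun φ => d φ < d χ), (d φ) ^ 2) :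
    IsCoherent (↑T : Set (L → ℂ)) {1}ᶜ τ := by
  have hdc : ∀ φ ∈ S, d (Cfsg.conjFun φ) = d φ := by
    intro φ hφ
    have h1 := sys_conj_one hS hφ
    rw [hd _ hφ, hd _ (hS.conj_mem φ hφ)] at h1
    exact_mod_cast h1
  -- equal degree subsets
  have hE : ∀ Y : Finset (L → ℂ), Y ⊆ T → (∀ φ ∈ Y, Cfsg.conjFun φ ∈ Y) → Y.Nonempty →
      (∀ φ ∈ Y, ∀ ψ ∈ Y, d φ = d ψ) → IsCoherent (↑Y : Set (L → ℂ)) {1}ᶜ τ := by
    intro Y hYT hYc hYne hYd
    have hYS : (↑Y : Set (L → ℂ)) ⊆ S := fun x hx => hT (hYT hx)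
    have hsys := sys_mono hS hYS hYne hYc
    apply Cfsg.Agent.S1517.result _ τ R hsys
    intro φ hφ ψ hψ
    rw [hd φ (hYS hφ), hd ψ (hYS hψ), hYd φ hφ ψ hψ]
  have hXc : ∀ m : ℕ, ∀ φ ∈ T.filter (fun φ => d φ ≤ m),
      Cfsg.conjFun φ ∈ T.filter (fun φ => d φ ≤ m) := by
    intro m φ hφ
    rw [Finset.mem_filter] at hφ ⊢
    exact ⟨hTc φ hφ.1, by rw [hdc φ (hT hφ.1)]; exact hφ.2⟩
  have hP : ∀ m : ℕ, T.filter (fun φ => d φ ≤ m) = ∅ ∨
      IsCoherent (↑(T.filter (fun φ => d φ ≤ m)) : Set (L → ℂ)) {1}ᶜ τ := by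
    intro m
    induction m with
    | zero =>
      rcases Finset.eq_empty_or_nonempty (T.filter (fun φ => d φ ≤ 0)) with h | h
      · exact Or.inl h
      · refine Or.inr (hE _ (Finset.filter_subset _ _) (hXc 0) h ?_)
        intro φ hφ ψ hψ
        have h1 := (Finset.mem_filter.mp hφ).2
        have h2 := (Finset.mem_filter.mp hψ).2
        omega
    | succ m ih =>
      rcases Finset.eq_empty_or_nonempty (T.filter (fun φ => d φ ≤ m + 1)) with h | hne
      · exact Or.inl h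
      right
      rcases ih with h0 | hcoh
      · refine hE _ (Finset.filter_subset _ _) (hXc (m + 1)) hne ?_
        have : ∀ φ ∈ T.filter (fun φ => d φ ≤ m + 1), d φ = m + 1 := by
          intro φ hφ
          have h1 := Finset.mem_filter.mp hφ
          by_contra hcon
          have : φ ∈ T.filter (fun φ => d φ ≤ m) :=
            Finset.mem_filter.mpr ⟨h1.1, by omega⟩
          rw [h0] at this
          exact absurd this (Finset.notMem_empty _)
        intro φ hφ ψ hψ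
        rw [this φ hφ, this ψ hψ]
      · have hXne : (T.filter (fun φ => d φ ≤ m)).Nonempty := by
          rw [Finset.nonempty_iff_ne_empty]
          intro h0
          obtain ⟨⟨α, hα, hα0⟩, -⟩ := hcoh
          apply hα0
          rw [h0] at hα
          have h1 : α ∈ zspan (∅ : Set (L → ℂ)) := by simpa using hα.1
          rw [mem_zspan, Submodule.span_empty] at h1
          exact h1
        obtain ⟨χ₁, hχ₁⟩ := hXne
        have hχ₁' := Finset.mem_filter.mp hχ₁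
        obtain ⟨S₁, h1, h2, h3, h4, h5⟩ := extend_many hS d n hd hn
          (T.filter (fun φ => d φ ≤ m)) (fun x hx => hT (Finset.mem_filter.mp hx).1) (hXc m) hcoh
          χ₁ hχ₁ (T.filter (fun φ => d φ = m + 1)) (by
            intro χ hχ
            have hχ' := Finset.mem_filter.mp hχ
            obtain ⟨g1, g2⟩ := hstep χ hχ'.1 χ₁ hχ₁'.1 (by omega)
            refine ⟨hT hχ'.1, g1, ?_⟩
            have e1 : T.filter (fun φ => d φ < d χ) = T.filter (fun φ => d φ ≤ m) := by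
              apply Finset.filter_congr
              intro φ _
              rw [hχ'.2]
              omega
            rw [e1] at g2
            have e2 : ∑ φ ∈ T.filter (fun φ => d φ ≤ m), ((d φ : ℝ) ^ 2 / (n φ : ℝ)) =
                ((∑ φ ∈ T.filter (fun φ => d φ ≤ m), (d φ) ^ 2 : ℕ) : ℝ) := by
              push_cast
              apply Finset.sum_congr rfl
              intro φ hφ
              rw [hn1 φ (Finset.mem_filter.mp hφ).1]
              simp
            rw [e2]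
            exact_mod_cast g2)
        refine coherent_mono (Y := (↑S₁ : Set (L → ℂ))) ?_ h5 ?_
        · intro x hx
          have hx' := Finset.mem_filter.mp (Finset.mem_coe.mp hx)
          by_cases hxm : d x ≤ m
          · exact h3 (Finset.mem_filter.mpr ⟨hx'.1, hxm⟩)
          · exact h4 (Finset.mem_filter.mpr ⟨hx'.1, by omega⟩)
        · have hm1 : χ₁ ∈ (↑(T.filter (fun φ => d φ ≤ m + 1)) : Set (L → ℂ)) :=
            Finset.mem_coe.mpr (Finset.mem_filter.mpr ⟨hχ₁'.1, by omega⟩)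
          exact ⟨_, sys_sub_mem hm1 (hXc (m + 1) _ hm1) (sys_conj_one hS (hT hχ₁'.1)).symm,
            fun h => hS.conj_ne _ (hT hχ₁'.1) (sub_eq_zero.mp h).symm⟩
  have hall : T.filter (fun φ => d φ ≤ T.sup d) = T := by
    apply Finset.filter_true_of_mem
    intro φ hφ
    exact Finset.le_sup hφ
  rcases hP (T.sup d) with h | h
  · rw [hall] at h
    exact absurd h hTne.ne_empty
  · rw [hall] at h
    exact h

end Cfsg.Agent.Lib.Helper24.Coh7
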