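import Mathlib
import Cfsg.Agent.Lib.Helper24.TIFrob
import Cfsg.Agent.Lib.Helper24.Coherence
import Cfsg.Agent.Lib.Helper25.Ind

set_option autoImplicit false
set_option linter.unusedSectionVars false
set_option linter.unusedSimpArgs false
open Cfsg
open scoped ComplexConjugate

namespace Cfsg.Agent.Lib.Helper24.TIFrob

open Cfsg.Agent.Lib.Helper7 Cfsg.Agent.Lib.Helper11 Cfsg.Agent.Lib.Helper24.Coh

variable {G : Type*} [Group G] [Fintype G]

theorem const_of_star (Nn : Subgroup G) [Fintype Nn] (H : Subgroup Nn) [H.Normal]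
    (S : Set (Nn → ℂ)) (hS : S = {χ | IsIrrCharacter Nn χ ∧ ∃ h ∈ H, χ h ≠ χ 1})
    (Ψ : G → ℂ) (hΨ : IsClassFunction G Ψ) (Z : Nn → ℂ) (hZ : IsClassFunction Nn Z)
    (hkey : ∀ θ ∈ zspanOn S {1}ᶜ, classInner (indFun Nn θ) Ψ = classInner θ Z) :
    ∃ C : ℂ, ∀ h ∈ H, h ≠ 1 → Ψ h - Z h = C := by
  have hf : IsClassFunction Nn (fun x : Nn => Ψ x - Z x) := by
    intro g x
    have h1 := hΨ (g : G) (x : G)
    have h2 := hZ g x
    simp only [Subgroup.coe_mul, Subgroup.coe_inv]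
    rw [h1, h2]
  refine const_on_kernel H hf ?_
  intro χ ξ hχ hrelχ hξ hrelξ
  have mχ : χ ∈ S := by rw [hS]; exact ⟨hχ, hrelχ⟩
  have mξ : ξ ∈ S := by rw [hS]; exact ⟨hξ, hrelξ⟩
  obtain ⟨a₁, _, e₁⟩ := irr_apply_one hχ
  obtain ⟨a₂, _, e₂⟩ := irr_apply_one hξ
  have mθ := pair_mem mχ mξ (a₁ := (a₁ : ℤ)) (a₂ := (a₂ : ℤ)) (by simpa using e₁)
    (by simpa using e₂)
  have h1 := hkey _ mθ
  rw [Cfsg.Agent.Lib.Helper25.frobenius_reciprocity Nn _ Ψ hΨ] at h1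
  have h2 : classInner (((a₂ : ℕ) : ℤ) • χ - ((a₁ : ℕ) : ℤ) • ξ) (fun x : Nn => Ψ x - Z x) = 0 := by
    have : (fun x : Nn => Ψ x - Z x) = (fun x : Nn => Ψ x) - Z := rfl
    rw [this, classInner_sub_right, h1, sub_self]
  rw [classInner_sub_left, classInner_zsmul_left, classInner_zsmul_left] at h2
  have h3 := congrArg conj h2
  simp only [map_sub, map_mul, map_intCast, map_zero, classInner_conj_symm] at h3
  rw [e₁, e₂]
  push_cast at h3
  linear_combination h3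

end Cfsg.Agent.Lib.Helper24.TIFrob
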