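import Mathlib
import Cfsg.Agent.Lib.Helper24.Coherence8

set_option autoImplicit false
set_option linter.unusedSectionVars false
set_option linter.unusedSimpArgs false
open Cfsg
open scoped ComplexConjugate

namespace Cfsg.Agent.Lib.Helper24.Coh9

open Cfsg.Agent.Lib.Helper7 Cfsg.Agent.Lib.Helper11 Cfsg.Agent.Lib.Helper24.Coh
  Cfsg.Agent.Lib.Helper24.Coh5 Cfsg.Agent.Lib.Helper24.Coh8

variable {G : Type*} [Group G] [Fintype G] (K : Subgroup G)
  [Fintype ↥(Subgroup.normalizer (K : Set G))]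

/-- induction from the normaliser of a TI subgroup is an isometry on what is supported there -/
theorem TI_iso
    (hTI : ∀ g : G, g ∉ Subgroup.normalizer (K : Set G) → ∀ k ∈ K, g * k * g⁻¹ ∈ K → k = 1)
    (S : Set (↥(Subgroup.normalizer (K : Set G)) → ℂ))
    (hirr : ∀ χ ∈ S, IsIrrCharacter ↥(Subgroup.normalizer (K : Set G)) χ)
    (hvan : ∀ χ ∈ S, ∀ x : ↥(Subgroup.normalizer (K : Set G)), (x : G) ∉ K → χ x = 0) :
    IsLinearIsometryOn (zspanOn S {1}ᶜ) (fun α => indFun (Subgroup.normalizer (K : Set G)) α) ∧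
      ∀ α ∈ zspanOn S {1}ᶜ, indFun (Subgroup.normalizer (K : Set G)) α 1 = 0 := by
  have hgen : ∀ α ∈ zspan S, IsGeneralizedCharacter ↥(Subgroup.normalizer (K : Set G)) α ∧
      ∀ x : ↥(Subgroup.normalizer (K : Set G)), (x : G) ∉ K → α x = 0 := by
    intro α hα
    induction hα using Submodule.span_induction with
    | mem x hx => exact ⟨genChar_of_irr (hirr x hx), hvan x hx⟩
    | zero => exact ⟨genChar_zero, fun _ _ => rfl⟩
    | add u v _ _ hu hv =>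
      exact ⟨genChar_add hu.1 hv.1, fun x hx => by rw [Pi.add_apply, hu.2 x hx, hv.2 x hx, add_zero]⟩
    | smul n u _ hu =>
      exact ⟨genChar_zsmul hu.1 n, fun x hx => by rw [Pi.smul_apply, hu.2 x hx, smul_zero]⟩
  refine ⟨⟨?_, ?_, ?_, ?_⟩, ?_⟩
  · intro a _ b _
    exact Cfsg.Agent.Lib.Helper2.indFun_add _ a b
  · intro a _ n
    have h := Cfsg.Agent.Lib.Helper2.indFun_smul (Subgroup.normalizer (K : Set G)) (n : ℂ) a
    rw [Int.cast_smul_eq_zsmul, Int.cast_smul_eq_zsmul] at h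
    exact h
  · intro a ha b hb
    rw [mem_zspanOn_one] at ha hb
    obtain ⟨ga, va⟩ := hgen a ha.1
    obtain ⟨gb, vb⟩ := hgen b hb.1
    show classInner (indFun _ a) (indFun _ b) = classInner a b
    rw [Cfsg.Agent.Lib.Helper25.frobenius_reciprocity _ a _
      (Cfsg.Agent.Lib.Helper25.indFun_isClassFunction _ b)]
    simp only [classInner]
    congr 1
    apply Finset.sum_congr rfl
    intro x _
    by_cases hx : (x : G) ∈ K
    · by_cases hx1 : x = 1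
      · rw [hx1, ha.2, zero_mul, zero_mul]
      · rw [Cfsg.Agent.S0853.ind_eq_of_TI K hTI b (genChar_isClassFunction gb) vb x hx hx1]
    · rw [va x hx, zero_mul, zero_mul]
  · intro a ha
    exact Cfsg.Agent.Lib.Helper2.IsGeneralizedCharacter.ind _ (hgen a ha.1).1
  · intro a ha
    rw [mem_zspanOn_one] at ha
    rw [Cfsg.Agent.Lib.Helper25.indFun_one, ha.2, mul_zero]

open Classical in
theorem equal_degree_TI
    (hTI : ∀ g : G, g ∉ Subgroup.normalizer (K : Set G) → ∀ k ∈ K, g * k * g⁻¹ ∈ K → k = 1)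
    (Y : Finset (↥(Subgroup.normalizer (K : Set G)) → ℂ))
    (hirr : ∀ χ ∈ Y, IsIrrCharacter ↥(Subgroup.normalizer (K : Set G)) χ)
    (hvan : ∀ χ ∈ Y, ∀ x : ↥(Subgroup.normalizer (K : Set G)), (x : G) ∉ K → χ x = 0)
    (h2 : 2 ≤ Y.card) (hdeg : ∀ φ ∈ Y, ∀ ψ ∈ Y, φ 1 = ψ 1) :
    IsCoherent (↑Y : Set (↥(Subgroup.normalizer (K : Set G)) → ℂ)) {1}ᶜ
      (fun α => indFun (Subgroup.normalizer (K : Set G)) α) := by
  obtain ⟨hτ, -⟩ := TI_iso K hTI (↑Y) hirr hvan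
  obtain ⟨ε, hε, θ, hθirr, hθinj, hθ⟩ := Cfsg.Agent.S0170.result (K : Set G)
    (Subgroup.le_normalizer (H := K)) hTI Y.card h2
    (fun i => ((Y.equivFin.symm i : Y) : ↥(Subgroup.normalizer (K : Set G)) → ℂ))
    (fun i => hirr _ (Y.equivFin.symm i).2)
    (fun i j hij => Y.equivFin.symm.injective (Subtype.ext hij))
    (fun i => hvan _ (Y.equivFin.symm i).2)
    (fun i j => hdeg _ (Y.equivFin.symm i).2 _ (Y.equivFin.symm j).2)
  have hεε : ε * conj ε = 1 := by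
    rcases hε with rfl | rfl <;> simp
  let f : (↥(Subgroup.normalizer (K : Set G)) → ℂ) → (G → ℂ) := fun φ =>
    if h : φ ∈ Y then ε • θ (Y.equivFin ⟨φ, h⟩) else 0
  have hf : ∀ φ (h : φ ∈ Y), f φ = ε • θ (Y.equivFin ⟨φ, h⟩) := fun φ h => dif_pos h
  obtain ⟨ρ, hρ, hρf⟩ := exists_iso_of_orthogonal (S := (↑Y : Set _)) (G := G)
    (fun φ hφ => by rw [classInner_irr_self (hirr φ hφ)]; exact one_ne_zero)
    (fun φ hφ φ' hφ' hne => classInner_irr_ne (hirr φ hφ) (hirr φ' hφ') hne) f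
    (by
      intro φ hφ
      rw [hf φ hφ]
      rcases hε with rfl | rfl
      · rw [one_smul]; exact genChar_of_irr (hθirr _)
      · rw [neg_one_smul]; exact genChar_neg (genChar_of_irr (hθirr _)))
    (by
      intro φ hφ φ' hφ'
      rw [hf φ hφ, hf φ' hφ', classInner_smul_left, classInner_smul_right, ← mul_assoc, hεε,
        one_mul]
      by_cases he : φ = φ'
      · subst he
        rw [classInner_irr_self (hθirr _), classInner_irr_self (hirr φ hφ)]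
      · rw [classInner_irr_ne (hirr φ hφ) (hirr φ' hφ') he, classInner_irr_ne (hθirr _) (hθirr _)]
        intro h
        apply he
        have := Y.equivFin.injective (hθinj h)
        exact congrArg Subtype.val this)
  obtain ⟨χ₁, hχ₁, χ₂, hχ₂, hne⟩ := Finset.one_lt_card.mp (by omega : 1 < Y.card)
  obtain ⟨d₁, hd₁0, hd₁⟩ := irr_apply_one (hirr χ₁ hχ₁)
  have hm₁ : χ₁ ∈ (↑Y : Set (↥(Subgroup.normalizer (K : Set G)) → ℂ)) := Finset.mem_coe.mpr hχ₁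
  have hm₂ : χ₂ ∈ (↑Y : Set (↥(Subgroup.normalizer (K : Set G)) → ℂ)) := Finset.mem_coe.mpr hχ₂
  have hz : χ₁ - χ₂ ∈ zspanOn (↑Y : Set (↥(Subgroup.normalizer (K : Set G)) → ℂ)) {1}ᶜ :=
    sys_sub_mem hm₁ hm₂ (hdeg _ hχ₁ _ hχ₂)
  refine ⟨⟨χ₁ - χ₂, hz, sub_ne_zero.mpr hne⟩, ρ, hρ, ?_⟩
  have hd₁' : χ₁ 1 = (((d₁ : ℕ) : ℤ) : ℂ) := by rw [hd₁]; simp
  have hd₁0' : ((d₁ : ℕ) : ℤ) ≠ 0 := by exact_mod_cast hd₁0.ne'
  apply agree_of_generators (S := (↑Y : Set (↥(Subgroup.normalizer (K : Set G)) → ℂ)))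
    (S₂ := (↑Y : Set (↥(Subgroup.normalizer (K : Set G)) → ℂ))) subset_rfl hτ hρ hm₁ hd₁' hd₁0'
  intro φ hφ
  refine ⟨d₁, by rw [hdeg φ hφ χ₁ hχ₁, hd₁]; simp, ?_⟩
  have h3 := hθ (Y.equivFin ⟨φ, hφ⟩) (Y.equivFin ⟨χ₁, hχ₁⟩)
  simp only [Equiv.symm_apply_apply] at h3
  rw [hρf φ hφ, hρf χ₁ hχ₁, hf φ hφ, hf χ₁ hχ₁, ← smul_sub, ← smul_sub, ← smul_sub, ← h3]
  show indFun _ ((d₁ : ℤ) • (φ - χ₁)) = _
  have h4 := Cfsg.Agent.Lib.Helper2.indFun_smul (Subgroup.normalizer (K : Set G)) ((d₁ : ℤ) : ℂ)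
    (φ - χ₁)
  rw [Int.cast_smul_eq_zsmul, Int.cast_smul_eq_zsmul] at h4
  rw [h4, Cfsg.Agent.Lib.Helper2.indFun_sub]

end Cfsg.Agent.Lib.Helper24.Coh9
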