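import Mathlib
import Cfsg.Agent.Lib.Helper24.Coherence9
import Cfsg.Agent.S0198
import Cfsg.Agent.S1528
import Cfsg.Agent.S1519
import Cfsg.Agent.S1522
import Cfsg.Agent.S1520

set_option autoImplicit false
set_option linter.unusedSectionVars false
set_option linter.unusedSimpArgs false
open Cfsg
open scoped ComplexConjugate commutatorElement

namespace Cfsg.Agent.Lib.Helper24.Coh10

open Cfsg.Agent.Lib.Helper7 Cfsg.Agent.Lib.Helper11 Cfsg.Agent.Lib.Helper24.Coh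
  Cfsg.Agent.Lib.Helper24.Coh5 Cfsg.Agent.Lib.Helper24.Coh8

section eqdeg

variable {G : Type*} [Group G] [Fintype G] {N : Type*} [Group N] [Fintype N]

open Classical in
theorem equal_degree_gen (τ : (N → ℂ) → (G → ℂ)) (Y : Finset (N → ℂ))
    (hirr : ∀ χ ∈ Y, IsIrrCharacter N χ)
    (hτ : IsLinearIsometryOn (zspanOn (↑Y : Set (N → ℂ)) {1}ᶜ) τ)
    (hτ1 : ∀ α ∈ zspanOn (↑Y : Set (N → ℂ)) {1}ᶜ, τ α 1 = 0)
    (h2 : 2 ≤ Y.card) (hdeg : ∀ φ ∈ Y, ∀ ψ ∈ Y, φ 1 = ψ 1) :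
    IsCoherent (↑Y : Set (N → ℂ)) {1}ᶜ τ := by
  have i₀ : Fin Y.card := ⟨0, by omega⟩
  let χ : Fin Y.card → (N → ℂ) := fun i => ((Y.equivFin.symm i : Y) : N → ℂ)
  have hχY : ∀ i, χ i ∈ (↑Y : Set (N → ℂ)) := fun i => Finset.mem_coe.mpr (Y.equivFin.symm i).2
  have hχinj : Function.Injective χ := fun i j hij => Y.equivFin.symm.injective (Subtype.ext hij)
  have hmem : ∀ i j, χ i - χ j ∈ zspanOn (↑Y : Set (N → ℂ)) {1}ᶜ := fun i j =>
    sys_sub_mem (hχY i) (hχY j) (hdeg _ (hχY i) _ (hχY j))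
  have hχirr : ∀ i, IsIrrCharacter N (χ i) := fun i => hirr _ (hχY i)
  obtain ⟨ε, hε, θ, hθirr, hθinj, hθ⟩ := Cfsg.Agent.S0198.result (G := G) Y.card i₀
    (fun i => τ (χ i - χ i₀)) (by
      show τ (χ i₀ - χ i₀) = 0
      rw [sub_self]
      exact isoOn_zero hτ (hmem i₀ i₀))
    (fun i => hτ.2.2.2 _ (hmem i i₀)) (fun i => hτ1 _ (hmem i i₀))
    (fun i j hi hj => by
      show classInner (τ (χ i - χ i₀)) (τ (χ j - χ i₀)) = _
      rw [hτ.2.2.1 _ (hmem i i₀) _ (hmem j i₀)]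
      rw [classInner_sub_left, classInner_sub_right, classInner_sub_right,
        classInner_irr (hχirr i) (hχirr j), classInner_irr (hχirr i) (hχirr i₀),
        classInner_irr (hχirr i₀) (hχirr j), classInner_irr (hχirr i₀) (hχirr i₀)]
      have h1 : χ i ≠ χ i₀ := fun h => hi (hχinj h)
      have h2 : χ i₀ ≠ χ j := fun h => hj (hχinj h).symm
      rw [if_neg h1, if_neg h2, if_pos rfl]
      by_cases hij : i = j
      · subst hij; simp; norm_num
      · have h3 : χ i ≠ χ j := fun h => hij (hχinj h)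
        rw [if_neg h3, if_neg hij]; norm_num)
  have hεε : ε * conj ε = 1 := by
    rcases hε with rfl | rfl <;> simp
  let f : (N → ℂ) → (G → ℂ) := fun φ =>
    if h : φ ∈ Y then ε • θ (Y.equivFin ⟨φ, h⟩) else 0
  have hf : ∀ φ (h : φ ∈ Y), f φ = ε • θ (Y.equivFin ⟨φ, h⟩) := fun φ h => dif_pos h
  obtain ⟨ρ, hρ, hρf⟩ := exists_iso_of_orthogonal (S := (↑Y : Set (N → ℂ))) (G := G)
    (fun φ hφ => by rw [classInner_irr_self (hirr φ hφ)]; exact one_ne_zero)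
    (fun φ hφ φ' hφ' hne => classInner_irr_ne (hirr φ hφ) (hirr φ' hφ') hne) f
    (by
      intro φ hφ
      rw [hf φ hφ]
      rcases hε with rfl | rfl
      · rw [one_smul]; exact genChar_of_irr (hθirr _)
      · rw [neg_one_smul]; exact genChar_neg (genChar_of_irr (hθirr _)))
    (by
      intro φ hφ φ' hφ'
      rw [hf φ hφ, hf φ' hφ', classInner_smul_left, classInner_smul_right, ← mul_assoc, hεε,
        one_mul]
      by_cases he : φ = φ'
      · subst he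
        rw [classInner_irr_self (hθirr _), classInner_irr_self (hirr φ hφ)]
      · rw [classInner_irr_ne (hirr φ hφ) (hirr φ' hφ') he, classInner_irr_ne (hθirr _) (hθirr _)]
        intro h
        apply he
        have := Y.equivFin.injective (hθinj h)
        exact congrArg Subtype.val this)
  obtain ⟨χ₂, hχ₂, hne⟩ : ∃ χ₂ ∈ Y, χ i₀ ≠ χ₂ := by
    obtain ⟨a, ha, b, hb, hab⟩ := Finset.one_lt_card.mp (by omega : 1 < Y.card)
    by_cases h : χ i₀ = a
    · exact ⟨b, hb, by rw [h]; exact hab⟩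
    · exact ⟨a, ha, h⟩
  obtain ⟨d₁, hd₁0, hd₁⟩ := irr_apply_one (hχirr i₀)
  have hm₂ : χ₂ ∈ (↑Y : Set (N → ℂ)) := Finset.mem_coe.mpr hχ₂
  have hz : χ i₀ - χ₂ ∈ zspanOn (↑Y : Set (N → ℂ)) {1}ᶜ :=
    sys_sub_mem (hχY i₀) hm₂ (hdeg _ (hχY i₀) _ hχ₂)
  refine ⟨⟨χ i₀ - χ₂, hz, sub_ne_zero.mpr hne⟩, ρ, hρ, ?_⟩
  have hd₁' : χ i₀ 1 = (((d₁ : ℕ) : ℤ) : ℂ) := by rw [hd₁]; simp
  have hd₁0' : ((d₁ : ℕ) : ℤ) ≠ 0 := by exact_mod_cast hd₁0.ne'
  apply agree_of_generators (S := (↑Y : Set (N → ℂ)))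
    (S₂ := (↑Y : Set (N → ℂ))) subset_rfl hτ hρ (hχY i₀) hd₁' hd₁0'
  intro φ hφ
  refine ⟨d₁, by rw [hdeg φ hφ _ (hχY i₀), hd₁]; simp, ?_⟩
  have h3 := hθ (Y.equivFin ⟨φ, hφ⟩)
  have e1 : χ (Y.equivFin ⟨φ, hφ⟩) = φ := by simp [χ]
  have e2 : Y.equivFin ⟨χ i₀, hχY i₀⟩ = i₀ := by simp [χ]
  simp only [e1] at h3
  have hφm : φ - χ i₀ ∈ zspanOn (↑Y : Set (N → ℂ)) {1}ᶜ :=
    sys_sub_mem hφ (hχY i₀) (hdeg _ hφ _ (hχY i₀))
  rw [hρf φ hφ, hρf _ (hχY i₀), hf φ hφ, hf _ (hχY i₀), e2, ← smul_sub, ← smul_sub, ← smul_sub,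
    ← h3, hτ.2.1 _ hφm]

end eqdeg

section frob

variable {N : Type*} [Group N] [Fintype N] (H : Subgroup N) [hH : H.Normal] [Fintype H]

theorem eq_one_of_const {θ : H → ℂ} (hθ : IsIrrCharacter H θ) (h : ∀ x : H, θ x = θ 1) :
    θ = fun _ => 1 := by
  by_contra hne
  have h1 := classInner_irr_ne hθ (isIrrCharacter_one (G := H)) hne
  simp only [classInner, map_one, mul_one, h] at h1
  rw [Finset.sum_const, Finset.card_univ, nsmul_eq_mul, ← Nat.card_eq_fintype_card, ← mul_assoc,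
    inv_mul_cancel₀ (by exact_mod_cast Nat.card_pos.ne'), one_mul] at h1
  exact irr_apply_one_ne_zero hθ h1

theorem ind_irr (hC : ∀ h ∈ H, h ≠ 1 → Subgroup.centralizer ({h} : Set N) ≤ H)
    {θ : H → ℂ} (hθ : IsIrrCharacter H θ) (hne : θ ≠ fun _ => 1) :
    IsIrrCharacter N (indFun H θ) := by
  have hθc := isCharacter_of_irr hθ
  have hind := Cfsg.Agent.Lib.Helper25.isCharacter_indFun H θ hθc
  have hne0 : indFun H θ ≠ 0 := by
    intro h0
    have h3 := congrFun h0 1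
    rw [Cfsg.Agent.Lib.Helper25.indFun_one, Pi.zero_apply] at h3
    rcases mul_eq_zero.mp h3 with h4 | h4
    · exact (Subgroup.index_ne_zero_of_finite : H.index ≠ 0) (by exact_mod_cast h4)
    · exact irr_apply_one_ne_zero hθ h4
  obtain ⟨χ, hχ, hc⟩ := Cfsg.Agent.Lib.Helper25.exists_irr_constituent hind hne0
  have hχc := isCharacter_of_irr hχ
  have hc' : classInner (fun h : H => χ h) θ ≠ 0 := by
    rw [Cfsg.Agent.Lib.Helper25.frobenius_reciprocity H θ χ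
      (isClassFunction_of_isCharacter hχc), ← classInner_conj_symm] at hc
    simpa using hc
  have hrel : ∃ h ∈ H, χ h ≠ χ 1 := by
    by_contra hcon
    push Not at hcon
    apply hne
    apply eq_one_of_const H hθ
    intro x
    exact Cfsg.Agent.Lib.Helper25.ker_constituent (isCharacter_restrict hχc H) hθ hc'
      (x := x) (hcon x x.2)
  obtain ⟨φ, hφ, rfl⟩ := Cfsg.Agent.S1528.result H hC χ hχ hrel
  by_cases hconj : ∃ g : N, θ = Cfsg.Agent.Lib.Helper25.conjFun H φ g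
  · obtain ⟨g, rfl⟩ := hconj
    rw [Cfsg.Agent.Lib.Helper25.indFun_conjFun]
    exact hχ
  · exact absurd (Cfsg.Agent.Lib.Helper25.classInner_indFun_indFun_of_not_conj H hφ hθ hconj) hc

theorem rel_eq (hC : ∀ h ∈ H, h ≠ 1 → Subgroup.centralizer ({h} : Set N) ≤ H) :
    {χ : N → ℂ | IsIrrCharacter N χ ∧ ∃ h ∈ H, χ h ≠ χ 1} = inducedIrrAbove H ⊥ := by
  ext χ
  constructor
  · rintro ⟨hχ, hrel⟩
    obtain ⟨φ, hφ, rfl⟩ := Cfsg.Agent.S1528.result H hC χ hχ hrel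
    refine ⟨φ, hφ, ?_, ?_, rfl⟩
    · rintro rfl
      obtain ⟨h, hh, hne⟩ := hrel
      apply hne
      exact ind_const H H (θ := fun _ => (1 : ℂ)) (fun _ _ => rfl) ⟨h, hh⟩ hh
    · intro a ha
      have : a = 1 := Subtype.ext (Subgroup.mem_bot.mp ha)
      rw [this]
  · rintro ⟨θ, h1, h2, -, rfl⟩
    refine ⟨ind_irr H hC h1 h2, ?_⟩
    by_contra hcon
    push Not at hcon
    apply h2
    apply eq_one_of_const H h1
    intro x
    exact Cfsg.Agent.S1522.ker_of_ind H H h1 (fun z hz => hcon z hz) x x.2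

end frob

section frob2

variable {N : Type*} [Group N] [Fintype N] (H : Subgroup N) [hH : H.Normal] [Fintype H]
  [Fintype (IrrCharacter H)] {G : Type*} [Group G] [Fintype G]

theorem above_irr (hC : ∀ h ∈ H, h ≠ 1 → Subgroup.centralizer ({h} : Set N) ≤ H)
    {φ : N → ℂ} (hφ : φ ∈ inducedIrrAbove H ⊥) : IsIrrCharacter N φ := by
  rw [← rel_eq H hC] at hφ
  exact hφ.1

theorem above_mono {A B : Subgroup N} (h : B ≤ A) :
    inducedIrrAbove H A ⊆ inducedIrrAbove H B := by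
  rintro φ ⟨θ, h1, h2, h3, rfl⟩
  exact ⟨θ, h1, h2, fun a ha => h3 a (h ha), rfl⟩

theorem weight (hC : ∀ h ∈ H, h ≠ 1 → Subgroup.centralizer ({h} : Set N) ≤ H)
    (d : (N → ℂ) → ℕ) (hd : ∀ ξ ∈ inducedIrrAbove H ⊥, ξ 1 = (d ξ : ℂ))
    (A : Subgroup N) [A.Normal] :
    ∑ φ ∈ SF H A, (d φ) ^ 2 + H.index = H.index * A.relIndex H := by
  have hsub := above_subset H A
  have h := sum_sq_div H A
    (fun χ hχ φ hφ hne => classInner_irr_ne (above_irr H hC (hsub hχ)) (above_irr H hC (hsub hφ)) hne)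
    (fun χ hχ => by rw [classInner_irr_self (above_irr H hC (hsub hχ))]; exact one_ne_zero)
    (fun χ hχ => by rw [hd χ (hsub hχ)]; simp)
  have e : ∑ φ ∈ SF H A, φ 1 ^ 2 / classInner φ φ = ((∑ φ ∈ SF H A, (d φ) ^ 2 : ℕ) : ℂ) := by
    push_cast
    apply Finset.sum_congr rfl
    intro φ hφ
    have hφ' : φ ∈ inducedIrrAbove H ⊥ := hsub (by rw [← coe_SF]; exact hφ)
    rw [hd φ hφ', classInner_irr_self (above_irr H hC hφ'), div_one]
  rw [e] at h
  have h2 : ((∑ φ ∈ SF H A, (d φ) ^ 2 + H.index : ℕ) : ℂ) = ((H.index * A.relIndex H : ℕ) : ℂ) := by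
    push_cast
    push_cast at h
    rw [h]; ring
  exact_mod_cast h2

theorem relIndex_congr (hC : ∀ h ∈ H, h ≠ 1 → Subgroup.centralizer ({h} : Set N) ≤ H)
    (A : Subgroup N) [A.Normal] : ∃ c, A.relIndex H = H.index * c + 1 := by
  classical
  choose! d hd0 hd using (fun (φ : N → ℂ) (hφ : φ ∈ inducedIrrAbove H ⊥) =>
    irr_apply_one (above_irr H hC hφ))
  have hw := weight H hC d hd A
  have he0 : 0 < H.index := Nat.pos_of_ne_zero Subgroup.index_ne_zero_of_finite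
  have ht : ∀ φ ∈ SF H A, ∃ t : ℕ, d φ = H.index * t := by
    intro φ hφ
    have hφ' : φ ∈ inducedIrrAbove H A := by rw [← coe_SF]; exact hφ
    have hφS := above_subset H A hφ'
    obtain ⟨θ, h1, h2, h3, rfl⟩ := hφ'
    obtain ⟨t, ht0, ht⟩ := irr_apply_one h1
    refine ⟨t, ?_⟩
    have h := hd _ hφS
    rw [Cfsg.Agent.Lib.Helper25.indFun_one, ht] at h
    exact_mod_cast h.symm
  choose! t ht using ht
  refine ⟨∑ φ ∈ SF H A, (t φ) ^ 2, ?_⟩
  have e : ∑ φ ∈ SF H A, (d φ) ^ 2 = H.index * (H.index * ∑ φ ∈ SF H A, (t φ) ^ 2) := by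
    rw [Finset.mul_sum, Finset.mul_sum]
    apply Finset.sum_congr rfl
    intro φ hφ
    rw [ht φ hφ]; ring
  rw [e] at hw
  apply Nat.eq_of_mul_eq_mul_left he0
  rw [← hw]; ring

open Classical in
theorem descend (hC : ∀ h ∈ H, h ≠ 1 → Subgroup.centralizer ({h} : Set N) ≤ H)
    (hsolv : Group.IsSolvable H) (τ : (N → ℂ) → (G → ℂ))
    (hτ : IsLinearIsometryOn (zspanOn (inducedIrrAbove H ⊥) {1}ᶜ) τ)
    (hτ1 : ∀ α ∈ zspanOn (inducedIrrAbove H ⊥) {1}ᶜ, τ α 1 = 0)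
    (A B C D : Subgroup N) [A.Normal] [B.Normal] [C.Normal] [D.Normal] (hAH : A < H)
    (hBA : B ≤ A) (hDC : D ≤ C) (hCH : C ≤ H)
    (hcent : ∀ x ∈ D, ∀ y ∈ C, x * y * x⁻¹ * y⁻¹ ∈ B)
    (hA : IsCoherent (inducedIrrAbove H A) {1}ᶜ τ)
    (hlt : 4 * C.index ^ 2 * D.relIndex C < (A.relIndex H - 1) ^ 2) :
    IsCoherent (inducedIrrAbove H B) {1}ᶜ τ := by
  choose! d hd0 hd using (fun (φ : N → ℂ) (hφ : φ ∈ inducedIrrAbove H ⊥) =>
    irr_apply_one (above_irr H hC hφ))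
  have hsubA := above_subset H A
  have hsubB := above_subset H B
  have he0 : 0 < H.index := Nat.pos_of_ne_zero Subgroup.index_ne_zero_of_finite
  have hr0 : 0 < A.relIndex H := Nat.pos_of_ne_zero Subgroup.index_ne_zero_of_finite
  have hw := weight H hC d hd A
  have hAtop : A.subgroupOf H ≠ ⊤ := by
    intro h
    exact absurd (Subgroup.subgroupOf_eq_top.mp h) (not_le_of_gt hAH)
  obtain ⟨l, hl1, hl2, hl3, hl4⟩ := exists_linear hsolv (A.subgroupOf H) hAtop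
  have hχ₁A : indFun H l ∈ inducedIrrAbove H A :=
    ⟨l, hl1, hl2, fun a ha => hl3 a (Subgroup.mem_subgroupOf.mpr ha), rfl⟩
  have hdχ₁ : d (indFun H l) = H.index := by
    have h := hd _ (hsubA hχ₁A)
    rw [Cfsg.Agent.Lib.Helper25.indFun_one, hl4, mul_one] at h
    exact_mod_cast h.symm
  have hdegB : ∀ χ ∈ inducedIrrAbove H B, ∃ t : ℕ, d χ = H.index * t ∧
      2 * H.index * t < A.relIndex H - 1 := by
    rintro χ hχ
    have hχS := hsubB hχ
    obtain ⟨θ, h1, h2, h3, rfl⟩ := hχ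
    obtain ⟨t, ht0, ht⟩ := irr_apply_one h1
    refine ⟨t, ?_, ?_⟩
    · have h := hd _ hχS
      rw [Cfsg.Agent.Lib.Helper25.indFun_one, ht] at h
      exact_mod_cast h.symm
    · have hb := degree_bound (C.subgroupOf H) (D.subgroupOf H)
        (fun x hx => hDC hx) h1 (by
          intro x hx y hy
          exact h3 _ (hcent x hx y hy)) ht
      have c1 : Nat.card (C.subgroupOf H) = Nat.card C :=
        Nat.card_congr (Subgroup.subgroupOfEquivOfLe hCH).toEquiv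
      have c2 : Nat.card (D.subgroupOf H) = Nat.card D :=
        Nat.card_congr (Subgroup.subgroupOfEquivOfLe (hDC.trans hCH)).toEquiv
      have c3 : Nat.card (D.subgroupOf C) = Nat.card D :=
        Nat.card_congr (Subgroup.subgroupOfEquivOfLe hDC).toEquiv
      rw [c1, c2] at hb
      have c4 := (D.subgroupOf C).card_mul_index
      rw [c3] at c4
      exact Cfsg.Agent.S1519.arith Nat.card_pos Nat.card_pos hb C.card_mul_index
        H.card_mul_index c4 hlt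
  have hext := extend_many_irr (T := inducedIrrAbove H ⊥) (fun ξ hξ => above_irr H hC hξ) d hd τ
    hτ hτ1 (SF H A) (by rw [coe_SF]; exact hsubA) (by rw [coe_SF]; exact hA) (indFun H l)
    (by
      have := hχ₁A
      rw [← coe_SF] at this
      exact this) (SF H B) (by
      intro χ hχ
      have hχB : χ ∈ inducedIrrAbove H B := by rw [← coe_SF]; exact hχ
      obtain ⟨t, ht1, ht2⟩ := hdegB χ hχB
      refine ⟨hsubB hχB, by rw [hdχ₁, ht1]; exact Dvd.intro _ rfl, ?_⟩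
      rw [hdχ₁, ht1]
      have h5 : H.index * (2 * H.index * t) + H.index < H.index * A.relIndex H := by
        have h6 : 2 * H.index * t + 1 < A.relIndex H := by omega
        calc H.index * (2 * H.index * t) + H.index = H.index * (2 * H.index * t + 1) := by ring
          _ < H.index * A.relIndex H := Nat.mul_lt_mul_of_pos_left h6 he0
      have h7 : 2 * H.index * (H.index * t) = H.index * (2 * H.index * t) := by ring
      rw [h7]
      omega)
  refine coherent_mono (Y := (↑(SF H A ∪ SF H B) : Set (N → ℂ))) ?_ hext ?_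
  · intro x hx
    rw [← coe_SF] at hx
    exact Finset.mem_coe.mpr (Finset.mem_union_right _ hx)
  · obtain ⟨α, hα, hα0⟩ := hA.1
    exact ⟨α, zspanOn_mono (above_mono H hBA) hα, hα0⟩

theorem chain (hC : ∀ h ∈ H, h ≠ 1 → Subgroup.centralizer ({h} : Set N) ≤ H)
    (hnil : Group.IsNilpotent H) (τ : (N → ℂ) → (G → ℂ))
    (hτ : IsLinearIsometryOn (zspanOn (inducedIrrAbove H ⊥) {1}ᶜ) τ)
    (hτ1 : ∀ α ∈ zspanOn (inducedIrrAbove H ⊥) {1}ᶜ, τ α 1 = 0)
    (M T₀ A₀ : Subgroup N) [hM : M.Normal] [hT : T₀.Normal] [A₀.Normal] (hMA₀ : M ≤ A₀)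
    (hA₀H : A₀ < H) (hT₀H : T₀ ≤ H)
    (hT₀ : ∀ x ∈ T₀, ∀ y ∈ H, x * y * x⁻¹ * y⁻¹ ∈ M)
    (hineq : ∀ A : Subgroup N, A.Normal → M ≤ A → A ≤ A₀ →
      4 * H.index ^ 2 * (A ⊔ T₀).relIndex H < (A.relIndex H - 1) ^ 2)
    (hcoh : IsCoherent (inducedIrrAbove H A₀) {1}ᶜ τ) :
    IsCoherent (inducedIrrAbove H M) {1}ᶜ τ := by
  have hsolv : Group.IsSolvable H := inferInstance
  have hMH : M ≤ H := hMA₀.trans hA₀H.le
  have hnilq : Group.IsNilpotent (↥H ⧸ M.subgroupOf H) := inferInstance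
  have key : ∀ A : Subgroup N, A.Normal → M ≤ A → A ≤ A₀ →
      IsCoherent (inducedIrrAbove H A) {1}ᶜ τ → IsCoherent (inducedIrrAbove H M) {1}ᶜ τ := by
    intro A
    induction A using WellFoundedLT.induction with
    | ind A ih =>
      intro hAn hMA hAA₀ hA
      by_cases hAM : A = M
      · rw [← hAM]; exact hA
      have hAH : A ≤ H := hAA₀.trans hA₀H.le
      have hBA : ⁅A, H⁆ ⊔ M ≤ A := sup_le (Subgroup.commutator_le_left A H) hMA
      have hBne : ⁅A, H⁆ ⊔ M ≠ A := by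
        intro h
        exact hAM (le_antisymm (Cfsg.Agent.S1520.nil_step M H A hnilq hAH hMH h.ge) hMA)
      have hBlt : ⁅A, H⁆ ⊔ M < A := lt_of_le_of_ne hBA hBne
      refine ih (⁅A, H⁆ ⊔ M) hBlt inferInstance le_sup_right (hBA.trans hAA₀) ?_
      refine descend H hC hsolv τ hτ hτ1 A (⁅A, H⁆ ⊔ M) H (A ⊔ T₀)
        (lt_of_le_of_lt hAA₀ hA₀H) hBA (sup_le hAH hT₀H) le_rfl ?_ hA (hineq A hAn hMA hAA₀)
      have hπ1 : ∀ x : N, QuotientGroup.mk' (⁅A, H⁆ ⊔ M) x = 1 ↔ x ∈ ⁅A, H⁆ ⊔ M :=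
        fun x => QuotientGroup.eq_one_iff x
      have hle : A ⊔ T₀ ≤ (Subgroup.centralizer ((H.map (QuotientGroup.mk' (⁅A, H⁆ ⊔ M)) :
          Subgroup (N ⧸ (⁅A, H⁆ ⊔ M))) : Set (N ⧸ (⁅A, H⁆ ⊔ M)))).comap
          (QuotientGroup.mk' (⁅A, H⁆ ⊔ M)) := by
        refine sup_le ?_ ?_
        · intro u hu
          rw [Subgroup.mem_comap, Subgroup.mem_centralizer_iff]
          rintro _ ⟨k, hk, rfl⟩
          have h1 : QuotientGroup.mk' (⁅A, H⁆ ⊔ M) ⁅u, k⁆ = 1 := (hπ1 _).mpr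
            ((le_sup_left : ⁅A, H⁆ ≤ ⁅A, H⁆ ⊔ M) (Subgroup.commutator_mem_commutator hu hk))
          rw [map_commutatorElement, commutatorElement_eq_one_iff_mul_comm] at h1
          exact h1.symm
        · intro u hu
          rw [Subgroup.mem_comap, Subgroup.mem_centralizer_iff]
          rintro _ ⟨k, hk, rfl⟩
          have h1 : QuotientGroup.mk' (⁅A, H⁆ ⊔ M) ⁅u, k⁆ = 1 := (hπ1 _).mpr
            ((le_sup_right : M ≤ ⁅A, H⁆ ⊔ M) (hT₀ u hu k hk))
          rw [map_commutatorElement, commutatorElement_eq_one_iff_mul_comm] at h1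
          exact h1.symm
      intro x hx y hy
      have h2 := Subgroup.mem_centralizer_iff.mp (hle hx) (QuotientGroup.mk' (⁅A, H⁆ ⊔ M) y)
        ⟨y, hy, rfl⟩
      rw [← commutatorElement_def, ← hπ1, map_commutatorElement,
        commutatorElement_eq_one_iff_mul_comm]
      exact h2.symm
  exact key A₀ inferInstance hMA₀ le_rfl hcoh

end frob2

theorem arith4 {e x z : ℕ} (hx : e + 1 ≤ x) (hz : e + 1 ≤ z) (he : 1 ≤ e) :
    4 * e ^ 2 * x < (x * z - 1) ^ 2 := by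
  have h1 : x * e + e + 1 ≤ x * z := by nlinarith
  obtain ⟨s, hs⟩ : ∃ s, x * z = s + 1 := ⟨x * z - 1, by omega⟩
  rw [hs, Nat.add_sub_cancel]
  have h2 : e * (x + 1) ≤ s := by nlinarith
  have h3 : (e * (x + 1)) ^ 2 ≤ s ^ 2 := Nat.pow_le_pow_left h2 2
  have h4 : 4 * x < (x + 1) ^ 2 := by nlinarith
  have h5 : 0 < e ^ 2 := by positivity
  calc 4 * e ^ 2 * x = e ^ 2 * (4 * x) := by ring
    _ < e ^ 2 * (x + 1) ^ 2 := Nat.mul_lt_mul_of_pos_left h4 h5
    _ = (e * (x + 1)) ^ 2 := by ring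
    _ ≤ s ^ 2 := h3

end Cfsg.Agent.Lib.Helper24.Coh10
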