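import Cfsg.Agent.Lib.Helper24.BrauerFeit
import Cfsg.Agent.Lib.Helper7.BlockFirst3
import Cfsg.Agent.S4666

set_option autoImplicit false
set_option linter.style.haveILetI false
set_option linter.unusedSectionVars false
open Cfsg
open Cfsg.Agent.Lib.Helper7
open scoped ComplexConjugate

namespace Cfsg.Agent.Lib.Helper24

universe u
variable {G : Type u} [Group G] {M : Ideal AlgInt}

/-- A `2`-block of defect one consists of two characters, equal on elements of odd order and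
opposite on elements of even order. -/
theorem defect_one_two [Finite G] (hM : IsPModular 2 M) {B : Set (IrrCharacter G)}
    (hB : IsPBlock M B) (hd : blockDefect 2 B = 1) :
    ∃ χ₁ χ₂ : IrrCharacter G, χ₁ ≠ χ₂ ∧ B = {χ₁, χ₂} ∧
      (∀ g : G, ¬ 2 ∣ orderOf g → (χ₁ : G → ℂ) g = (χ₂ : G → ℂ) g) ∧
      (∀ g : G, 2 ∣ orderOf g → (χ₂ : G → ℂ) g = - (χ₁ : G → ℂ) g) := by
  classical
  haveI := hM.2.1.isPrime
  haveI : Fact (Nat.Prime 2) := ⟨hM.1⟩
  haveI := Fintype.ofFinite G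
  haveI := Fintype.ofFinite (IrrCharacter G)
  obtain ⟨χ₁, hχ₁, hh⟩ := exists_height_zero hB 2
  have h0 : blockHeight 2 B (χ₁ : G → ℂ) = 0 := by
    unfold blockHeight
    rw [hh, Nat.sub_self]
  obtain ⟨m, hm⟩ : ∃ m : IrrCharacter G → ℂ,
      m = fun ψ : IrrCharacter G => classInner (regPart 2 (χ₁ : G → ℂ)) (ψ : G → ℂ) := ⟨_, rfl⟩
  have hk0 : ∀ ψ : IrrCharacter G, ∃ k : ℤ, (2 : ℂ) * m ψ = k := by
    intro ψ
    by_cases hψ : ψ ∈ B
    · obtain ⟨k, hk⟩ := Cfsg.Agent.S4666.exists_int_defect hM hB χ₁ ψ hψ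
      refine ⟨k, ?_⟩
      rw [hd] at hk
      rw [hm, ← hk]
      norm_num
    · refine ⟨0, ?_⟩
      rw [hm]
      simp only
      rw [contrib_eq_zero hM hB hχ₁ hψ]
      simp
  choose k hk using hk0
  have hmk : ∀ ψ, m ψ = (k ψ : ℂ) / 2 := by
    intro ψ
    rw [← hk ψ]
    ring
  have hkB : ∀ ψ ∈ B, k ψ ≠ 0 := by
    intro ψ hψ h
    have h1 := contrib_ne_zero hM hB hχ₁ h0 hψ
    apply h1
    have h2 := hmk ψ
    rw [h, hm] at h2
    simpa using h2
  have hkB' : ∀ ψ, ψ ∉ B → k ψ = 0 := by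
    intro ψ hψ
    have h1 := contrib_eq_zero hM hB hχ₁ hψ
    have h2 := hk ψ
    rw [hm] at h2
    simp only at h2
    rw [h1, mul_zero] at h2
    exact_mod_cast h2.symm
  have hpars : ∑ ψ : IrrCharacter G, (k ψ) ^ 2 = 2 * k χ₁ := by
    have h1 := contrib_parseval (p := 2) χ₁
    have h2 : ∀ ψ : IrrCharacter G, classInner (regPart 2 (χ₁ : G → ℂ)) (ψ : G → ℂ)
        = (k ψ : ℂ) / 2 := by
      intro ψ
      have := hmk ψ
      rw [hm] at this
      exact this
    simp only [h2] at h1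
    have h3 : (∑ ψ : IrrCharacter G, ((k ψ) ^ 2 : ℤ) : ℂ) = ((2 * k χ₁ : ℤ) : ℂ) := by
      have h4 : ∀ ψ : IrrCharacter G, (k ψ : ℂ) / 2 * conj ((k ψ : ℂ) / 2)
          = ((k ψ : ℂ) ^ 2) / 4 := by
        intro ψ
        rw [map_div₀, map_intCast]
        have : conj (2 : ℂ) = 2 := Complex.conj_ofNat 2
        rw [this]
        ring
      simp only [h4] at h1
      rw [← Finset.sum_div] at h1
      push_cast
      field_simp at h1
      linear_combination (1 / 2 : ℂ) * h1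
    exact_mod_cast h3
  have hexp : ∀ g : G, regPart 2 (χ₁ : G → ℂ) g
      = ∑ ψ : IrrCharacter G, (k ψ : ℂ) / 2 * (ψ : G → ℂ) g := by
    intro g
    rw [classFunction_apply_eq_sum (isClassFunction_regPart (isClassFunction_irr χ₁)) g]
    apply Finset.sum_congr rfl
    intro ψ _
    have := hmk ψ
    rw [hm] at this
    simp only at this
    rw [this]
  have hsplit : (k χ₁) ^ 2 + ∑ ψ ∈ Finset.univ.erase χ₁, (k ψ) ^ 2 = 2 * k χ₁ := by
    rw [← hpars, Finset.add_sum_erase _ (fun ψ => (k ψ) ^ 2) (Finset.mem_univ χ₁)]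
  have hnn : 0 ≤ ∑ ψ ∈ Finset.univ.erase χ₁, (k ψ) ^ 2 :=
    Finset.sum_nonneg fun ψ _ => sq_nonneg _
  have hk1ne := hkB χ₁ hχ₁
  have hk1 : k χ₁ = 1 ∨ k χ₁ = 2 := by
    have h1 : (k χ₁ - 1) ^ 2 ≤ 1 := by nlinarith
    have h2 : k χ₁ ≤ 2 := by nlinarith
    have h3 : 0 ≤ k χ₁ := by nlinarith
    omega
  rcases hk1 with hk1 | hk1
  · -- the main case
    rw [hk1] at hsplit
    have hsum1 : ∑ ψ ∈ Finset.univ.erase χ₁, (k ψ) ^ 2 = 1 := by linarith
    obtain ⟨χ₂, hχ₂m, hχ₂⟩ : ∃ χ₂ ∈ Finset.univ.erase χ₁, (k χ₂) ^ 2 ≠ 0 := by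
      by_contra hcon
      push Not at hcon
      rw [Finset.sum_eq_zero hcon] at hsum1
      exact zero_ne_one hsum1
    have hne : χ₂ ≠ χ₁ := (Finset.mem_erase.1 hχ₂m).1
    have hsplit2 : (k χ₂) ^ 2 + ∑ ψ ∈ (Finset.univ.erase χ₁).erase χ₂, (k ψ) ^ 2 = 1 := by
      rw [← hsum1, Finset.add_sum_erase _ (fun ψ => (k ψ) ^ 2) hχ₂m]
    have hnn2 : 0 ≤ ∑ ψ ∈ (Finset.univ.erase χ₁).erase χ₂, (k ψ) ^ 2 :=
      Finset.sum_nonneg fun ψ _ => sq_nonneg _
    have hk2pos : 1 ≤ (k χ₂) ^ 2 := by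
      have : 0 ≤ (k χ₂) ^ 2 := sq_nonneg _
      omega
    have hk2sq : (k χ₂) ^ 2 = 1 := by linarith
    have hrest : ∑ ψ ∈ (Finset.univ.erase χ₁).erase χ₂, (k ψ) ^ 2 = 0 := by linarith
    have hrest' : ∀ ψ : IrrCharacter G, ψ ≠ χ₁ → ψ ≠ χ₂ → k ψ = 0 := by
      intro ψ h1 h2
      have := (Finset.sum_eq_zero_iff_of_nonneg (fun ψ _ => sq_nonneg (k ψ))).1 hrest ψ
        (Finset.mem_erase.2 ⟨h2, Finset.mem_erase.2 ⟨h1, Finset.mem_univ _⟩⟩)
      exact pow_eq_zero_iff (two_ne_zero) |>.1 this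
    have hexp2 : ∀ g : G, regPart 2 (χ₁ : G → ℂ) g
        = 1 / 2 * (χ₁ : G → ℂ) g + (k χ₂ : ℂ) / 2 * (χ₂ : G → ℂ) g := by
      intro g
      rw [hexp g, ← Finset.add_sum_erase _ _ (Finset.mem_univ χ₁),
        ← Finset.add_sum_erase _ _ hχ₂m, Finset.sum_eq_zero, hk1]
      · push_cast; ring
      · intro ψ hψ
        rw [hrest' ψ (Finset.mem_erase.1 (Finset.mem_erase.1 hψ).2).1 (Finset.mem_erase.1 hψ).1]
        simp
    have hk2 : k χ₂ = 1 := by
      have h1 : k χ₂ = 1 ∨ k χ₂ = -1 := by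
        have : (k χ₂ - 1) * (k χ₂ + 1) = 0 := by linarith
        rcases mul_eq_zero.1 this with h | h
        · left; omega
        · right; omega
      rcases h1 with h1 | h1
      · exact h1
      · exfalso
        have h2 := hexp2 1
        rw [h1] at h2
        obtain ⟨n₁, hn₁, e₁⟩ := irr_apply_one χ₁.2
        obtain ⟨n₂, hn₂, e₂⟩ := irr_apply_one χ₂.2
        have h3 : regPart 2 (χ₁ : G → ℂ) 1 = (χ₁ : G → ℂ) 1 := by
          simp [regPart]
        rw [h3, e₁, e₂] at h2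
        have h4 : (n₁ : ℂ) + (n₂ : ℂ) = 0 := by
          push_cast at h2
          linear_combination 2 * h2
        have h5 : n₁ + n₂ = 0 := by exact_mod_cast h4
        omega
    refine ⟨χ₁, χ₂, hne.symm, ?_, ?_, ?_⟩
    · ext ψ
      simp only [Set.mem_insert_iff, Set.mem_singleton_iff]
      constructor
      · intro hψ
        by_contra hcon
        push Not at hcon
        exact hkB ψ hψ (hrest' ψ hcon.1 hcon.2)
      · rintro (rfl | rfl)
        · exact hχ₁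
        · by_contra hcon
          rw [hkB' _ hcon] at hk2
          exact zero_ne_one hk2
    · intro g hg
      have h2 := hexp2 g
      rw [hk2] at h2
      have h3 : regPart 2 (χ₁ : G → ℂ) g = (χ₁ : G → ℂ) g := by
        simp [regPart, hg]
      rw [h3] at h2
      push_cast at h2
      linear_combination 2 * h2
    · intro g hg
      have h2 := hexp2 g
      rw [hk2] at h2
      have h3 : regPart 2 (χ₁ : G → ℂ) g = 0 := by
        simp [regPart, hg]
      rw [h3] at h2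
      push_cast at h2
      linear_combination (-2) * h2
  · -- the degenerate case: defect zero
    exfalso
    rw [hk1] at hsplit
    have hrest : ∑ ψ ∈ Finset.univ.erase χ₁, (k ψ) ^ 2 = 0 := by linarith
    have hrest' : ∀ ψ : IrrCharacter G, ψ ≠ χ₁ → k ψ = 0 := by
      intro ψ h1
      have := (Finset.sum_eq_zero_iff_of_nonneg (fun ψ _ => sq_nonneg (k ψ))).1 hrest ψ
        (Finset.mem_erase.2 ⟨h1, Finset.mem_univ _⟩)
      exact pow_eq_zero_iff (two_ne_zero) |>.1 this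
    have hexp2 : ∀ g : G, regPart 2 (χ₁ : G → ℂ) g = (χ₁ : G → ℂ) g := by
      intro g
      rw [hexp g, ← Finset.add_sum_erase _ _ (Finset.mem_univ χ₁), Finset.sum_eq_zero, hk1]
      · push_cast; ring
      · intro ψ hψ
        rw [hrest' ψ (Finset.mem_erase.1 hψ).1]
        simp
    have hvan := defect_zero_of_vanish hM.1 χ₁ (fun g hg => by
      rw [← hexp2 g]
      simp [regPart, hg])
    unfold blockDefect at hd
    rw [← hh, hvan, Nat.sub_self] at hd
    exact zero_ne_one hd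

end Cfsg.Agent.Lib.Helper24
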