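import Mathlib

set_option autoImplicit false
set_option linter.style.haveILetI false
set_option linter.unusedSectionVars false

namespace Cfsg.Agent.Lib.Helper24

universe u

/-- Finitely many ways to write a positive rational as a sum of `k` unit fractions. -/
theorem egyptian_bound (k : ℕ) : ∀ A : ℚ, 0 < A → ∃ N : ℕ, ∀ (ι : Type u) (s : Finset ι)
    (f : ι → ℕ), s.card = k → (∀ i ∈ s, 0 < f i) → ∑ i ∈ s, (1 / (f i : ℚ)) = A →
    ∀ i ∈ s, f i ≤ N := by
  classical
  induction k with
  | zero =>
    intro A _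
    refine ⟨0, ?_⟩
    intro ι s f hs _ _ i hi
    rw [Finset.card_eq_zero] at hs
    rw [hs] at hi
    exact absurd hi (Finset.notMem_empty i)
  | succ k ih =>
    intro A hA
    choose N' hN' using ih
    set b : ℕ := ⌊((k : ℚ) + 1) / A⌋₊ with hb
    refine ⟨b + ∑ m ∈ Finset.range (b + 1),
      (if h : 0 < A - 1 / (m : ℚ) then N' (A - 1 / (m : ℚ)) h else 0), ?_⟩
    intro ι s f hs hpos hsum i hi
    have hne : s.Nonempty := ⟨i, hi⟩
    obtain ⟨i₀, hi₀, hmin⟩ := Finset.exists_min_image s f hne
    have hm0 : (0 : ℚ) < (f i₀ : ℚ) := by exact_mod_cast hpos i₀ hi₀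
    have hle : A ≤ ((k : ℚ) + 1) * (1 / (f i₀ : ℚ)) := by
      rw [← hsum]
      have h1 : ∑ i ∈ s, (1 / (f i : ℚ)) ≤ ∑ _i ∈ s, (1 / (f i₀ : ℚ)) := by
        apply Finset.sum_le_sum
        intro j hj
        have hj0 : (0 : ℚ) < (f j : ℚ) := by exact_mod_cast hpos j hj
        apply one_div_le_one_div_of_le hm0
        exact_mod_cast hmin j hj
      rw [Finset.sum_const, hs, nsmul_eq_mul] at h1
      push_cast at h1
      exact h1
    have hmb : f i₀ ≤ b := by
      apply Nat.le_floor
      rw [le_div_iff₀ hA]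
      have : A * (f i₀ : ℚ) ≤ (k : ℚ) + 1 := by
        have := mul_le_mul_of_nonneg_right hle hm0.le
        rwa [mul_assoc, one_div, inv_mul_cancel₀ hm0.ne', mul_one] at this
      linarith
    by_cases hii : i = i₀
    · rw [hii]
      exact hmb.trans (Nat.le_add_right _ _)
    · have hi' : i ∈ s.erase i₀ := Finset.mem_erase.2 ⟨hii, hi⟩
      have hsum' : ∑ j ∈ s.erase i₀, (1 / (f j : ℚ)) = A - 1 / (f i₀ : ℚ) := by
        rw [← hsum, ← Finset.add_sum_erase s _ hi₀]
        ring
      have hApos : 0 < A - 1 / (f i₀ : ℚ) := by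
        rw [← hsum']
        apply Finset.sum_pos
        · intro j hj
          have hj0 : (0 : ℚ) < (f j : ℚ) := by exact_mod_cast hpos j (Finset.mem_of_mem_erase hj)
          positivity
        · exact ⟨i, hi'⟩
      have h1 := hN' (A - 1 / (f i₀ : ℚ)) hApos ι (s.erase i₀) f
        (by rw [Finset.card_erase_of_mem hi₀, hs]; rfl)
        (fun j hj => hpos j (Finset.mem_of_mem_erase hj)) hsum' i hi'
      have h2 : (if h : 0 < A - 1 / ((f i₀ : ℕ) : ℚ) then N' (A - 1 / ((f i₀ : ℕ) : ℚ)) h else 0)
          ≤ ∑ m ∈ Finset.range (b + 1),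
            (if h : 0 < A - 1 / (m : ℚ) then N' (A - 1 / (m : ℚ)) h else 0) :=
        Finset.single_le_sum
          (f := fun m : ℕ => if h : 0 < A - 1 / (m : ℚ) then N' (A - 1 / (m : ℚ)) h else 0)
          (fun _ _ => Nat.zero_le _) (Finset.mem_range.2 (Nat.lt_succ_of_le hmb))
      rw [dif_pos hApos] at h2
      exact (h1.trans h2).trans (Nat.le_add_left _ _)

/-- Landau's theorem: the order of a finite group is bounded in terms of its class number. -/
theorem landau (k : ℕ) : ∃ N : ℕ, ∀ (G : Type u) [Group G] [Finite G],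
    Nat.card (ConjClasses G) ≤ k → Nat.card G ≤ N := by
  classical
  have h := fun c : ℕ => egyptian_bound.{u} c 1 one_pos
  choose N hN using h
  refine ⟨∑ c ∈ Finset.range (k + 1), N c, ?_⟩
  intro G _ _ hk
  haveI := Fintype.ofFinite G
  haveI := Fintype.ofFinite (ConjClasses G)
  have hG0 : 0 < Fintype.card G := Fintype.card_pos
  have hdvd : ∀ K : ConjClasses G, K.carrier.toFinset.card ∣ Fintype.card G := by
    intro K
    obtain ⟨g, rfl⟩ := ConjClasses.mk_surjective K
    rw [Set.toFinset_card, ConjClasses.card_carrier g]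
    apply Nat.div_dvd_of_dvd
    have := Subgroup.card_subgroup_dvd_card (MulAction.stabilizer (ConjAct G) g)
    rwa [Nat.card_eq_fintype_card, Nat.card_eq_fintype_card, ConjAct.card] at this
  have hKpos : ∀ K : ConjClasses G, 0 < K.carrier.toFinset.card := by
    intro K
    obtain ⟨g, rfl⟩ := ConjClasses.mk_surjective K
    exact Finset.card_pos.2 ⟨g, by simp [ConjClasses.mem_carrier_mk]⟩
  let f : ConjClasses G → ℕ := fun K => Fintype.card G / K.carrier.toFinset.card
  have hfpos : ∀ K ∈ (Finset.univ : Finset (ConjClasses G)), 0 < f K := by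
    intro K _
    exact Nat.div_pos (Nat.le_of_dvd hG0 (hdvd K)) (hKpos K)
  have hsum : ∑ K ∈ (Finset.univ : Finset (ConjClasses G)), (1 / (f K : ℚ)) = 1 := by
    have h1 : ∀ K : ConjClasses G, (1 / (f K : ℚ))
        = (K.carrier.toFinset.card : ℚ) / (Fintype.card G : ℚ) := by
      intro K
      have hK0 : (K.carrier.toFinset.card : ℚ) ≠ 0 := by exact_mod_cast (hKpos K).ne'
      simp only [f]
      rw [Nat.cast_div (hdvd K) hK0, one_div_div]
    rw [Finset.sum_congr rfl (fun K _ => h1 K), ← Finset.sum_div]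
    have h2 := sum_conjClasses_card_eq_card G
    have h3 : (∑ K : ConjClasses G, (K.carrier.toFinset.card : ℚ)) = (Fintype.card G : ℚ) := by
      exact_mod_cast h2
    rw [h3, div_self]
    exact_mod_cast hG0.ne'
  have h1 := hN (Finset.univ : Finset (ConjClasses G)).card (ConjClasses G) Finset.univ f rfl
    hfpos hsum (ConjClasses.mk 1) (Finset.mem_univ _)
  have h2 : f (ConjClasses.mk 1) = Fintype.card G := by
    have : (ConjClasses.mk (1 : G)).carrier.toFinset.card = 1 := by
      rw [Finset.card_eq_one]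
      refine ⟨1, ?_⟩
      ext g
      simp only [Set.mem_toFinset, ConjClasses.mem_carrier_iff_mk_eq, Finset.mem_singleton,
        ConjClasses.mk_eq_mk_iff_isConj]
      constructor
      · intro h
        exact isConj_one_left.1 h
      · rintro rfl
        exact IsConj.refl _
    simp only [f, this, Nat.div_one]
  rw [h2] at h1
  rw [Nat.card_eq_fintype_card]
  refine h1.trans ?_
  apply Finset.single_le_sum (f := N) (fun _ _ => Nat.zero_le _)
  rw [Finset.mem_range, Finset.card_univ, ← Nat.card_eq_fintype_card]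
  exact Nat.lt_succ_of_le hk

end Cfsg.Agent.Lib.Helper24
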