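import Cfsg.Agent.Lib.Helper7.BlockHeight
import Mathlib.LinearAlgebra.Matrix.Rank

set_option autoImplicit false
set_option linter.style.haveILetI false
set_option linter.unusedSectionVars false
open Cfsg
open Cfsg.Agent.Lib.Helper7
open scoped ComplexConjugate

namespace Cfsg.Agent.Lib.Helper24

universe u
variable {G : Type u} [Group G] {M : Ideal AlgInt} {p : ℕ}

/-- a class of defect larger than the block has block coefficient in the ideal -/
theorem blockCoeff_memLocalIdeal_of_lt [Finite G] (hM : IsPModular p M)
    {B : Set (IrrCharacter G)} (hB : IsPBlock M B) {g : G}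
    (hg : blockDefect p B < (Nat.card (Subgroup.centralizer ({g} : Set G))).factorization p) :
    MemLocalIdeal M (blockCoeff B g) := by
  classical
  haveI := hM.2.1.isPrime
  haveI : Fact p.Prime := ⟨hM.1⟩
  set C := Subgroup.centralizer ({g} : Set G) with hC
  obtain ⟨P⟩ : Nonempty (Sylow p C) := inferInstance
  have hcardD : Nat.card ((P : Subgroup C).map C.subtype) = p ^ (Nat.card C).factorization p := by
    rw [Subgroup.card_map_of_injective C.subtype_injective]
    exact P.card_eq_multiplicity
  set m := sInf ((fun χ : IrrCharacter G => (charDegree (χ : G → ℂ)).factorization p) '' B) with hm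
  have key := memLocalRing_card_div_mul_blockCoeff hM hB ((P : Subgroup C).map C.subtype)
      (P.2.map C.subtype) (g := g)
      (by
        rintro x ⟨y, _, rfl⟩
        have : (y : G) ∈ Subgroup.centralizer ({g} : Set G) := hC ▸ y.2
        rw [Subgroup.mem_centralizer_singleton_iff] at this
        exact this)
      m
      (by
        intro χ hχ
        rw [hM.1.pow_dvd_iff_le_factorization (charDegree_pos χ).ne']
        exact sInf_le_of_mem p hχ)
  rw [hcardD] at key
  have hG0 : Nat.card G ≠ 0 := Nat.card_pos.ne'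
  have hGc : (Nat.card G : ℂ) ≠ 0 := by exact_mod_cast hG0
  have hp0 : (p : ℂ) ≠ 0 := by exact_mod_cast hM.1.ne_zero
  have e : ((p : ℂ) ^ m * ((p ^ (Nat.card C).factorization p : ℕ) : ℂ))
      = ((p ^ (m + (Nat.card C).factorization p) : ℕ) : ℂ) := by
    push_cast; rw [pow_add]
  rw [e] at key
  have hpk0 : p ^ (m + (Nat.card C).factorization p) ≠ 0 := pow_ne_zero _ hM.1.ne_zero
  have hpkc : ((p ^ (m + (Nat.card C).factorization p) : ℕ) : ℂ) ≠ 0 := by exact_mod_cast hpk0
  have h1 : MemLocalIdeal M (((p ^ (m + (Nat.card C).factorization p) : ℕ) : ℂ)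
      / (Nat.card G : ℂ)) := by
    rw [memLocalIdeal_div_iff hM hpk0 hG0, hM.1.factorization_pow, Finsupp.single_eq_same]
    have := sInf_le_factorization_card hB p
    rw [blockDefect] at hg
    omega
  have h2 := memLocalIdeal_mul_right h1 key
  have h3 : ((p ^ (m + (Nat.card C).factorization p) : ℕ) : ℂ) / (Nat.card G : ℂ)
      * ((Nat.card G : ℂ) / ((p ^ (m + (Nat.card C).factorization p) : ℕ) : ℂ) * blockCoeff B g)
      = blockCoeff B g := by
    field_simp
  rwa [h3] at h2

/-- a class of defect smaller than the block has central character values in the ideal -/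
theorem centralChar_memLocalIdeal_of_lt [Finite G] (hM : IsPModular p M)
    {B : Set (IrrCharacter G)} (hB : IsPBlock M B) {g : G}
    (hg : (Nat.card (Subgroup.centralizer ({g} : Set G))).factorization p < blockDefect p B)
    {χ : IrrCharacter G} (hχ : χ ∈ B) :
    MemLocalIdeal M (centralChar (χ : G → ℂ) g) := by
  classical
  haveI := hM.2.1.isPrime
  haveI : Fact p.Prime := ⟨hM.1⟩
  set C := Subgroup.centralizer ({g} : Set G) with hC
  obtain ⟨χ0, hχ0, hmin⟩ := exists_height_zero hB p
  have hidx0 : C.index ≠ 0 := Subgroup.index_ne_zero_of_finite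
  have hC0 : Nat.card C ≠ 0 := Nat.card_pos.ne'
  have ha : (Nat.card G).factorization p = (Nat.card C).factorization p + C.index.factorization p := by
    rw [← C.card_mul_index, Nat.factorization_mul hC0 hidx0]; rfl
  have hdeg0 : charDegree (χ0 : G → ℂ) ≠ 0 := (charDegree_pos χ0).ne'
  have h0 : MemLocalIdeal M (centralChar (χ0 : G → ℂ) g) := by
    have hlt : (charDegree (χ0 : G → ℂ)).factorization p < C.index.factorization p := by
      rw [blockDefect, ← hmin] at hg
      omega
    have := (memLocalIdeal_div_iff hM hidx0 hdeg0).2 hlt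
    rw [centralChar, ← hC, ← charDegree_cast (isCharacter_of_irr χ0.2), mul_div_right_comm]
    exact memLocalIdeal_mul_right this
      (memLocalRing_of_isIntegral (char_isIntegral (isCharacter_of_irr χ0.2) g))
  have := memLocalIdeal_add (sameBlock_of_mem hB hχ hχ0 g) h0
  rwa [sub_add_cancel] at this

/-- a matrix congruent to a unit diagonal matrix has determinant outside the ideal -/
theorem det_not_memLocalIdeal [M.IsPrime] {ι : Type*} [Fintype ι] [DecidableEq ι]
    (X : Matrix ι ι ℂ) (hd : ∀ i, MemLocalRing M (X i i)) (hd' : ∀ i, ¬ MemLocalIdeal M (X i i))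
    (ho : ∀ i j, i ≠ j → MemLocalIdeal M (X i j)) : ¬ MemLocalIdeal M X.det := by
  have hall : ∀ i j, MemLocalRing M (X i j) := by
    intro i j
    by_cases h : i = j
    · subst h; exact hd i
    · exact memLocalRing_of_memLocalIdeal (ho i j h)
  rw [Matrix.det_apply, ← Finset.add_sum_erase _ _ (Finset.mem_univ (1 : Equiv.Perm ι))]
  have h1 : ¬ MemLocalIdeal M (Equiv.Perm.sign (1 : Equiv.Perm ι) •
      ∏ i, X ((1 : Equiv.Perm ι) i) i) := by
    simp only [Equiv.Perm.sign_one, one_smul, Equiv.Perm.coe_one, id_eq]
    exact not_memLocalIdeal_prod _ _ (fun i _ => hd i) (fun i _ => hd' i)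
  have h2 : MemLocalIdeal M (∑ σ ∈ Finset.univ.erase (1 : Equiv.Perm ι),
      Equiv.Perm.sign σ • ∏ i, X (σ i) i) := by
    apply memLocalIdeal_sum
    intro σ hσ
    have hσ1 : σ ≠ 1 := (Finset.mem_erase.1 hσ).1
    obtain ⟨i, hi⟩ : ∃ i, σ i ≠ i := by
      by_contra hcon
      push Not at hcon
      exact hσ1 (Equiv.ext hcon)
    have h3 : MemLocalIdeal M (∏ i, X (σ i) i) := by
      rw [← Finset.mul_prod_erase _ _ (Finset.mem_univ i)]
      exact memLocalIdeal_mul_right (ho _ _ hi) (memLocalRing_prod _ _ (fun j _ => hall _ _))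
    rcases Int.units_eq_one_or (Equiv.Perm.sign σ) with h | h
    · rw [h, one_smul]; exact h3
    · rw [h]
      simp only [Units.neg_smul, one_smul]
      exact memLocalIdeal_neg h3
  intro h
  apply h1
  have := memLocalIdeal_sub h h2
  rwa [add_sub_cancel_right] at this

/-- counting blocks against classes -/
theorem card_blocks_le [Finite G] (hM : IsPModular p M) (Q : Set (IrrCharacter G) → Prop)
    (R : ConjClasses G → Prop) (hQ : ∀ B, Q B → IsPBlock M B)
    (h : ∀ B B', Q B → Q B' → ∀ χ ∈ B', ∀ K : ConjClasses G, ¬ R K →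
      MemLocalIdeal M (blockCoeff B K.out * centralChar (χ : G → ℂ) K.out)) :
    Nat.card {B : Set (IrrCharacter G) // Q B} ≤ Nat.card {K : ConjClasses G // R K} := by
  classical
  haveI := hM.2.1.isPrime
  haveI := Fintype.ofFinite G
  haveI := Fintype.ofFinite (ConjClasses G)
  haveI := Fintype.ofFinite (IrrCharacter G)
  haveI : Fintype {B : Set (IrrCharacter G) // Q B} := Fintype.ofFinite _
  haveI : Fintype {K : ConjClasses G // R K} := Fintype.ofFinite _
  have hne : ∀ B : {B : Set (IrrCharacter G) // Q B}, ∃ χ, χ ∈ B.1 :=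
    fun B => isPBlock_nonempty (hQ B.1 B.2)
  choose c hc using hne
  let A : Matrix {B : Set (IrrCharacter G) // Q B} {K : ConjClasses G // R K} ℂ :=
    fun B K => blockCoeff B.1 K.1.out
  let W : Matrix {K : ConjClasses G // R K} {B : Set (IrrCharacter G) // Q B} ℂ :=
    fun K B => centralChar (c B : G → ℂ) K.1.out
  have hAW : ∀ B B', MemLocalIdeal M ((A * W) B B' - (if B = B' then 1 else 0)) := by
    intro B B'
    have h1 : (if B = B' then (1 : ℂ) else 0) = Om (blockCoeff B.1) (c B') := by
      rw [Om_blockCoeff]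
      by_cases hBB : B = B'
      · rw [if_pos hBB, Set.indicator_of_mem (hBB ▸ hc B')]
      · rw [if_neg hBB, Set.indicator_of_notMem]
        intro hmem
        apply hBB
        apply Subtype.ext
        rw [isPBlock_eq_blockOf (hQ B.1 B.2) hmem, isPBlock_eq_blockOf (hQ B'.1 B'.2) (hc B')]
    rw [h1, Om_eq_sum_centralChar (isClassFunction_blockCoeff _), Matrix.mul_apply]
    have h2 : ∑ K : ConjClasses G, blockCoeff B.1 K.out * centralChar (c B' : G → ℂ) K.out
        = ∑ K : {K : ConjClasses G // R K}, A B K * W K B'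
          + ∑ K ∈ Finset.univ.filter (fun K : ConjClasses G => ¬ R K),
            blockCoeff B.1 K.out * centralChar (c B' : G → ℂ) K.out := by
      rw [← Finset.sum_filter_add_sum_filter_not Finset.univ (fun K : ConjClasses G => R K)]
      congr 1
      rw [Finset.sum_subtype (p := R) _ (by simp)]
    rw [h2, sub_add_cancel_left]
    apply memLocalIdeal_neg
    apply memLocalIdeal_sum
    intro K hK
    exact h B.1 B'.1 B.2 B'.2 (c B') (hc B') K (Finset.mem_filter.1 hK).2
  have hdet : ¬ MemLocalIdeal M (A * W).det := by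
    apply det_not_memLocalIdeal
    · intro B
      have := hAW B B
      rw [if_pos rfl] at this
      exact memLocalRing_of_sub this memLocalRing_one
    · intro B
      have := hAW B B
      rw [if_pos rfl] at this
      exact not_memLocalIdeal_of_sub this not_memLocalIdeal_one
    · intro B B' hBB
      have := hAW B B'
      rwa [if_neg hBB, sub_zero] at this
  have hunit : IsUnit (A * W) := by
    rw [Matrix.isUnit_iff_isUnit_det]
    exact (ne_zero_of_not_memLocalIdeal hdet).isUnit
  have h1 := Matrix.rank_of_isUnit _ hunit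
  have h2 := Matrix.rank_mul_le_left A W
  have h3 := Matrix.rank_le_card_width A
  rw [Nat.card_eq_fintype_card, Nat.card_eq_fintype_card]
  omega

end Cfsg.Agent.Lib.Helper24
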