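import Cfsg.Agent.Lib.Helper24.RegGenChar

set_option autoImplicit false
set_option linter.style.haveILetI false
set_option linter.unusedSectionVars false
open Cfsg
open Cfsg.Agent.Lib.Helper7
open scoped ComplexConjugate

namespace Cfsg.Agent.Lib.Helper24

universe u
variable {G : Type u} [Group G] {M : Ideal AlgInt} {p : ℕ}

theorem conj_regInd (p : ℕ) (g : G) : conj (regInd p G g) = regInd p G g := by
  by_cases hg : p ∣ orderOf g
  · rw [regInd_of_singular hg, map_zero]
  · rw [regInd_of_regular hg, map_one]

theorem regInd_mul_self (p : ℕ) (g : G) : regInd p G g * regInd p G g = regInd p G g := by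
  by_cases hg : p ∣ orderOf g
  · rw [regInd_of_singular hg, mul_zero]
  · rw [regInd_of_regular hg, mul_one]

/-- The principal `p`-block has at most `|G|_p ^ 2` irreducible characters. -/
theorem card_principalBlock_le [Finite G] (hM : IsPModular p M) :
    Nat.card (principalBlock M G) ≤ p ^ (2 * (Nat.card G).factorization p) := by
  classical
  haveI := hM.2.1.isPrime
  haveI : Fact p.Prime := ⟨hM.1⟩
  haveI := Fintype.ofFinite G
  haveI := Fintype.ofFinite (IrrCharacter G)
  set a := (Nat.card G).factorization p with ha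
  set θ : G → ℂ := fun g => (p : ℂ) ^ a * regInd p G g with hθdef
  have hθ : IsGeneralizedCharacter G θ := isGeneralizedCharacter_regInd p
  have hθc : IsClassFunction G θ := by
    intro g x
    simp only [hθdef, isClassFunction_regInd p g x]
  have hn : ∀ ψ : IrrCharacter G, ∃ n : ℤ, classInner θ (ψ : G → ℂ) = n := fun ψ =>
    Cfsg.Agent.Lib.Helper2.IsGeneralizedCharacter.classInner_int hθ
      (Cfsg.Agent.Lib.Helper2.IsCharacter.isGeneralizedCharacter (isCharacter_of_irr ψ.2))
  choose n hn using hn
  have hcard : (Nat.card G : ℂ) ≠ 0 := by exact_mod_cast Nat.card_pos.ne'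
  have hpars : classInner θ θ = ((∑ ψ : IrrCharacter G, n ψ ^ 2 : ℤ) : ℂ) := by
    rw [Cfsg.Agent.Lib.Helper2.classInner_eq_sum_irr θ hθc]
    push_cast
    apply Finset.sum_congr rfl
    intro ψ _
    rw [← classInner_conj_symm θ (ψ : G → ℂ), hn ψ]
    simp [pow_two]
  have hnorm : classInner θ θ * (Nat.card G : ℂ)
      = ((p ^ (2 * a) * (Finset.univ.filter (fun g : G => ¬ p ∣ orderOf g)).card : ℕ) : ℂ) := by
    have h1 : ∀ g : G, θ g * conj (θ g)
        = (p : ℂ) ^ (2 * a) * (if ¬ p ∣ orderOf g then 1 else 0) := by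
      intro g
      simp only [hθdef, map_mul, map_pow, Complex.conj_natCast, conj_regInd]
      by_cases hg : p ∣ orderOf g
      · rw [regInd_of_singular hg, if_neg (not_not.2 hg)]; ring
      · rw [regInd_of_regular hg, if_pos hg]; ring
    rw [classInner, Finset.sum_congr rfl (fun g _ => h1 g), ← Finset.mul_sum, Finset.sum_boole]
    push_cast
    field_simp
  have hint : (∑ ψ : IrrCharacter G, n ψ ^ 2) * (Nat.card G : ℤ)
      = ((p ^ (2 * a) * (Finset.univ.filter (fun g : G => ¬ p ∣ orderOf g)).card : ℕ) : ℤ) := by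
    rw [hpars] at hnorm
    exact_mod_cast hnorm
  have hle : (∑ ψ : IrrCharacter G, n ψ ^ 2) ≤ (p ^ (2 * a) : ℕ) := by
    have h1 : (Finset.univ.filter (fun g : G => ¬ p ∣ orderOf g)).card ≤ Nat.card G := by
      rw [Nat.card_eq_fintype_card]
      exact Finset.card_le_univ _
    have h2 : (∑ ψ : IrrCharacter G, n ψ ^ 2) * (Nat.card G : ℤ)
        ≤ ((p ^ (2 * a) : ℕ) : ℤ) * (Nat.card G : ℤ) := by
      rw [hint]
      push_cast
      have : ((Finset.univ.filter (fun g : G => ¬ p ∣ orderOf g)).card : ℤ) ≤ (Nat.card G : ℤ) := by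
        exact_mod_cast h1
      exact mul_le_mul_of_nonneg_left this (by positivity)
    exact le_of_mul_le_mul_right h2 (by exact_mod_cast Nat.card_pos)
  have hne : ∀ ψ ∈ principalBlock M G, n ψ ≠ 0 := by
    intro ψ hψ h0
    apply (mem_principalBlock_iff hM ψ).1 hψ
    have h1 := hn ψ
    rw [h0, Int.cast_zero, classInner] at h1
    have h2 : ∑ g, θ g * conj ((ψ : G → ℂ) g) = 0 := by
      rcases mul_eq_zero.1 h1 with h | h
      · exact absurd h (inv_ne_zero hcard)
      · exact h
    have hp0 : (p : ℂ) ^ a ≠ 0 := pow_ne_zero _ (by exact_mod_cast hM.1.ne_zero)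
    have h3 : ∑ g, regInd p G g * conj ((ψ : G → ℂ) g) = 0 := by
      have : ∑ g, θ g * conj ((ψ : G → ℂ) g)
          = (p : ℂ) ^ a * ∑ g, regInd p G g * conj ((ψ : G → ℂ) g) := by
        rw [Finset.mul_sum]
        apply Finset.sum_congr rfl
        intro g _
        simp only [hθdef]; ring
      rw [this] at h2
      rcases mul_eq_zero.1 h2 with h | h
      · exact absurd h hp0
      · exact h
    have h4 : ∑ g, regInd p G g * (ψ : G → ℂ) g = 0 := by
      have := congrArg conj h3
      rw [map_sum, map_zero] at this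
      rw [← this]
      apply Finset.sum_congr rfl
      intro g _
      rw [map_mul, Complex.conj_conj, conj_regInd]
    rw [Om, h4, zero_div]
    exact memLocalIdeal_zero
  have hcount : (Nat.card (principalBlock M G) : ℤ) ≤ ∑ ψ : IrrCharacter G, n ψ ^ 2 := by
    have h1 : Nat.card (principalBlock M G)
        = (Finset.univ.filter (fun ψ : IrrCharacter G => ψ ∈ principalBlock M G)).card := by
      rw [Nat.card_eq_fintype_card, Fintype.card_subtype]
    rw [h1, Finset.card_eq_sum_ones, Finset.sum_filter]
    push_cast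
    apply Finset.sum_le_sum
    intro ψ _
    by_cases hψ : ψ ∈ principalBlock M G
    · rw [if_pos hψ]
      have := hne ψ hψ
      have h2 : 0 < n ψ ^ 2 := by positivity
      omega
    · rw [if_neg hψ]; positivity
  exact_mod_cast hcount.trans hle

end Cfsg.Agent.Lib.Helper24
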